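import Cfsg.Agent.H94.ND8
import Cfsg.Agent.Orth.Types

/-!
Stabilisers of non-degenerate subspaces in `Ω` are maximal: dimensions `5 + k` and `4 + 4`.
-/

set_option autoImplicit false
set_option linter.unusedSectionVars false

namespace Cfsg.Agent.H94.ND8

open QuadraticMap Module Cfsg.Agent.Orth Cfsg.Agent.GeoMax.Ort Cfsg.Agent.GeoMax Cfsg.Agent.H94.SmallOrt

variable {F V : Type*} [Field F] [AddCommGroup V] [Module F V]
variable [Finite F] [FiniteDimensional F V] {Q : QuadraticForm F V}

/-- the double perp of a line inside a non-degenerate subspace -/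
theorem mem_span_of_perp (hQ : (polarBilin Q).Nondegenerate) {U : Submodule F V} (hU : U ⊓ perp Q U = ⊥) {u y : V}
    (huU : u ∈ U) (hyU : y ∈ U) (h : ∀ x ∈ U, polar Q u x = 0 → polar Q x y = 0) : y ∈ Submodule.span F {u} := by
  by_contra hcon
  obtain ⟨c, hc, hcy⟩ := exists_ortho_not hQ _ hcon
  obtain ⟨w', hw', b', hb'Y, rfl⟩ := exists_add hQ hU c
  have h1 := hc u (Submodule.mem_span_singleton_self u)
  rw [pal, hWU huU hw', zero_add] at h1
  rw [pal, hWU hyU hw', zero_add] at hcy
  rw [h b' hb'Y (by rw [pc]; exact h1)] at hcy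
  exact zero_ne_one hcy

theorem hasE_self {M : Subgroup (OGrp Q)} {a : V} (ha : Q a = 0) (c : F) : HasE M a (c • a) := by
  refine ⟨ha, by rw [psr, pself, ha, mul_zero, mul_zero], ?_⟩
  have : eich Q a (c • a) ha (by rw [psr, pself, ha, mul_zero, mul_zero]) = 1 := by
    refine OGrp_ext fun x => ?_
    rw [eich_apply, coe_one_apply, psr, qsmul, ha]; module
  rw [this]; exact M.one_mem

theorem eich_sub_smul_apply {a b : V} (ha : Q a = 0) (hab : polar Q a b = 0) (c : F)
    (hab' : polar Q a (b - c • a) = 0) (x : V) :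
    (eich Q a (b - c • a) ha hab' : V ≃ₗ[F] V) x = (eich Q a b ha hab : V ≃ₗ[F] V) x := by
  have hq : Q (b - c • a) = Q b := by rw [qsub, qsmul, ha, psr, pc Q b a, hab]; ring
  rw [eich_apply, eich_apply, hq, pdr, psr]; module

theorem nd_maximal5 (hQ : (polarBilin Q).Nondegenerate) (h2 : (2 : F) ≠ 0) {U : Submodule F V}
    (hU : U ⊓ perp Q U = ⊥) (hN : finrank F U = 5) (hNV : 7 ≤ finrank F V)
    (hW0 : perp Q U ≠ ⊥)
    (hswap : ∀ g ∈ commutator (OGrp Q), ¬ U.map ((g : V ≃ₗ[F] V) : V →ₗ[F] V) ≤ perp Q U)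
    (hex : finrank F (perp Q U) = 2 → (∃ s ∈ perp Q U, s ≠ 0 ∧ Q s = 0) → 4 ≤ Nat.card F) :
    Cfsg.Geo.IsMaximalIn (commutator (OGrp Q)) (stabO Q U ⊓ commutator (OGrp Q)) := by
  refine ⟨stab_lt hQ hU (by omega) (by omega) hW0, ?_⟩
  intro M hHM hMI
  by_cases hMH : M = stabO Q U ⊓ commutator (OGrp Q)
  · exact Or.inl hMH
  right
  refine le_antisymm hMI ?_
  obtain ⟨g, hgM, hg⟩ : ∃ g ∈ M, g ∉ stabO Q U := by
    by_contra hcon
    push Not at hcon
    exact hMH (le_antisymm (fun g hg => ⟨hcon g hg, hMI hg⟩) hHM)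
  obtain ⟨a, b, hE, haq, hab, x, hxU, hx⟩ :=
    exists_eich hQ hU (by omega) (by omega) hHM hgM hg (hswap g (hMI hgM))
  obtain ⟨_, _, hρ⟩ := id hE
  by_contra hcon
  have hmix : ∀ u ∈ U, u ≠ 0 → ∀ w ∈ perp Q U, HasE M u w → w = 0 := by
    intro u huU hu0 w hw huw
    by_contra hw0
    exact hcon (le_of_mixed hQ hU (by omega) hNV hHM hex huU hu0 hw hw0 huw)
  have H1 : ∀ u ∈ U, u ≠ 0 → Q u = 0 → polar Q u a = 0 → polar Q u b = 0 → ∀ x ∈ U, polar Q u x = 0 →
      (eich Q a b haq hab : V ≃ₗ[F] V) x ∈ U := by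
    intro u huU hu0 huq hua hub x hxU hux
    by_contra hx
    obtain ⟨w, hw, hw0, huw⟩ := mixed_of_fixed hQ hU (by omega) hHM hρ huU huq
      (by rw [eich_apply, hua, hub]; simp) hxU hux hx
    exact hw0 (hmix u huU hu0 w hw huw)
  obtain ⟨u, ⟨huU, huP⟩, hu0, huq⟩ : ∃ u ∈ U ⊓ perp Q (Submodule.span F {z | z ∈ [a, b]}), u ≠ 0 ∧ Q u = 0 := by
    apply exists_sing_mem
    have h1 := finrank_inf_perp hQ U (Submodule.span F {z | z ∈ [a, b]})
    have h2 := Symp.finrank_span_list_le (K := F) [a, b]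
    simp only [List.length_cons, List.length_nil] at h2
    omega
  have huo := mem_perp_list.1 huP
  have hua := huo a (by simp)
  have hub := huo b (by simp)
  have H1u := H1 u huU hu0 huq hua hub
  -- decompositions
  obtain ⟨aW, haW, aU, haU, ha'⟩ := exists_add hQ hU a
  obtain ⟨bW, hbW, bU, hbU, hb'⟩ := exists_add hQ hU b
  have ea : aW = a - aU := eq_sub_of_add_eq ha'.symm
  have eb : bW = b - bU := eq_sub_of_add_eq hb'.symm
  have hphi : ∀ x ∈ U, (eich Q a b haq hab : V ≃ₗ[F] V) x ∈ U →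
      polar Q x b • aW - polar Q x a • bW - (Q b * polar Q x a) • aW = 0 := by
    intro x hxU hx
    rw [eich_apply] at hx
    have h1 : polar Q x b • aW - polar Q x a • bW - (Q b * polar Q x a) • aW ∈ U := by
      have h3 := U.sub_mem hx (U.sub_mem (U.sub_mem (U.add_mem hxU (U.smul_mem (polar Q x b) haU))
        (U.smul_mem (polar Q x a) hbU)) (U.smul_mem (Q b * polar Q x a) haU))
      convert h3 using 1
      rw [ea, eb]
      module
    have h2 : polar Q x b • aW - polar Q x a • bW - (Q b * polar Q x a) • aW ∈ perp Q U :=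
      Submodule.sub_mem _ (Submodule.sub_mem _ (Submodule.smul_mem _ _ haW) (Submodule.smul_mem _ _ hbW))
        (Submodule.smul_mem _ _ haW)
    have h3 : polar Q x b • aW - polar Q x a • bW - (Q b * polar Q x a) • aW ∈ U ⊓ perp Q U := ⟨h1, h2⟩
    rw [hU] at h3
    exact (Submodule.mem_bot F).1 h3
  have ha0 : a ≠ 0 := by
    rintro rfl
    apply hx
    rw [eich_apply]; simpa using hxU
  have hab1 : ∀ y ∈ U, polar Q a y = polar Q aU y := by
    intro y hy
    rw [ha', pal, hWU hy haW, zero_add]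
  by_cases haW0 : aW = 0
  · -- `a ∈ U`
    rw [haW0, zero_add] at ha'
    have haU' : a ∈ U := by rw [ha']; exact haU
    have h1 : polar Q a bU = 0 := by
      have := hab
      rwa [hb', par, hUW haU' hbW, zero_add] at this
    have h3 := hE.sub (hasE_U hQ (by omega) hHM haU' hbU haq h1)
    have h4 : b - bU = bW := by rw [hb', add_sub_cancel_right]
    rw [h4] at h3
    have hbW0 := hmix a haU' ha0 bW hbW h3
    rw [hbW0, zero_add] at hb'
    have hbU' : b ∈ U := by rw [hb']; exact hbU
    apply hx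
    rw [eich_apply]
    exact U.sub_mem (U.sub_mem (U.add_mem hxU (U.smul_mem _ haU')) (U.smul_mem _ hbU')) (U.smul_mem _ haU')
  by_cases hdich : ∃ x₁ ∈ U, polar Q u x₁ = 0 ∧ polar Q x₁ a ≠ 0
  · obtain ⟨x₁, hx₁U, hux₁, hx₁a⟩ := hdich
    have h1 := hphi x₁ hx₁U (H1u x₁ hx₁U hux₁)
    set l := polar Q x₁ b / polar Q x₁ a - Q b with hl
    have hbWl : bW = l • aW := by
      have h3 : polar Q x₁ a • bW = (polar Q x₁ b - Q b * polar Q x₁ a) • aW := by
        rw [sub_smul]
        have : polar Q x₁ b • aW - (Q b * polar Q x₁ a) • aW - polar Q x₁ a • bW = 0 := by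
          rw [← h1]; module
        exact (sub_eq_zero.1 this).symm
      have h4 := congrArg (fun v => (polar Q x₁ a)⁻¹ • v) h3
      simp only [smul_smul] at h4
      rw [inv_mul_cancel₀ hx₁a, one_smul] at h4
      rw [h4, hl]
      congr 1
      field_simp
    set b' := b - l • a with hb'def
    have hb'U : b' ∈ U := by
      have : b' = bU - l • aU := by
        rw [hb'def, hb', ha', hbWl]; module
      rw [this]
      exact U.sub_mem hbU (U.smul_mem _ haU)
    have hEb' : HasE M a b' := hE.sub (hasE_self haq l)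
    have hab' := hEb'.ortho
    have hρ' : ∀ x, (eich Q a b' haq hab' : V ≃ₗ[F] V) x = (eich Q a b haq hab : V ≃ₗ[F] V) x :=
      eich_sub_smul_apply haq hab l hab'
    by_cases hq : Q b' = 0
    · have h3 := HasE.symm hEb' hq
      have hb'0 : b' ≠ 0 := by
        intro h0
        apply hx
        rw [← hρ', eich_apply, h0]; simpa using hxU
      have h4 : polar Q b' aU = 0 := by
        rw [pc, ← hab1 b' hb'U]; exact hab'
      have h5 := h3.sub (hasE_U hQ (by omega) hHM hb'U haU hq h4)
      have h6 : a - aU = aW := by rw [ha', add_sub_cancel_right]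
      rw [h6] at h5
      exact haW0 (hmix b' hb'U hb'0 aW haW h5)
    · -- the vector `b' - Q b' • aU`
      have h3 : b' - Q b' • aU ∈ Submodule.span F {u} := by
        refine mem_span_of_perp hQ hU huU (U.sub_mem hb'U (U.smul_mem _ haU)) fun x hx hux => ?_
        have h4 := H1u x hx hux
        rw [← hρ', eich_apply] at h4
        have h5 : (polar Q x b' - Q b' * polar Q x a) • aW ∈ U := by
          have h6 := U.sub_mem h4 (U.sub_mem (U.add_mem hx (U.smul_mem (polar Q x b' - Q b' * polar Q x a) haU))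
            (U.smul_mem (polar Q x a) hb'U))
          convert h6 using 1
          rw [ea]
          module
        have h7 : polar Q x b' - Q b' * polar Q x a = 0 := by
          by_contra h8
          have h9 := U.smul_mem (polar Q x b' - Q b' * polar Q x a)⁻¹ h5
          rw [smul_smul, inv_mul_cancel₀ h8, one_smul] at h9
          have h10 : aW ∈ U ⊓ perp Q U := ⟨h9, haW⟩
          rw [hU] at h10
          exact haW0 ((Submodule.mem_bot F).1 h10)
        rw [pdr, psr, pc Q x aU, ← hab1 x hx, pc Q a x]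
        exact h7
      obtain ⟨m, hm⟩ := Submodule.mem_span_singleton.1 h3
      have h4 := congrArg (fun v => polar Q b' v) hm
      have hub' : polar Q b' u = 0 := by
        rw [pc, hb'def, pdr, psr, hua, hub]; ring
      have h5 : polar Q b' aU = 0 := by
        rw [pc, ← hab1 b' hb'U]; exact hab'
      simp only [pdr, psr, pself, hub', h5, mul_zero, sub_zero] at h4
      exact (mul_ne_zero h2 hq) h4.symm
  · push Not at hdich
    -- then also `b`
    have hdb : ∀ x ∈ U, polar Q u x = 0 → polar Q x b = 0 := by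
      intro x hx hux
      have h1 := hphi x hx (H1u x hx hux)
      rw [hdich x hx hux, zero_smul, mul_zero, zero_smul, sub_zero, sub_zero] at h1
      exact (smul_eq_zero.1 h1).resolve_right haW0
    obtain ⟨u', hu'U, hu'q, huu'⟩ := exists_hyp hU huU hu0 huq
    obtain ⟨v, ⟨hvU, hvP⟩, hv0, hvq⟩ : ∃ v ∈ U ⊓ perp Q (Submodule.span F {z | z ∈ [u, u']}), v ≠ 0 ∧ Q v = 0 := by
      apply exists_sing_mem
      have h1 := finrank_inf_perp hQ U (Submodule.span F {z | z ∈ [u, u']})
      have h2 := Symp.finrank_span_list_le (K := F) [u, u']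
      simp only [List.length_cons, List.length_nil] at h2
      omega
    have hvo := mem_perp_list.1 hvP
    have hvu := hvo u (by simp)
    have hvu' := hvo u' (by simp)
    have H1v := H1 v hvU hv0 hvq (hdich v hvU (by rw [pc]; exact hvu)) (hdb v hvU (by rw [pc]; exact hvu))
    apply hx
    have h1 : x = (x - polar Q x u • u') + polar Q x u • u' := by module
    rw [h1, map_add]
    refine U.add_mem (H1u _ (U.sub_mem hxU (U.smul_mem _ hu'U)) ?_) (H1v _ (U.smul_mem _ hu'U) ?_)
    · rw [pdr, psr, huu', pc Q u x]; ring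
    · rw [psr, hvu', mul_zero]

end Cfsg.Agent.H94.ND8
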