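import Cfsg.Agent.H90.LargePair
import Cfsg.Agent.Solv.Core

/-!
The pair `Q, Q' = Q^g` of large extraspecial subgroups with `s = z^g ∈ Q`, `z ∈ Q'`.
-/
set_option autoImplicit false

namespace Cfsg.Agent.H94

open Cfsg Cfsg.Agent.H90
open scoped commutatorElement

/-- a linked pair of extraspecial groups -/
structure Pr {G : Type*} [Group G] (Q Q' : Subgroup G) (z s : G) : Prop where
  h : PL Q z
  h' : PL Q' s
  hs : s ∈ Q
  hz : z ∈ Q'
  hne : s ≠ z

variable {G : Type*} [Group G] {Q Q' : Subgroup G} {z s : G}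

namespace Pr

theorem symm (P : Pr Q Q' z s) : Pr Q' Q s z := ⟨P.h', P.h, P.hz, P.hs, P.hne.symm⟩

theorem comm (P : Pr Q Q' z s) : s * z = z * s := P.h.central s P.hs

theorem z2 (P : Pr Q Q' z s) : z * z = 1 := P.h.sq
theorem s2 (P : Pr Q Q' z s) : s * s = 1 := P.h'.sq

/-- `A = C_Q(s)`. -/
def A (Q : Subgroup G) (s : G) : Subgroup G := Q ⊓ Subgroup.centralizer ({s} : Set G)

theorem mem_A {a : G} : a ∈ A Q s ↔ a ∈ Q ∧ a * s = s * a := by
  rw [A, Subgroup.mem_inf, Subgroup.mem_centralizer_singleton_iff]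

/-- commuting with both -/
def CV (z s : G) : Subgroup G := Subgroup.centralizer ({z} : Set G) ⊓ Subgroup.centralizer ({s} : Set G)

theorem mem_CV {a : G} : a ∈ CV z s ↔ a * z = z * a ∧ a * s = s * a := by
  rw [CV, Subgroup.mem_inf, Subgroup.mem_centralizer_singleton_iff, Subgroup.mem_centralizer_singleton_iff]

theorem CV_symm : CV z s = CV s z := by rw [CV, CV, inf_comm]

theorem A_le_CV (P : Pr Q Q' z s) : A Q s ≤ CV z s := by
  intro a ha
  rw [mem_A] at ha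
  exact mem_CV.mpr ⟨P.h.central a ha.1, ha.2⟩

theorem mem_A_of (P : Pr Q Q' z s) {a : G} (ha : a ∈ Q) (ha' : a ∈ CV z s) : a ∈ A Q s :=
  mem_A.mpr ⟨ha, (mem_CV.mp ha').2⟩

/-- `R = A B`. -/
def R (Q Q' : Subgroup G) (z s : G) : Subgroup G := A Q s ⊔ A Q' z

theorem R_symm : R Q Q' z s = R Q' Q s z := by rw [R, R, sup_comm]

theorem R_le_CV (P : Pr Q Q' z s) : R Q Q' z s ≤ CV z s :=
  sup_le P.A_le_CV (by rw [CV_symm]; exact P.symm.A_le_CV)

theorem A_le_R {a : G} (ha : a ∈ A Q s) : a ∈ R Q Q' z s := Subgroup.mem_sup_left ha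
theorem B_le_R {b : G} (hb : b ∈ A Q' z) : b ∈ R Q Q' z s := Subgroup.mem_sup_right hb

/-- `Q` normalizes `C(V)`. -/
theorem conj_CV (P : Pr Q Q' z s) {q c : G} (hq : q ∈ Q) (hc : c ∈ CV z s) : q * c * q⁻¹ ∈ CV z s := by
  rw [mem_CV] at hc ⊢
  have hqz : q * z = z * q := P.h.central q hq
  have hqz' : q⁻¹ * z = z * q⁻¹ := P.h.central _ (Q.inv_mem hq)
  constructor
  · calc q * c * q⁻¹ * z = q * c * (q⁻¹ * z) := by group
      _ = q * (c * z) * q⁻¹ := by rw [hqz']; group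
      _ = (q * z) * c * q⁻¹ := by rw [hc.1]; group
      _ = z * (q * c * q⁻¹) := by rw [hqz]; group
  · have key : ∀ t, c * t = t * c → q⁻¹ * s * q = t → q * c * q⁻¹ * s = s * (q * c * q⁻¹) := by
      intro t ht hst
      have : s = q * t * q⁻¹ := by rw [← hst]; group
      calc q * c * q⁻¹ * s = q * (c * t) * q⁻¹ := by rw [this]; group
        _ = q * (t * c) * q⁻¹ := by rw [ht]
        _ = s * (q * c * q⁻¹) := by rw [this]; group
    rcases P.h.conj_eq P.hs (Q.inv_mem hq) with h1 | h1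
    · exact key s hc.2 (by rw [inv_inv] at h1; exact h1)
    · refine key (s * z) ?_ (by rw [inv_inv] at h1; exact h1)
      rw [← mul_assoc, hc.2, mul_assoc, hc.1, mul_assoc]

/-- `Q` normalizes `R`. -/
theorem conj_R_left (P : Pr Q Q' z s) {q r : G} (hq : q ∈ Q) (hr : r ∈ R Q Q' z s) :
    q * r * q⁻¹ ∈ R Q Q' z s := by
  have h1 : R Q Q' z s ≤ (R Q Q' z s).comap (MulAut.conj q).toMonoidHom := by
    rw [R]
    apply sup_le
    · intro a ha
      have haQ := (mem_A.mp ha).1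
      exact A_le_R (P.mem_A_of (Q.mul_mem (Q.mul_mem hq haQ) (Q.inv_mem hq)) (P.conj_CV hq (P.A_le_CV ha)))
    · intro b hb
      have hb' := mem_A.mp hb
      have hbC : b ∈ CV z s := P.R_le_CV (Pr.B_le_R hb)
      have h2 : q * b * q⁻¹ * b⁻¹ ∈ A Q s := by
        apply P.mem_A_of
        · have h3 : b * q⁻¹ * b⁻¹ ∈ Q := P.h.norm b hb'.2 _ (Q.inv_mem hq)
          have : q * (b * q⁻¹ * b⁻¹) ∈ Q := Q.mul_mem hq h3
          convert this using 1; group
        · exact mul_mem (P.conj_CV hq hbC) (inv_mem hbC)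
      have h3 : q * b * q⁻¹ = (q * b * q⁻¹ * b⁻¹) * b := by group
      change q * b * q⁻¹ ∈ R Q Q' z s
      rw [h3]
      exact mul_mem (A_le_R h2) (B_le_R hb)
  exact h1 hr

theorem conj_R_right (P : Pr Q Q' z s) {q r : G} (hq : q ∈ Q') (hr : r ∈ R Q Q' z s) :
    q * r * q⁻¹ ∈ R Q Q' z s := by
  rw [R_symm] at hr ⊢
  exact P.symm.conj_R_left hq hr

/-- `X = ⟨Q, Q'⟩` -/
def X (Q Q' : Subgroup G) : Subgroup G := Q ⊔ Q'

theorem X_le_normalizer (P : Pr Q Q' z s) : X Q Q' ≤ Subgroup.normalizer (R Q Q' z s : Set G) := by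
  rw [X]
  apply sup_le
  · intro q hq
    rw [Subgroup.mem_normalizer_iff]
    intro r
    refine ⟨fun hr => P.conj_R_left hq hr, fun hr => ?_⟩
    have := P.conj_R_left (Q.inv_mem hq) hr
    convert this using 1; group
  · intro q hq
    rw [Subgroup.mem_normalizer_iff]
    intro r
    refine ⟨fun hr => P.conj_R_right hq hr, fun hr => ?_⟩
    have := P.conj_R_right (Q'.inv_mem hq) hr
    convert this using 1; group

theorem conj_R (P : Pr Q Q' z s) {x r : G} (hx : x ∈ X Q Q') (hr : r ∈ R Q Q' z s) :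
    x * r * x⁻¹ ∈ R Q Q' z s :=
  (Subgroup.mem_normalizer_iff.mp (P.X_le_normalizer hx) r).mp hr

theorem X_le_normalizer_CV (P : Pr Q Q' z s) : X Q Q' ≤ Subgroup.normalizer (CV z s : Set G) := by
  have key : ∀ {Q Q' : Subgroup G} {z s : G}, Pr Q Q' z s → Q ≤ Subgroup.normalizer (CV z s : Set G) := by
    intro Q Q' z s P q hq
    rw [Subgroup.mem_normalizer_iff]
    intro r
    refine ⟨fun hr => P.conj_CV hq hr, fun hr => ?_⟩
    have := P.conj_CV (Q.inv_mem hq) hr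
    convert this using 1; group
  exact sup_le (key P) (by rw [CV_symm]; exact key P.symm)

theorem conj_CV_X (P : Pr Q Q' z s) {x r : G} (hx : x ∈ X Q Q') (hr : r ∈ CV z s) :
    x * r * x⁻¹ ∈ CV z s :=
  (Subgroup.mem_normalizer_iff.mp (P.X_le_normalizer_CV hx) r).mp hr

theorem A_le_normalizer (P : Pr Q Q' z s) : A Q s ≤ Subgroup.normalizer (A Q' z : Set G) := by
  intro a ha
  have ha' := mem_A.mp ha
  have haz : a * z = z * a := P.h.central a ha'.1
  have key : ∀ a : G, a * z = z * a → a * s = s * a → ∀ b ∈ A Q' z, a * b * a⁻¹ ∈ A Q' z := by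
    intro a haz has b hb
    rw [mem_A] at hb ⊢
    refine ⟨P.h'.norm a has b hb.1, ?_⟩
    have haz' : a⁻¹ * z = z * a⁻¹ := by rw [inv_mul_eq_iff_eq_mul, ← mul_assoc, haz]; group
    calc a * b * a⁻¹ * z = a * b * (a⁻¹ * z) := by group
      _ = a * (b * z) * a⁻¹ := by rw [haz']; group
      _ = (a * z) * b * a⁻¹ := by rw [hb.2]; group
      _ = z * (a * b * a⁻¹) := by rw [haz]; group
  rw [Subgroup.mem_normalizer_iff]
  intro b
  refine ⟨key a haz ha'.2 b, fun hb => ?_⟩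
  have haz' : a⁻¹ * z = z * a⁻¹ := by rw [inv_mul_eq_iff_eq_mul, ← mul_assoc, haz]; group
  have has' : a⁻¹ * s = s * a⁻¹ := by rw [inv_mul_eq_iff_eq_mul, ← mul_assoc, ha'.2]; group
  have := key a⁻¹ haz' has' _ hb
  convert this using 1; group

theorem isPGroup_R (P : Pr Q Q' z s) : IsPGroup 2 (R Q Q' z s) := by
  apply IsPGroup.to_sup_of_normal_right'
  · exact P.h.isPGroup.to_le inf_le_left
  · exact P.h'.isPGroup.to_le inf_le_left
  · exact P.A_le_normalizer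

/-- elements of `R` are products `a b`. -/
theorem mem_R (P : Pr Q Q' z s) {r : G} (hr : r ∈ R Q Q' z s) : ∃ a ∈ A Q s, ∃ b ∈ A Q' z, r = a * b := by
  rw [R, Subgroup.sup_eq_closure_mul] at hr
  induction hr using Subgroup.closure_induction with
  | mem x hx =>
    obtain ⟨a, ha, b, hb, rfl⟩ := hx
    exact ⟨a, ha, b, hb, rfl⟩
  | one => exact ⟨1, one_mem _, 1, one_mem _, by simp⟩
  | mul x y _ _ ihx ihy =>
    obtain ⟨a, ha, b, hb, rfl⟩ := ihx
    obtain ⟨c, hc, d, hd, rfl⟩ := ihy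
    have h1 : c⁻¹ * b * c ∈ A Q' z := (Subgroup.mem_normalizer_iff''.mp (P.A_le_normalizer hc) b).mp hb
    exact ⟨a * c, mul_mem ha hc, (c⁻¹ * b * c) * d, mul_mem h1 hd, by group⟩
  | inv x _ ih =>
    obtain ⟨a, ha, b, hb, rfl⟩ := ih
    have h1 : a * b⁻¹ * a⁻¹ ∈ A Q' z := (Subgroup.mem_normalizer_iff.mp (P.A_le_normalizer ha) b⁻¹).mp (inv_mem hb)
    exact ⟨a⁻¹, inv_mem ha, a * b⁻¹ * a⁻¹, h1, by group⟩

theorem E_le_A (P : Pr Q Q' z s) : Q ⊓ Q' ≤ A Q s := fun e he => mem_A.mpr ⟨he.1, P.h'.central e he.2⟩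
theorem E_le_B (P : Pr Q Q' z s) : Q ⊓ Q' ≤ A Q' z := fun e he => mem_A.mpr ⟨he.2, P.h.central e he.1⟩

theorem z_mem_E (P : Pr Q Q' z s) : z ∈ Q ⊓ Q' := ⟨P.h.mem, P.hz⟩
theorem s_mem_E (P : Pr Q Q' z s) : s ∈ Q ⊓ Q' := ⟨P.hs, P.h'.mem⟩

/-- `V = {1, z, s, z s}` -/
theorem mem_V (P : Pr Q Q' z s) (x : G) :
    x ∈ Subgroup.zpowers z ⊔ Subgroup.zpowers s ↔ x = 1 ∨ x = z ∨ x = s ∨ x = z * s :=
  card_sup_zpowers_of_involutions P.z2 P.s2 P.h.ne_one P.h'.ne_one P.hne P.comm x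

theorem commutator_A (P : Pr Q Q' z s) {x y : G} (hx : x ∈ Q) (hy : y ∈ Q) : x * y * x⁻¹ * y⁻¹ = 1 ∨ x * y * x⁻¹ * y⁻¹ = z := by
  rcases P.h.conj_eq hy hx with h1 | h1
  · left; rw [h1]; group
  · right; rw [h1, P.h.central y hy]; group

theorem comm_mem_E (P : Pr Q Q' z s) {a b : G} (ha : a ∈ A Q s) (hb : b ∈ A Q' z) :
    a * b * a⁻¹ * b⁻¹ ∈ Q ⊓ Q' := by
  rw [mem_A] at ha hb
  constructor
  · have h3 : b * a⁻¹ * b⁻¹ ∈ Q := P.h.norm b hb.2 _ (Q.inv_mem ha.1)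
    have h4 : a * (b * a⁻¹ * b⁻¹) ∈ Q := Q.mul_mem ha.1 h3
    have h5 : a * b * a⁻¹ * b⁻¹ = a * (b * a⁻¹ * b⁻¹) := by group
    rw [h5]; exact h4
  · exact Q'.mul_mem (P.h'.norm a ha.2 b hb.1) (Q'.inv_mem hb.1)

/-- `E` is elementary abelian -/
theorem E_sq (P : Pr Q Q' z s) {e : G} (he : e ∈ Q ⊓ Q') : e * e = 1 := by
  rcases P.h.sqr he.1 with h1 | h1
  · exact h1
  · rcases P.h'.sqr he.2 with h2 | h2
    · exact h2
    · exact absurd (h2.symm.trans h1) P.hne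

theorem E_comm (P : Pr Q Q' z s) {e f : G} (he : e ∈ Q ⊓ Q') (hf : f ∈ Q ⊓ Q') : e * f = f * e := by
  have h1 := P.commutator_A he.1 hf.1
  have h2 := P.symm.commutator_A he.2 hf.2
  have h3 : e * f * e⁻¹ * f⁻¹ = 1 := by
    rcases h1 with h1 | h1
    · exact h1
    · rcases h2 with h2 | h2
      · exact h2
      · exact absurd (h2.symm.trans h1) P.hne
  rw [mul_inv_eq_one, mul_inv_eq_iff_eq_mul] at h3
  exact h3

/-- `E` is normalized by `R`. -/
theorem conj_E (P : Pr Q Q' z s) {c e : G} (hc : c ∈ CV z s) (he : e ∈ Q ⊓ Q') : c * e * c⁻¹ ∈ Q ⊓ Q' := by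
  rw [mem_CV] at hc
  exact ⟨P.h.norm c hc.1 e he.1, P.h'.norm c hc.2 e he.2⟩

/-- `R' ≤ E`. -/
theorem comm_R_mem_E (P : Pr Q Q' z s) {x y : G} (hx : x ∈ R Q Q' z s) (hy : y ∈ R Q Q' z s) :
    x * y * x⁻¹ * y⁻¹ ∈ Q ⊓ Q' := by
  have hV1 : ∀ {x : G}, (x = 1 ∨ x = z) → x ∈ Q ⊓ Q' := by
    rintro x (rfl | rfl)
    · exact one_mem _
    · exact P.z_mem_E
  have hV2 : ∀ {x : G}, (x = 1 ∨ x = s) → x ∈ Q ⊓ Q' := by
    rintro x (rfl | rfl)
    · exact one_mem _
    · exact P.s_mem_E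
  -- first with `x ∈ A`
  have h1 : ∀ a ∈ A Q s, ∀ y ∈ R Q Q' z s, a * y * a⁻¹ * y⁻¹ ∈ Q ⊓ Q' := by
    intro a ha y hy
    obtain ⟨c, hc, d, hd, rfl⟩ := P.mem_R hy
    have e1 : a * (c * d) * a⁻¹ * (c * d)⁻¹ = (a * c * a⁻¹ * c⁻¹) * (c * (a * d * a⁻¹ * d⁻¹) * c⁻¹) := by group
    rw [e1]
    exact mul_mem (hV1 (P.commutator_A (mem_A.mp ha).1 (mem_A.mp hc).1)) (P.conj_E (P.A_le_CV hc) (P.comm_mem_E ha hd))
  have h2 : ∀ b ∈ A Q' z, ∀ y ∈ R Q Q' z s, b * y * b⁻¹ * y⁻¹ ∈ Q ⊓ Q' := by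
    intro b hb y hy
    obtain ⟨c, hc, d, hd, rfl⟩ := P.mem_R hy
    have e1 : b * (c * d) * b⁻¹ * (c * d)⁻¹ = (c * b * c⁻¹ * b⁻¹)⁻¹ * (c * (b * d * b⁻¹ * d⁻¹) * c⁻¹) := by group
    rw [e1]
    exact mul_mem (inv_mem (P.comm_mem_E hc hb)) (P.conj_E (P.A_le_CV hc) (hV2 (P.symm.commutator_A (mem_A.mp hb).1 (mem_A.mp hd).1)))
  obtain ⟨a, ha, b, hb, rfl⟩ := P.mem_R hx
  have e1 : a * b * y * (a * b)⁻¹ * y⁻¹ = (a * (b * y * b⁻¹ * y⁻¹) * a⁻¹) * (a * y * a⁻¹ * y⁻¹) := by group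
  rw [e1]
  exact mul_mem (P.conj_E (P.A_le_CV ha) (h2 b hb y hy)) (h1 a ha y hy)

theorem sq_R_mem_E (P : Pr Q Q' z s) {x : G} (hx : x ∈ R Q Q' z s) : x ^ 2 ∈ Q ⊓ Q' := by
  obtain ⟨a, ha, b, hb, rfl⟩ := P.mem_R hx
  have e1 : (a * b) ^ 2 = (a * b * a⁻¹ * b⁻¹) * (b * (a * a) * b⁻¹) * (b * b) := by
    rw [pow_two]; group
  rw [e1]
  refine mul_mem (mul_mem (P.comm_mem_E ha hb) (P.conj_E (P.R_le_CV (B_le_R hb)) ?_)) ?_
  · rcases P.h.sqr (mem_A.mp ha).1 with h | h <;> rw [h]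
    · exact one_mem _
    · exact P.z_mem_E
  · rcases P.h'.sqr (mem_A.mp hb).1 with h | h <;> rw [h]
    · exact one_mem _
    · exact P.s_mem_E

/-- `[E, x] ≤ ⟨z⟩` for `x ∈ Q` -/
theorem comm_E_mem_V (P : Pr Q Q' z s) {x e : G} (hx : x ∈ X Q Q') (he : e ∈ Q ⊓ Q') :
    x * e * x⁻¹ * e⁻¹ ∈ Subgroup.zpowers z ⊔ Subgroup.zpowers s := by
  have hXV : ∀ x ∈ (Q : Set G) ∪ (Q' : Set G), ∀ v ∈ Subgroup.zpowers z ⊔ Subgroup.zpowers s, x * v * x⁻¹ ∈ Subgroup.zpowers z ⊔ Subgroup.zpowers s := by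
    have key : ∀ {Q Q' : Subgroup G} {z s : G}, Pr Q Q' z s → ∀ x ∈ Q, ∀ v ∈ Subgroup.zpowers z ⊔ Subgroup.zpowers s, x * v * x⁻¹ ∈ Subgroup.zpowers z ⊔ Subgroup.zpowers s := by
      intro Q Q' z s P x hx v hv
      rw [P.mem_V] at hv
      have h1 : x * s * x⁻¹ ∈ Subgroup.zpowers z ⊔ Subgroup.zpowers s := by
        rw [P.mem_V]
        rcases P.h.conj_eq P.hs hx with h1 | h1
        · rw [h1]; tauto
        · rw [h1, P.comm]; tauto
      have h2 : x * z * x⁻¹ ∈ Subgroup.zpowers z ⊔ Subgroup.zpowers s := by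
        rw [P.mem_V, P.h.central x hx]; right; left; group
      rcases hv with rfl | rfl | rfl | rfl
      · simp
      · exact h2
      · exact h1
      · have e : x * (z * s) * x⁻¹ = (x * z * x⁻¹) * (x * s * x⁻¹) := by group
        rw [e]; exact mul_mem h2 h1
    rintro x (hx | hx) v hv
    · exact key P x hx v hv
    · rw [sup_comm] at hv ⊢
      exact key P.symm x hx v hv
  have hXE : ∀ x ∈ (Q : Set G) ∪ (Q' : Set G), ∀ e ∈ Q ⊓ Q', x * e * x⁻¹ * e⁻¹ ∈ Subgroup.zpowers z ⊔ Subgroup.zpowers s := by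
    rintro x (hx | hx) e he
    · rw [P.mem_V]
      rcases P.commutator_A hx he.1 with h | h <;> rw [h] <;> tauto
    · rw [P.mem_V]
      rcases P.symm.commutator_A hx he.2 with h | h <;> rw [h] <;> tauto
  have hX : X Q Q' = Subgroup.closure ((Q : Set G) ∪ (Q' : Set G)) := by
    rw [X, Subgroup.closure_union, Subgroup.closure_eq, Subgroup.closure_eq]
  rw [hX] at hx
  have hx' : x ∈ Subgroup.closure ((Q : Set G) ∪ (Q' : Set G)) := hx
  -- simultaneous induction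
  suffices H : (∀ v ∈ Subgroup.zpowers z ⊔ Subgroup.zpowers s, x * v * x⁻¹ ∈ Subgroup.zpowers z ⊔ Subgroup.zpowers s) ∧
      (∀ e ∈ Q ⊓ Q', x * e * x⁻¹ * e⁻¹ ∈ Subgroup.zpowers z ⊔ Subgroup.zpowers s) from H.2 e he
  clear hx
  have hinvset : ∀ x ∈ (Q : Set G) ∪ (Q' : Set G), x⁻¹ ∈ (Q : Set G) ∪ (Q' : Set G) := by
    rintro x (hx | hx)
    · exact Or.inl (Q.inv_mem hx)
    · exact Or.inr (Q'.inv_mem hx)
  have hstep : ∀ x y : G, ((∀ v ∈ Subgroup.zpowers z ⊔ Subgroup.zpowers s, x * v * x⁻¹ ∈ Subgroup.zpowers z ⊔ Subgroup.zpowers s) ∧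
      (∀ e ∈ Q ⊓ Q', x * e * x⁻¹ * e⁻¹ ∈ Subgroup.zpowers z ⊔ Subgroup.zpowers s)) → y ∈ (Q : Set G) ∪ (Q' : Set G) →
      ((∀ v ∈ Subgroup.zpowers z ⊔ Subgroup.zpowers s, (x * y) * v * (x * y)⁻¹ ∈ Subgroup.zpowers z ⊔ Subgroup.zpowers s) ∧
      (∀ e ∈ Q ⊓ Q', (x * y) * e * (x * y)⁻¹ * e⁻¹ ∈ Subgroup.zpowers z ⊔ Subgroup.zpowers s)) := by
    rintro x y ⟨ih1, ih2⟩ hy
    constructor
    · intro v hv
      have e1 : (x * y) * v * (x * y)⁻¹ = x * (y * v * y⁻¹) * x⁻¹ := by group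
      rw [e1]
      exact ih1 _ (hXV y hy v hv)
    · intro e he
      have e1 : (x * y) * e * (x * y)⁻¹ * e⁻¹ = (x * (y * e * y⁻¹ * e⁻¹) * x⁻¹) * (x * e * x⁻¹ * e⁻¹) := by group
      rw [e1]
      exact mul_mem (ih1 _ (hXE y hy e he)) (ih2 e he)
  induction hx' using Subgroup.closure_induction_right with
  | one => simp
  | mul_right x _ y hy ih => exact hstep x y ih hy
  | mul_inv_cancel x _ y hy ih => exact hstep x y⁻¹ ih (hinvset y hy)

/-- an element commuting with `z` and with `A = C_Q(s)` lies in `V`. -/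
theorem mem_V_of_comm [Finite G] (P : Pr Q Q' z s) {x : G} (hxz : x * z = z * x)
    (hxA : ∀ a ∈ A Q s, x * a = a * x) : x ∈ Subgroup.zpowers z ⊔ Subgroup.zpowers s := by
  rw [P.mem_V]
  obtain ⟨q, hq, hqs⟩ := P.h.exists_conj P.hs P.h'.ne_one P.hne
  -- Q = A ∪ A q
  have hQA : ∀ y ∈ Q, y ∈ A Q s ∨ y * q⁻¹ ∈ A Q s := by
    intro y hy
    rcases P.h.conj_eq P.hs hy with h1 | h1
    · left; exact mem_A.mpr ⟨hy, mul_inv_eq_iff_eq_mul.mp h1⟩
    · right
      refine mem_A.mpr ⟨Q.mul_mem hy (Q.inv_mem hq), ?_⟩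
      have h2 : q⁻¹ * s * q = s * z := by
        have hz1 : q⁻¹ * z = z * q⁻¹ := P.h.central _ (Q.inv_mem hq)
        have h3 : s = (q⁻¹ * s * q) * z := by
          calc s = q⁻¹ * (q * s * q⁻¹) * q := by group
            _ = q⁻¹ * (s * z) * q := by rw [hqs]
            _ = q⁻¹ * s * (z * q) := by group
            _ = q⁻¹ * s * (q * z) := by rw [P.h.central q hq]
            _ = _ := by group
        calc q⁻¹ * s * q = (q⁻¹ * s * q) * (z * z) := by rw [P.z2, mul_one]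
          _ = ((q⁻¹ * s * q) * z) * z := by group
          _ = s * z := by rw [← h3]
      calc y * q⁻¹ * s = y * (q⁻¹ * s * q) * q⁻¹ := by group
        _ = y * s * (z * q⁻¹) := by rw [h2]; group
        _ = (y * s * y⁻¹) * (y * q⁻¹) * z := by rw [← P.h.central q⁻¹ (Q.inv_mem hq)]; group
        _ = s * z * ((y * q⁻¹) * z) := by rw [h1]; group
        _ = s * z * (z * (y * q⁻¹)) := by rw [P.h.central _ (Q.mul_mem hy (Q.inv_mem hq))]
        _ = s * (z * z) * (y * q⁻¹) := by group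
        _ = s * (y * q⁻¹) := by rw [P.z2, mul_one]
  have hcent : x * q = q * x → x = 1 ∨ x = z := by
    intro hxq
    apply P.h.cent
    intro y hy
    rcases hQA y hy with h1 | h1
    · exact hxA y h1
    · have h2 := hxA _ h1
      calc x * y = (x * (y * q⁻¹)) * q := by group
        _ = (y * q⁻¹) * (x * q) := by rw [h2]; group
        _ = y * x := by rw [hxq]; group
  have hxq : x * q * x⁻¹ ∈ Q := P.h.norm x hxz q hq
  -- w = q⁻¹ (x q x⁻¹) centralizes A
  have hw : q⁻¹ * (x * q * x⁻¹) ∈ Q ⊓ Subgroup.centralizer ((Q ⊓ Subgroup.centralizer ({s} : Set G) : Subgroup G) : Set G) := by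
    refine ⟨Q.mul_mem (Q.inv_mem hq) hxq, ?_⟩
    change _ ∈ Subgroup.centralizer _
    rw [Subgroup.mem_centralizer_iff]
    intro a ha
    have ha' : a ∈ A Q s := ha
    have haQ := (mem_A.mp ha').1
    have hxa := hxA a ha'
    have hxa' : x⁻¹ * a = a * x⁻¹ := by rw [inv_mul_eq_iff_eq_mul, ← mul_assoc, hxa]; group
    have hxz' : x⁻¹ * z = z * x⁻¹ := by rw [inv_mul_eq_iff_eq_mul, ← mul_assoc, hxz]; group
    have h3 : x * (q * a * q⁻¹) * x⁻¹ = q * a * q⁻¹ := by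
      rcases P.h.conj_eq haQ hq with h4 | h4
      · rw [h4, hxa]; group
      · rw [h4]
        calc x * (a * z) * x⁻¹ = (x * a) * (z * x⁻¹) := by group
          _ = a * (x * x⁻¹) * z := by rw [hxa, ← hxz']; group
          _ = a * z := by group
    have h5 : (x * q * x⁻¹) * a * (x * q * x⁻¹)⁻¹ = q * a * q⁻¹ := by
      rw [← h3]
      calc (x * q * x⁻¹) * a * (x * q * x⁻¹)⁻¹ = x * q * (x⁻¹ * a) * x * q⁻¹ * x⁻¹ := by group
        _ = _ := by rw [hxa']; group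
    calc a * (q⁻¹ * (x * q * x⁻¹)) = q⁻¹ * (q * a * q⁻¹) * (x * q * x⁻¹) := by group
      _ = q⁻¹ * ((x * q * x⁻¹) * a * (x * q * x⁻¹)⁻¹) * (x * q * x⁻¹) := by rw [h5]
      _ = q⁻¹ * (x * q * x⁻¹) * a := by group
  rw [P.h.toXS.double P.hs P.s2 P.h'.ne_one P.hne, P.mem_V] at hw
  set w := q⁻¹ * (x * q * x⁻¹) with hwdef
  have hxqx : x * q * x⁻¹ = q * w := by rw [hwdef]; group
  -- (q w)^2 = q^2
  have hsq : (q * w) * (q * w) = q * q := by
    rw [← hxqx]
    rcases P.h.sqr hq with h1 | h1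
    · calc x * q * x⁻¹ * (x * q * x⁻¹) = x * (q * q) * x⁻¹ := by group
        _ = q * q := by rw [h1]; simp
    · calc x * q * x⁻¹ * (x * q * x⁻¹) = x * (q * q) * x⁻¹ := by group
        _ = q * q := by rw [h1, hxz]; group
  have hwq : w * q * w = q := by
    have : q * (w * q * w) = q * q := by rw [← hsq]; group
    exact mul_left_cancel this
  have hsq' : s * q = q * s * z := by
    have h1 : q * s = s * z * q := by rw [← hqs]; group
    rw [h1, mul_assoc s z q, ← P.h.central q hq]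
    rw [mul_assoc, mul_assoc, P.z2, mul_one]
  rcases hw with h1 | h1 | h1 | h1
  · have : x * q = q * x := by
      rw [h1, mul_one] at hxqx
      exact mul_inv_eq_iff_eq_mul.mp hxqx
    rcases hcent this with h2 | h2 <;> rw [h2] <;> tauto
  · -- x q x⁻¹ = q z ; then x s centralizes
    have hxq' : x * q = q * z * x := by
      rw [h1] at hxqx
      exact mul_inv_eq_iff_eq_mul.mp hxqx
    have hsz : s * z = z * s := P.comm
    have h2 : (x * s) * q = q * (x * s) := by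
      calc (x * s) * q = x * (s * q) := by group
        _ = (x * q) * (s * z) := by rw [hsq']; group
        _ = q * z * x * (z * s) := by rw [hxq', hsz]
        _ = q * z * (x * z) * s := by group
        _ = q * (z * z) * x * s := by rw [hxz]; group
        _ = q * (x * s) := by rw [P.z2]; group
    have h3 : x * s = 1 ∨ x * s = z := by
      apply P.h.cent
      intro y hy
      have hA : ∀ a ∈ A Q s, x * s * a = a * (x * s) := by
        intro a ha
        calc x * s * a = x * (s * a) := by group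
          _ = (x * a) * s := by rw [← (mem_A.mp ha).2]; group
          _ = a * (x * s) := by rw [hxA a ha]; group
      rcases hQA y hy with h4 | h4
      · exact hA y h4
      · have h5 := hA _ h4
        calc x * s * y = (x * s * (y * q⁻¹)) * q := by group
          _ = (y * q⁻¹) * (x * s * q) := by rw [h5]; group
          _ = y * (x * s) := by rw [h2]; group
    rcases h3 with h4 | h4
    · right; right; left
      have : x = (x * s) * s := by rw [mul_assoc, P.s2, mul_one]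
      rw [this, h4, one_mul]
    · right; right; right
      have : x = (x * s) * s := by rw [mul_assoc, P.s2, mul_one]
      rw [this, h4]
  · exfalso
    rw [h1, hsq'] at hwq
    have : q * (z * 1) = q * 1 := by
      calc q * (z * 1) = q * z * (s * s) := by rw [P.s2]; group
        _ = q * (z * s) * s := by group
        _ = q * s * z * s := by rw [← P.comm]; group
        _ = q * 1 := by rw [hwq, mul_one]
    rw [mul_one] at this
    exact P.h.ne_one (mul_left_cancel this)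
  · exfalso
    rw [h1] at hwq
    have : q * (z * 1) = q * 1 := by
      calc q * (z * 1) = q * (z * z) * z * (s * s) := by rw [P.s2, P.z2]; group
        _ = z * ((q * s) * z) * (z * s) := by
            have hzq := P.h.central q hq
            have hzs := P.comm
            calc q * (z * z) * z * (s * s) = (q * z) * (z * z) * (s * s) := by group
              _ = (z * q) * (z * z) * (s * s) := by rw [hzq]
              _ = z * q * z * (z * s) * s := by group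
              _ = z * q * z * (s * z) * s := by rw [hzs]
              _ = z * q * (z * s) * (z * s) := by group
              _ = z * q * (s * z) * (z * s) := by rw [hzs]
              _ = z * ((q * s) * z) * (z * s) := by group
        _ = (z * s) * q * (z * s) := by rw [← hsq']; group
        _ = q * 1 := by rw [hwq, mul_one]
    rw [mul_one] at this
    exact P.h.ne_one (mul_left_cancel this)

end Pr

/-- the pair from the data of the statements -/
theorem Pr.mk' {G : Type*} [Group G] [Finite G] (Q : Subgroup G) (hQ : Cfsg.IsLargeExtraspecial Q) (z : G)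
    (hz : ((Subgroup.center ↥Q).map Q.subtype) = Subgroup.zpowers z) (w : ℕ) (hw : 2 ≤ w)
    (hcard : Nat.card ↥Q = 2 ^ (2 * w + 1)) (g : G) (hgH : g ∉ Subgroup.centralizer ({z} : Set G))
    (hgQ : g * z * g⁻¹ ∈ Q) : Pr Q (Q.map (MulAut.conj g).toMonoidHom) z (g * z * g⁻¹) := by
  have h := PL.of_isLarge' hQ hz
  have hne : g * z * g⁻¹ ≠ z := by
    intro hcon
    apply hgH
    rw [Subgroup.mem_centralizer_singleton_iff]
    exact mul_inv_eq_iff_eq_mul.mp hcon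
  refine ⟨h, h.conj g, hgQ, ?_, hne⟩
  refine h.mem_of_mem (h.conj g) ?_ hgQ hne ?_
  · rw [hcard]
    calc 8 < 2 ^ (2 * 2 + 1) := by norm_num
      _ ≤ 2 ^ (2 * w + 1) := Nat.pow_le_pow_right (by norm_num) (by omega)
  · intro x h1 h2
    have h3 := h.conj_mem g x h1 hgQ
    rwa [h2] at h3

end Cfsg.Agent.H94
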