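import Cfsg.Agent.H94.LargeX

/-!
The pair `Q, Q' = Q^g`: `X / R ≅ S_3`.
-/
set_option autoImplicit false

namespace Cfsg.Agent.H94

open Cfsg Cfsg.Agent.H90
open scoped commutatorElement

variable {G : Type*} [Group G] {Q Q' : Subgroup G} {z s : G}

theorem six {K : Type*} [Group K] {a b : K} (ha : a * a = 1) (hb : b * b = 1) (hab : a * b * a = b * a * b)
    {x : K} (hx : x ∈ Subgroup.closure ({a, b} : Set K)) :
    x = 1 ∨ x = a ∨ x = b ∨ x = a * b ∨ x = b * a ∨ x = a * b * a := by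
  have hai : a⁻¹ = a := inv_eq_of_mul_eq_one_left ha
  have hbi : b⁻¹ = b := inv_eq_of_mul_eq_one_left hb
  have e1 : a * b * a * a = a * b := by rw [mul_assoc, ha, mul_one]
  have e2 : b * a * a = b := by rw [mul_assoc, ha, mul_one]
  have e3 : a * b * b = a := by rw [mul_assoc, hb, mul_one]
  have e4 : a * b * a * b = b * a := by rw [hab, mul_assoc, hb, mul_one]
  have hstep : ∀ (x y : K), (x = 1 ∨ x = a ∨ x = b ∨ x = a * b ∨ x = b * a ∨ x = a * b * a) → y ∈ ({a, b} : Set K) →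
      (x * y = 1 ∨ x * y = a ∨ x * y = b ∨ x * y = a * b ∨ x * y = b * a ∨ x * y = a * b * a) := by
    rintro x y hx (rfl | hy)
    · rcases hx with h | h | h | h | h | h <;> rw [h]
      · simp
      · simp [ha]
      · simp
      · simp
      · rw [e2]; simp
      · rw [e1]; simp
    · rw [Set.mem_singleton_iff] at hy
      rw [hy]
      rcases hx with h | h | h | h | h | h <;> rw [h]
      · simp
      · simp
      · simp [hb]
      · rw [e3]; simp
      · rw [← hab]; simp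
      · rw [e4]; simp
  induction hx using Subgroup.closure_induction_right with
  | one => left; rfl
  | mul_right x _ y hy ih => exact hstep x y ih hy
  | mul_inv_cancel x _ y hy ih =>
    have : y⁻¹ = y := by
      rcases hy with rfl | hy
      · exact hai
      · rw [Set.mem_singleton_iff] at hy
        rw [hy]; exact hbi
    rw [this]
    exact hstep x y ih hy

set_option maxRecDepth 100000 in
theorem pCore_two_perm3 {n : Equiv.Perm (Fin 3)} (hn : n ∈ pCore 2 (Equiv.Perm (Fin 3))) : n = 1 := by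
  have h1 : ∀ n : Equiv.Perm (Fin 3), n ∈ pCore 2 (Equiv.Perm (Fin 3)) → n ^ 3 = 1 → n = 1 := by
    intro n hn h3
    obtain ⟨k, hk⟩ := Solv.pCore_isPGroup (G := Equiv.Perm (Fin 3)) 2 ⟨n, hn⟩
    have hk' : n ^ (2 ^ k) = 1 := by
      have := congrArg Subtype.val hk
      simpa using this
    have h4 : orderOf n ∣ 3 := orderOf_dvd_of_pow_eq_one h3
    have h5 : orderOf n ∣ 2 ^ k := orderOf_dvd_of_pow_eq_one hk'
    have h6 : Nat.Coprime 3 (2 ^ k) := Nat.Coprime.pow_right _ (by norm_num)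
    have h7 : orderOf n ∣ 1 := by rw [← h6]; exact Nat.dvd_gcd h4 h5
    rw [← orderOf_eq_one_iff]
    exact Nat.dvd_one.mp h7
  have h2 : ∀ n : Equiv.Perm (Fin 3), n ^ 3 ≠ 1 → (n * (finRotate 3 * n * (finRotate 3)⁻¹)) ^ 3 = 1 ∧ n * (finRotate 3 * n * (finRotate 3)⁻¹) ≠ 1 := by
    decide
  by_cases h3 : n ^ 3 = 1
  · exact h1 n hn h3
  · exfalso
    obtain ⟨h4, h5⟩ := h2 n h3
    have hN : (pCore 2 (Equiv.Perm (Fin 3))).Normal := inferInstance
    exact h5 (h1 _ (mul_mem hn (hN.conj_mem _ hn _)) h4)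

namespace Pr

theorem coset_A (P : Pr Q Q' z s) {q : G} (hq : q ∈ Q) (hqA : q ∉ A Q s) {y : G} (hy : y ∈ Q) :
    y ∈ A Q s ∨ y * q⁻¹ ∈ A Q s := by
  have hqs : q * s * q⁻¹ = s * z := by
    rcases P.h.conj_eq P.hs hq with h1 | h1
    · exact absurd (mem_A.mpr ⟨hq, mul_inv_eq_iff_eq_mul.mp h1⟩) hqA
    · exact h1
  rcases P.h.conj_eq P.hs hy with h1 | h1
  · left; exact mem_A.mpr ⟨hy, mul_inv_eq_iff_eq_mul.mp h1⟩
  · right
    refine mem_A.mpr ⟨Q.mul_mem hy (Q.inv_mem hq), ?_⟩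
    have h2 : q⁻¹ * s * q = s * z := by
      have hz1 : q⁻¹ * z = z * q⁻¹ := P.h.central _ (Q.inv_mem hq)
      have h3 : s = (q⁻¹ * s * q) * z := by
        calc s = q⁻¹ * (q * s * q⁻¹) * q := by group
          _ = q⁻¹ * (s * z) * q := by rw [hqs]
          _ = q⁻¹ * s * (z * q) := by group
          _ = q⁻¹ * s * (q * z) := by rw [P.h.central q hq]
          _ = _ := by group
      calc q⁻¹ * s * q = (q⁻¹ * s * q) * (z * z) := by rw [P.z2, mul_one]
        _ = ((q⁻¹ * s * q) * z) * z := by group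
        _ = s * z := by rw [← h3]
    calc y * q⁻¹ * s = y * (q⁻¹ * s * q) * q⁻¹ := by group
      _ = y * s * (z * q⁻¹) := by rw [h2]; group
      _ = (y * s * y⁻¹) * (y * q⁻¹) * z := by rw [← P.h.central q⁻¹ (Q.inv_mem hq)]; group
      _ = s * z * ((y * q⁻¹) * z) := by rw [h1]; group
      _ = s * z * (z * (y * q⁻¹)) := by rw [P.h.central _ (Q.mul_mem hy (Q.inv_mem hq))]
      _ = s * (z * z) * (y * q⁻¹) := by group
      _ = s * (y * q⁻¹) := by rw [P.z2, mul_one]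

/-- the basic relation -/
theorem braid (P : Pr Q Q' z s) {g : G} (hQ' : Q' = Q.map (MulAut.conj g).toMonoidHom) (hs : s = g * z * g⁻¹)
    {q v : G} (hq : q ∈ Q) (hqA : q ∉ A Q s) (hv : v ∈ Q') (hvB : v ∉ A Q' z) :
    v * q * v⁻¹ * q * v⁻¹ * q⁻¹ ∈ R Q Q' z s := by
  have hqs : q * s * q⁻¹ = s * z := by
    rcases P.h.conj_eq P.hs hq with h1 | h1
    · exact absurd (mem_A.mpr ⟨hq, mul_inv_eq_iff_eq_mul.mp h1⟩) hqA
    · exact h1
  have hvz : v * z * v⁻¹ = z * s := by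
    rcases P.h'.conj_eq P.hz hv with h1 | h1
    · exact absurd (mem_A.mpr ⟨hv, mul_inv_eq_iff_eq_mul.mp h1⟩) hvB
    · exact h1
  -- q v q⁻¹ ∈ v Q v⁻¹
  have h1 : q * v * q⁻¹ ∈ Q.map (MulAut.conj v).toMonoidHom := by
    have hv' := hv
    rw [hQ'] at hv'
    obtain ⟨u, hu, hu'⟩ := hv'
    have hu2 : g * u * g⁻¹ = v := hu'
    have h2 := P.h.conj_mem v (q * g) (by
      calc q * g * z * (q * g)⁻¹ = q * (g * z * g⁻¹) * q⁻¹ := by group
        _ = s * z := by rw [← hs, hqs]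
        _ = v * z * v⁻¹ := by rw [hvz, P.comm]) hu
    have h3 : q * v * q⁻¹ = q * g * u * (q * g)⁻¹ := by rw [← hu2]; group
    rw [h3]; exact h2
  obtain ⟨u, hu, hu'⟩ := h1
  have hu2 : v * u * v⁻¹ = q * v * q⁻¹ := hu'
  have huA : u ∉ A Q s := by
    intro hcon
    apply hvB
    have h3 : v * u * v⁻¹ ∈ CV z s := by
      rw [CV_symm]; exact P.symm.conj_CV hv (by rw [CV_symm]; exact P.A_le_CV hcon)
    rw [hu2] at h3
    have h4 := P.conj_CV (Q.inv_mem hq) h3
    have h5 : q⁻¹ * (q * v * q⁻¹) * q⁻¹⁻¹ = v := by group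
    rw [h5] at h4
    exact mem_A.mpr ⟨hv, (mem_CV.mp h4).1⟩
  have h6 : q * u⁻¹ ∈ A Q s := (P.coset_A hu huA hq).resolve_left hqA
  have h7 := P.conj_R_right hv (A_le_R (Q' := Q') (z := z) h6)
  have h8 : v * q * v⁻¹ * q * v⁻¹ * q⁻¹ = v * (q * u⁻¹) * v⁻¹ := by
    have : q * v⁻¹ * q⁻¹ = (v * u * v⁻¹)⁻¹ := by rw [hu2]; group
    calc v * q * v⁻¹ * q * v⁻¹ * q⁻¹ = v * q * v⁻¹ * (q * v⁻¹ * q⁻¹) := by group
      _ = v * (q * u⁻¹) * v⁻¹ := by rw [this]; group
  rw [h8]; exact h7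

theorem exists_q (P : Pr Q Q' z s) : ∃ q ∈ Q, q ∉ A Q s ∧ q * s * q⁻¹ = s * z := by
  obtain ⟨q, hq, hqs⟩ := P.h.exists_conj P.hs P.h'.ne_one P.hne
  refine ⟨q, hq, fun h => ?_, hqs⟩
  have h1 := (mem_A.mp h).2
  rw [h1] at hqs
  have : s * q * q⁻¹ = s := by group
  rw [this] at hqs
  exact P.h.ne_one (mul_eq_left.mp hqs.symm)

/-- `R.subgroupOf X` is normal. -/
theorem normal_R (P : Pr Q Q' z s) : ((R Q Q' z s).subgroupOf (X Q Q')).Normal := by
  refine ⟨fun r hr x => ?_⟩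
  rw [Subgroup.mem_subgroupOf] at hr ⊢
  exact P.conj_R x.2 hr

theorem R_le_X (_P : Pr Q Q' z s) : R Q Q' z s ≤ X Q Q' :=
  sup_le (le_trans inf_le_left le_sup_left) (le_trans inf_le_left le_sup_right)

theorem sq_mem_R (P : Pr Q Q' z s) {q : G} (hq : q ∈ Q) : q * q ∈ R Q Q' z s := by
  rcases P.h.sqr hq with h1 | h1 <;> rw [h1]
  · exact one_mem _
  · exact A_le_R (P.E_le_A P.z_mem_E)

/-- **`R = X ∩ C(V)`** and the relation `(qv)^3 ∈ R`. -/
theorem main (P : Pr Q Q' z s) {g : G} (hQ' : Q' = Q.map (MulAut.conj g).toMonoidHom) (hs : s = g * z * g⁻¹)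
    {q v : G} (hq : q ∈ Q) (hqA : q ∉ A Q s) (hv : v ∈ Q') (hvB : v ∉ A Q' z) :
    (q * v) ^ 3 ∈ R Q Q' z s ∧ X Q Q' ⊓ CV z s ≤ R Q Q' z s := by
  have hN := P.normal_R
  have hqX : q ∈ X Q Q' := Subgroup.mem_sup_left hq
  have hvX : v ∈ X Q Q' := Subgroup.mem_sup_right hv
  set a : X Q Q' ⧸ (R Q Q' z s).subgroupOf (X Q Q') := QuotientGroup.mk ⟨q, hqX⟩ with ha
  set b : X Q Q' ⧸ (R Q Q' z s).subgroupOf (X Q Q') := QuotientGroup.mk ⟨v, hvX⟩ with hb
  have one_iff : ∀ x : X Q Q', (QuotientGroup.mk x : X Q Q' ⧸ (R Q Q' z s).subgroupOf (X Q Q')) = 1 ↔ (x : G) ∈ R Q Q' z s := by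
    intro x
    rw [QuotientGroup.eq_one_iff, Subgroup.mem_subgroupOf]
  have haa : a * a = 1 := by
    rw [ha, ← QuotientGroup.mk_mul, one_iff]
    exact P.sq_mem_R hq
  have hbb : b * b = 1 := by
    rw [hb, ← QuotientGroup.mk_mul, one_iff]
    have := P.symm.sq_mem_R hv
    rw [R_symm] at this
    exact this
  have hai : a⁻¹ = a := inv_eq_of_mul_eq_one_left haa
  have hbi : b⁻¹ = b := inv_eq_of_mul_eq_one_left hbb
  have hbr : b * a * b⁻¹ * a * b⁻¹ * a⁻¹ = 1 := by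
    rw [ha, hb, ← QuotientGroup.mk_inv, ← QuotientGroup.mk_inv, ← QuotientGroup.mk_mul, ← QuotientGroup.mk_mul,
      ← QuotientGroup.mk_mul, ← QuotientGroup.mk_mul, ← QuotientGroup.mk_mul, one_iff]
    exact P.braid hQ' hs hq hqA hv hvB
  have hab : a * b * a = b * a * b := by
    rw [hai, hbi] at hbr
    have h1 : b * a * b * (a * b * a) = 1 := by rw [← hbr]; group
    have h2 : (a * b * a) = (b * a * b)⁻¹ := (eq_inv_of_mul_eq_one_right h1)
    rw [h2]
    simp only [mul_inv_rev, hai, hbi, mul_assoc]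
  refine ⟨?_, ?_⟩
  · have h1 : (a * b) ^ 3 = 1 := by
      have : (a * b) ^ 3 = (a * b * a) * (b * a * b) := by
        simp only [pow_succ, pow_zero, one_mul, mul_assoc]
      rw [this, ← hab]
      calc a * b * a * (a * b * a) = a * b * (a * a) * b * a := by group
        _ = a * (b * b) * a := by rw [haa]; group
        _ = 1 := by rw [hbb, mul_one, haa]
    rw [ha, hb, ← QuotientGroup.mk_mul, ← QuotientGroup.mk_pow, one_iff] at h1
    exact h1
  · -- every element of X is in one of the six cosets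
    have hK : X Q Q' ≤ ((Subgroup.closure ({a, b} : Set _)).comap (QuotientGroup.mk' ((R Q Q' z s).subgroupOf (X Q Q')))).map (X Q Q').subtype := by
      conv_lhs => rw [X]
      apply sup_le
      · intro y hy
        have hyX : y ∈ X Q Q' := Subgroup.mem_sup_left hy
        refine ⟨⟨y, hyX⟩, ?_, rfl⟩
        change (QuotientGroup.mk ⟨y, hyX⟩ : X Q Q' ⧸ (R Q Q' z s).subgroupOf (X Q Q')) ∈ Subgroup.closure ({a, b} : Set _)
        rcases P.coset_A hq hqA hy with h1 | h1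
        · have h2 : (QuotientGroup.mk ⟨y, hyX⟩ : X Q Q' ⧸ (R Q Q' z s).subgroupOf (X Q Q')) = 1 := by
            rw [one_iff]; exact A_le_R h1
          rw [h2]; exact one_mem _
        · have h2 : (QuotientGroup.mk ⟨y, hyX⟩ : X Q Q' ⧸ (R Q Q' z s).subgroupOf (X Q Q')) * a⁻¹ = 1 := by
            rw [ha, ← QuotientGroup.mk_inv, ← QuotientGroup.mk_mul, one_iff]; exact A_le_R h1
          rw [mul_inv_eq_one] at h2
          rw [h2]; exact Subgroup.subset_closure (by simp)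
      · intro y hy
        have hyX : y ∈ X Q Q' := Subgroup.mem_sup_right hy
        refine ⟨⟨y, hyX⟩, ?_, rfl⟩
        change (QuotientGroup.mk ⟨y, hyX⟩ : X Q Q' ⧸ (R Q Q' z s).subgroupOf (X Q Q')) ∈ Subgroup.closure ({a, b} : Set _)
        rcases P.symm.coset_A hv hvB hy with h1 | h1
        · have h2 : (QuotientGroup.mk ⟨y, hyX⟩ : X Q Q' ⧸ (R Q Q' z s).subgroupOf (X Q Q')) = 1 := by
            rw [one_iff]; exact B_le_R h1
          rw [h2]; exact one_mem _
        · have h2 : (QuotientGroup.mk ⟨y, hyX⟩ : X Q Q' ⧸ (R Q Q' z s).subgroupOf (X Q Q')) * b⁻¹ = 1 := by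
            rw [hb, ← QuotientGroup.mk_inv, ← QuotientGroup.mk_mul, one_iff]; exact B_le_R h1
          rw [mul_inv_eq_one] at h2
          rw [h2]; exact Subgroup.subset_closure (by simp)
    rintro x ⟨hxX, hxC⟩
    obtain ⟨⟨x', hx'X⟩, hx', rfl⟩ := hK hxX
    change x' ∈ CV z s at hxC
    change x' ∈ _
    have hx6 := six haa hbb hab (show (QuotientGroup.mk ⟨x', hx'X⟩ : X Q Q' ⧸ (R Q Q' z s).subgroupOf (X Q Q')) ∈ Subgroup.closure ({a, b} : Set _) from hx')
    -- elements congruent to x' centralize V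
    have hcong : ∀ (y : G) (hy : y ∈ X Q Q'), (QuotientGroup.mk ⟨x', hx'X⟩ : X Q Q' ⧸ (R Q Q' z s).subgroupOf (X Q Q')) = QuotientGroup.mk ⟨y, hy⟩ → y ∈ CV z s := by
      intro y hy h
      have h1 : x'⁻¹ * y ∈ R Q Q' z s := by
        have := QuotientGroup.eq.mp h
        rw [Subgroup.mem_subgroupOf] at this
        exact this
      have h2 : y = x' * (x'⁻¹ * y) := by group
      rw [h2]
      exact mul_mem hxC (P.R_le_CV h1)
    have hqz : q * z = z * q := P.h.central q hq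
    have hvs : v * s = s * v := P.h'.central v hv
    have hqs : q * s * q⁻¹ = s * z := by
      rcases P.h.conj_eq P.hs hq with h1 | h1
      · exact absurd (mem_A.mpr ⟨hq, mul_inv_eq_iff_eq_mul.mp h1⟩) hqA
      · exact h1
    have hvz : v * z * v⁻¹ = z * s := by
      rcases P.h'.conj_eq P.hz hv with h1 | h1
      · exact absurd (mem_A.mpr ⟨hv, mul_inv_eq_iff_eq_mul.mp h1⟩) hvB
      · exact h1
    have hqz' : q * z * q⁻¹ = z := by rw [hqz]; group
    have hz1 : z * s ≠ z := by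
      intro h; exact P.h'.ne_one (mul_eq_left.mp h)
    have hqvz : (q * v) * z * (q * v)⁻¹ = s := by
      calc (q * v) * z * (q * v)⁻¹ = q * (v * z * v⁻¹) * q⁻¹ := by group
        _ = (q * z * q⁻¹) * (q * s * q⁻¹) := by rw [hvz]; group
        _ = s := by
          rw [hqz', hqs, ← mul_assoc, ← P.comm, mul_assoc, P.z2, mul_one]
    have hC : ∀ y : G, y ∈ CV z s → y * z * y⁻¹ = z := by
      intro y hy
      rw [(mem_CV.mp hy).1]; group
    rcases hx6 with h | h | h | h | h | h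
    · exact (one_iff _).mp h
    · exfalso
      exact hqA (P.mem_A_of hq (hcong q hqX h))
    · exfalso
      have h1 := hC v (hcong v hvX h)
      rw [hvz] at h1; exact hz1 h1
    · exfalso
      have h1 := hC (q * v) (hcong (q * v) (mul_mem hqX hvX) h)
      rw [hqvz] at h1
      exact P.hne h1
    · exfalso
      have h1 := hC (v * q) (hcong (v * q) (mul_mem hvX hqX) h)
      have h2 : (v * q) * z * (v * q)⁻¹ = z * s := by
        calc (v * q) * z * (v * q)⁻¹ = v * (q * z * q⁻¹) * v⁻¹ := by group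
          _ = z * s := by rw [hqz', hvz]
      rw [h2] at h1; exact hz1 h1
    · exfalso
      have h1 := hC (q * v * q) (hcong (q * v * q) (mul_mem (mul_mem hqX hvX) hqX) h)
      have h2 : (q * v * q) * z * (q * v * q)⁻¹ = s := by
        calc (q * v * q) * z * (q * v * q)⁻¹ = (q * v) * (q * z * q⁻¹) * (q * v)⁻¹ := by group
          _ = s := by rw [hqz', hqvz]
      rw [h2] at h1
      exact P.hne h1

end Pr

end Cfsg.Agent.H94
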