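import Cfsg.Agent.SmallDim.DecMax

/-!
Maximality of the monomial subgroup of `SL ι F`, `|ι| = 6`, `|F| ≥ 5`.
-/

set_option autoImplicit false
set_option linter.unusedSectionVars false

namespace Cfsg.Agent.H94.Mono6

open Matrix Cfsg.Geo Cfsg.Agent.GeoMax Cfsg.Agent.H98.Subf Cfsg.Agent.H98.Blk Cfsg.Agent.H98.Mono
open Cfsg.Agent.SmallDim Cfsg.Agent.SmallDim.Mono
open scoped MatrixGroups

variable {ι : Type} [Fintype ι] [DecidableEq ι] {F : Type*} [Field F]

/-! ### involutions on sets of odd size -/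

lemma even_of_involution {α : Type*} (T : Finset α) (f : α → α) (h1 : ∀ x ∈ T, f x ∈ T) (h2 : ∀ x ∈ T, f (f x) = x)
    (h3 : ∀ x ∈ T, f x ≠ x) : Even T.card := by
  have := Finset.sum_involution (s := T) (f := fun _ => (1 : ZMod 2)) (fun a _ => f a) (fun _ _ => by decide)
    (fun a ha _ => h3 a ha) (fun a ha => h1 a ha) (fun a ha => h2 a ha)
  rw [Finset.sum_const, nsmul_eq_mul, mul_one] at this
  exact even_iff_two_dvd.2 ((ZMod.natCast_eq_zero_iff _ _).1 this)

lemma common_fixed {α : Type*} [DecidableEq α] (S : Finset α) (hS : Odd S.card) (f g : α → α) (hf : ∀ x ∈ S, f x ∈ S)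
    (hg : ∀ x ∈ S, g x ∈ S) (hff : ∀ x ∈ S, f (f x) = x) (hgg : ∀ x ∈ S, g (g x) = x)
    (hfg : ∀ x ∈ S, f (g x) = g (f x)) : ∃ x ∈ S, f x = x ∧ g x = x := by
  by_contra hcon
  push Not at hcon
  have h1 : Even (S.filter fun x => f x ≠ x).card := by
    refine even_of_involution _ f (fun x hx => ?_) (fun x hx => ?_) (fun x hx => ?_)
    · rw [Finset.mem_filter] at hx ⊢
      refine ⟨hf x hx.1, ?_⟩
      rw [hff x hx.1]; exact Ne.symm hx.2
    · exact hff x (Finset.mem_filter.1 hx).1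
    · exact (Finset.mem_filter.1 hx).2
  have h2 : Even (S.filter fun x => ¬ f x ≠ x).card := by
    refine even_of_involution _ g (fun x hx => ?_) (fun x hx => ?_) (fun x hx => ?_)
    · rw [Finset.mem_filter, not_not] at hx ⊢
      exact ⟨hg x hx.1, by rw [hfg x hx.1, hx.2]⟩
    · exact hgg x (Finset.mem_filter.1 hx).1
    · rw [Finset.mem_filter, not_not] at hx
      exact hcon x hx.1 hx.2
  have h3 := Finset.card_filter_add_card_filter_not (s := S) (fun x => f x ≠ x)
  rw [← h3] at hS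
  exact (Nat.not_even_iff_odd.2 hS) (h1.add h2)

section partA

variable {M : Subgroup (GL ι F)} (hD : ∀ d : ι → Fˣ, ∏ i, d i = 1 → dg d ∈ M)
  (hP : ∀ σ : Equiv.Perm ι, Equiv.Perm.sign σ = 1 → pm σ ∈ M)
  (hK : ∀ x ∈ M, ∀ (o : ι) (c : F), (x : Matrix ι ι F) *ᵥ Pi.single o 1 = c • Pi.single o 1 → Mon x)
  (hn : 6 ≤ Fintype.card ι)

include hP hK hn in
lemma K2 {x : GL ι F} (hx : x ∈ M) {i j : ι} {c : F} (h : (x : Matrix ι ι F) *ᵥ Pi.single i 1 = c • Pi.single j 1) :
    Mon x := by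
  obtain ⟨σ, hσ, hσj⟩ := exists_even_map (show 4 ≤ Fintype.card ι by omega) j i
  have h1 : ((pm σ * x : GL ι F) : Matrix ι ι F) *ᵥ Pi.single i 1 = c • Pi.single i 1 := by
    rw [gl_mul_mulVec, h, Matrix.mulVec_smul, pm_single, hσj]
  have h2 := hK _ (M.mul_mem (hP σ hσ) hx) i c h1
  have h3 := (Mon.pm (F := F) σ).inv.mul h2
  rwa [inv_mul_cancel_left] at h3

include hD hP hK hn in
lemma S1 {g : GL ι F} (hg : g ∈ M) (hgm : ¬ Mon g) {i k l : ι} (hkl : k ≠ l)
    (hk : ((g : Matrix ι ι F) *ᵥ Pi.single i 1) k = 0) (hl : ((g : Matrix ι ι F) *ᵥ Pi.single i 1) l = 0)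
    {a : Fˣ} (ha2 : (a : F) ^ 2 ≠ 1) (ha3 : (a : F) ^ 2 + a + 1 ≠ 0) (j : ι)
    (hj : ((dg (dd k l a) : GL ι F) : Matrix ι ι F) *ᵥ ((g : Matrix ι ι F) *ᵥ Pi.single j 1) ≠
      (g : Matrix ι ι F) *ᵥ Pi.single j 1) :
    ∀ m, m ≠ k → m ≠ l → ((g : Matrix ι ι F) *ᵥ Pi.single j 1) m = 0 := by
  set t : GL ι F := dg (dd k l a) with ht
  have ht_k : ∀ x : ι → F, ((t : Matrix ι ι F) *ᵥ x) k = a * x k := by
    intro x; rw [ht, dg_mulVec]; simp only [dd_k hkl]
  have ht_l : ∀ x : ι → F, ((t : Matrix ι ι F) *ᵥ x) l = ((a⁻¹ : Fˣ) : F) * x l := by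
    intro x; rw [ht, dg_mulVec]; simp only [dd_l]
  have ht_m : ∀ (x : ι → F) (m : ι), m ≠ k → m ≠ l → ((t : Matrix ι ι F) *ᵥ x) m = x m := by
    intro x m h1 h2; rw [ht, dg_mulVec]; simp only [dd_m h1 h2, Units.val_one, one_mul]
  have hext : ∀ x y : ι → F, x k = y k → x l = y l → (∀ m, m ≠ k → m ≠ l → x m = y m) → x = y := by
    intro x y h1 h2 h3
    ext m
    by_cases hmk : m = k
    · rw [hmk]; exact h1
    by_cases hml : m = l
    · rw [hml]; exact h2
    exact h3 m hmk hml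
  have haa : (a : F) * ((a⁻¹ : Fˣ) : F) = 1 := a.mul_inv
  have ha0 : (a : F) ≠ 0 := a.ne_zero
  have htM : t ∈ M := hD _ (dd_prod hkl a)
  set N : GL ι F := g⁻¹ * t * g with hN
  have hNM : N ∈ M := M.mul_mem (M.mul_mem (M.inv_mem hg) htM) hg
  have hgN : ∀ x : ι → F, (g : Matrix ι ι F) *ᵥ ((N : Matrix ι ι F) *ᵥ x) =
      (t : Matrix ι ι F) *ᵥ ((g : Matrix ι ι F) *ᵥ x) := by
    intro x
    rw [hN, gl_mul_mulVec, gl_mul_mulVec, gl_mulVec_inv]
  have hNi : (N : Matrix ι ι F) *ᵥ Pi.single i 1 = (1 : F) • Pi.single i 1 := by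
    apply gl_mulVec_injective g
    change (g : Matrix ι ι F) *ᵥ _ = (g : Matrix ι ι F) *ᵥ _
    rw [hgN, one_smul]
    apply hext
    · rw [ht_k, hk, mul_zero]
    · rw [ht_l, hl, mul_zero]
    · exact ht_m _
  have hNmon : Mon N := hK N hNM i 1 hNi
  set f : ι → F := (g : Matrix ι ι F) *ᵥ Pi.single j 1 with hf
  obtain ⟨j1, c₁, h1⟩ := hNmon j
  obtain ⟨j2, c₂, h2⟩ := hNmon j1
  obtain ⟨j3, c₃, h3⟩ := hNmon j2
  have hc1 := Mon.c_ne h1
  have hc2 := Mon.c_ne h2
  have hc3 := Mon.c_ne h3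
  -- f is not proportional to a basis vector
  have hfk : (∀ m, m ≠ k → m ≠ l → f m = 0) → f k ≠ 0 ∧ f l ≠ 0 := by
    intro h0
    constructor
    · intro hk0
      apply hgm
      refine K2 hP hK hn hg (i := j) (j := l) (c := f l) ?_
      apply hext
      · simp [← hf, hk0, hkl]
      · simp [← hf]
      · intro m h1 h2; simp [← hf, h0 m h1 h2, h2]
    · intro hl0
      apply hgm
      refine K2 hP hK hn hg (i := j) (j := k) (c := f k) ?_
      apply hext
      · simp [← hf]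
      · simp [← hf, hl0, hkl.symm]
      · intro m h1 h2; simp [← hf, h0 m h1 h2, h1]
  have htf : (t : Matrix ι ι F) *ᵥ f = c₁ • ((g : Matrix ι ι F) *ᵥ Pi.single j1 1) := by
    rw [hf, ← hgN, h1, Matrix.mulVec_smul]
  by_cases hj1 : j1 = j
  · -- eigenvector
    subst hj1
    rw [← hf] at htf
    have hc : c₁ ≠ 1 := by
      rintro rfl
      rw [one_smul] at htf
      exact hj htf
    have h0 : ∀ m, m ≠ k → m ≠ l → f m = 0 := by
      intro m h1 h2
      have := congrFun htf m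
      rw [ht_m _ _ h1 h2, Pi.smul_apply, smul_eq_mul] at this
      have h3 : (c₁ - 1) * f m = 0 := by linear_combination -this
      exact (mul_eq_zero.1 h3).resolve_left (sub_ne_zero.2 hc)
    obtain ⟨hk0, hl0⟩ := hfk h0
    exfalso
    have e1 := congrFun htf k
    have e2 := congrFun htf l
    rw [ht_k, Pi.smul_apply, smul_eq_mul] at e1
    rw [ht_l, Pi.smul_apply, smul_eq_mul] at e2
    have e3 := mul_right_cancel₀ hk0 e1
    have e4 := mul_right_cancel₀ hl0 e2
    apply ha2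
    rw [← e3] at e4
    rw [sq]
    calc (a : F) * a = a * ((a⁻¹ : Fˣ) : F) := by rw [e4]
      _ = 1 := haa
  · by_cases hj2 : j2 = j
    · subst hj2
      have htf2 : (t : Matrix ι ι F) *ᵥ ((t : Matrix ι ι F) *ᵥ f) = (c₁ * c₂) • f := by
        rw [htf, Matrix.mulVec_smul, ← hgN, h2, Matrix.mulVec_smul, ← hf, smul_smul]
      by_cases hc : c₁ * c₂ = 1
      · exfalso
        rw [hc, one_smul] at htf2
        have e1 := congrFun htf2 k
        have e2 := congrFun htf2 l
        rw [ht_k, ht_k] at e1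
        rw [ht_l, ht_l] at e2
        have e3 : ((a : F) ^ 2 - 1) * f k = 0 := by linear_combination e1
        have e4 : ((a : F) ^ 2 - 1) * f l = 0 := by
          have : f l = a ^ 2 * f l := by
            calc f l = (a * ((a⁻¹ : Fˣ) : F)) * (a * ((a⁻¹ : Fˣ) : F)) * f l := by rw [haa]; ring
              _ = a ^ 2 * (((a⁻¹ : Fˣ) : F) * (((a⁻¹ : Fˣ) : F) * f l)) := by ring
              _ = a ^ 2 * f l := by rw [e2]
          linear_combination -this
        have hk0 := (mul_eq_zero.1 e3).resolve_left (sub_ne_zero.2 ha2)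
        have hl0 := (mul_eq_zero.1 e4).resolve_left (sub_ne_zero.2 ha2)
        apply hj
        apply hext
        · rw [ht_k, hk0, mul_zero]
        · rw [ht_l, hl0, mul_zero]
        · exact ht_m _
      · intro m h1 h2
        have := congrFun htf2 m
        rw [ht_m _ _ h1 h2, ht_m _ _ h1 h2, Pi.smul_apply, smul_eq_mul] at this
        have h3 : (c₁ * c₂ - 1) * f m = 0 := by linear_combination -this
        exact (mul_eq_zero.1 h3).resolve_left (sub_ne_zero.2 hc)
    · exfalso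
      set s : F := 1 + a + ((a⁻¹ : Fˣ) : F) with hs
      have hid : (t : Matrix ι ι F) *ᵥ ((t : Matrix ι ι F) *ᵥ ((t : Matrix ι ι F) *ᵥ f)) =
          s • ((t : Matrix ι ι F) *ᵥ ((t : Matrix ι ι F) *ᵥ f)) - s • ((t : Matrix ι ι F) *ᵥ f) + f := by
        apply hext
        · simp only [Pi.add_apply, Pi.sub_apply, Pi.smul_apply, smul_eq_mul, ht_k, hs]
          linear_combination (f k) * (1 - (a : F)) * haa
        · simp only [Pi.add_apply, Pi.sub_apply, Pi.smul_apply, smul_eq_mul, ht_l, hs]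
          linear_combination (f l) * (1 - ((a⁻¹ : Fˣ) : F)) * haa
        · intro m h1 h2
          simp only [Pi.add_apply, Pi.sub_apply, Pi.smul_apply, smul_eq_mul, ht_m _ _ h1 h2]
          ring
      have hN2 : (N : Matrix ι ι F) *ᵥ ((N : Matrix ι ι F) *ᵥ Pi.single j 1) = (c₁ * c₂) • Pi.single j2 1 := by
        rw [h1, Matrix.mulVec_smul, h2, smul_smul]
      have hN3 : (N : Matrix ι ι F) *ᵥ ((N : Matrix ι ι F) *ᵥ ((N : Matrix ι ι F) *ᵥ Pi.single j 1)) =
          (c₁ * c₂ * c₃) • Pi.single j3 1 := by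
        rw [hN2, Matrix.mulVec_smul, h3, smul_smul]
      have hid2 : (c₁ * c₂ * c₃) • (Pi.single j3 1 : ι → F) = s • ((c₁ * c₂) • Pi.single j2 1) -
          s • (c₁ • Pi.single j1 1) + Pi.single j 1 := by
        apply gl_mulVec_injective g
        change (g : Matrix ι ι F) *ᵥ _ = (g : Matrix ι ι F) *ᵥ _
        rw [← hN3, ← hN2, ← h1, hgN, hgN, hgN, Matrix.mulVec_add, Matrix.mulVec_sub, Matrix.mulVec_smul,
          Matrix.mulVec_smul, hgN, hgN]
        exact hid
      have hj31 : j3 ≠ j1 := by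
        rintro rfl
        have : (N : Matrix ι ι F) *ᵥ (c₁ • Pi.single j2 1) = (N : Matrix ι ι F) *ᵥ (c₃ • Pi.single j 1) := by
          rw [Matrix.mulVec_smul, Matrix.mulVec_smul, h3, h1, smul_smul, smul_smul, mul_comm]
        exact hj2 (smul_single_inj hc1 (gl_mulVec_injective N this))
      have hj21 : j2 ≠ j1 := by
        rintro rfl
        have : (N : Matrix ι ι F) *ᵥ (c₁ • Pi.single j2 1) = (N : Matrix ι ι F) *ᵥ (c₂ • Pi.single j 1) := by
          rw [Matrix.mulVec_smul, Matrix.mulVec_smul, h2, h1, smul_smul, smul_smul, mul_comm]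
        exact hj1 (smul_single_inj hc1 (gl_mulVec_injective N this))
      have e := congrFun hid2 j1
      simp only [Pi.add_apply, Pi.sub_apply, Pi.smul_apply, smul_eq_mul, Pi.single_eq_same,
        Pi.single_eq_of_ne hj31.symm, Pi.single_eq_of_ne hj21.symm, Pi.single_eq_of_ne hj1, mul_zero, mul_one,
        zero_sub, add_zero] at e
      have hs0 : s = 0 := by
        have : s * c₁ = 0 := by linear_combination e
        exact (mul_eq_zero.1 this).resolve_right hc1
      apply ha3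
      have : (a : F) * s = 0 := by rw [hs0, mul_zero]
      rw [hs] at this
      linear_combination this - haa

include hD hP hK hn in
/-- columns of non-monomial elements have at most one zero -/
lemma S1' {g : GL ι F} (hg : g ∈ M) (hgm : ¬ Mon g) {a : Fˣ} (ha2 : (a : F) ^ 2 ≠ 1)
    (ha3 : (a : F) ^ 2 + a + 1 ≠ 0) {i k l : ι} (hkl : k ≠ l)
    (hk : ((g : Matrix ι ι F) *ᵥ Pi.single i 1) k = 0) : ((g : Matrix ι ι F) *ᵥ Pi.single i 1) l ≠ 0 := by
  intro hl
  have ha1 : (a : F) ≠ 1 := by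
    intro h; apply ha2; rw [h]; ring
  have hmove : ∀ p q : ι, p ≠ q → ∃ j, ((dg (dd p q a) : GL ι F) : Matrix ι ι F) *ᵥ ((g : Matrix ι ι F) *ᵥ Pi.single j 1) ≠
      (g : Matrix ι ι F) *ᵥ Pi.single j 1 := by
    intro p q hpq
    by_contra hcon
    push Not at hcon
    have h1 : (dg (dd p q a) : GL ι F) * g = g := by
      apply Units.ext
      apply Matrix.ext_of_mulVec_single
      intro j
      change ((dg (dd p q a) * g : GL ι F) : Matrix ι ι F) *ᵥ _ = _
      rw [gl_mul_mulVec]; exact hcon j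
    have h2 : (dg (dd p q a) : GL ι F) = 1 := by simpa using h1
    have h3 := congrArg (fun z : GL ι F => ((z : Matrix ι ι F) *ᵥ Pi.single p 1) p) h2
    simp only [dg_mulVec, dd_k hpq, Pi.single_eq_same, mul_one, Units.val_one, Matrix.one_mulVec] at h3
    exact ha1 h3
  obtain ⟨j, hj⟩ := hmove k l hkl
  have h0 := S1 hD hP hK hn hg hgm hkl hk hl ha2 ha3 j hj
  obtain ⟨k', hk'⟩ := exists_notMem ({k, l} : Finset ι) (lt_of_le_of_lt (Finset.card_le_two) (by omega))
  obtain ⟨l', hl'⟩ := exists_notMem ({k, l, k'} : Finset ι) (lt_of_le_of_lt (Finset.card_le_three) (by omega))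
  obtain ⟨m', hm'⟩ := exists_notMem ({k, l, k', l'} : Finset ι) (lt_of_le_of_lt (Finset.card_le_four) (by omega))
  simp only [Finset.mem_insert, Finset.mem_singleton, not_or] at hk' hl' hm'
  have z1 := h0 k' hk'.1 hk'.2
  have z2 := h0 l' hl'.1 hl'.2.1
  have z3 := h0 m' hm'.1 hm'.2.1
  have hkl' : k' ≠ l' := Ne.symm hl'.2.2
  have hlm' : l' ≠ m' := Ne.symm hm'.2.2.2
  have hkm' : k' ≠ m' := Ne.symm hm'.2.2.1
  obtain ⟨j2, hj2⟩ := hmove l' m' hlm'
  have h2 := S1 hD hP hK hn hg hgm hlm' z2 z3 ha2 ha3 j2 hj2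
  set f := (g : Matrix ι ι F) *ᵥ Pi.single j2 1 with hf
  have hfl : f l' ≠ 0 := by
    intro h
    apply hgm
    refine K2 hP hK hn hg (i := j2) (j := m') (c := f m') ?_
    ext m
    rw [← hf]
    by_cases hm1 : m = m'
    · subst hm1; simp
    by_cases hm2 : m = l'
    · subst hm2; simp [h, hm1]
    · simp [h2 m hm2 hm1, hm1]
  have hfm : f m' ≠ 0 := by
    intro h
    apply hgm
    refine K2 hP hK hn hg (i := j2) (j := l') (c := f l') ?_
    ext m
    rw [← hf]
    by_cases hm1 : m = m'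
    · subst hm1; simp [h, hlm'.symm]
    by_cases hm2 : m = l'
    · subst hm2; simp
    · simp [h2 m hm2 hm1, hm2]
  have h3 := S1 hD hP hK hn hg hgm hkl' z1 z2 ha2 ha3 j2 (by
    intro h
    have := congrFun h l'
    rw [dg_mulVec, ← hf] at this
    simp only [dd_l] at this
    have h5 := mul_right_cancel₀ hfl (this.trans (one_mul _).symm)
    apply ha1
    have : (a : F) * ((a⁻¹ : Fˣ) : F) = 1 := a.mul_inv
    rw [h5, mul_one] at this
    exact this)
  exact hfm (h3 m' (Ne.symm hkm') (Ne.symm hlm'))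


section frame

variable {g : GL ι F} (hg : g ∈ M) {j₀ o : ι} (hu : ∀ s, s ≠ o → ((g : Matrix ι ι F) *ᵥ Pi.single j₀ 1) s = 1)
  (hz : ∀ b k l : ι, k ≠ l → ((g : Matrix ι ι F) *ᵥ Pi.single b 1) k = 0 → ((g : Matrix ι ι F) *ᵥ Pi.single b 1) l ≠ 0)
  (hz' : ∀ b k l : ι, k ≠ l → (((g⁻¹ : GL ι F) : Matrix ι ι F) *ᵥ Pi.single b 1) k = 0 →
    (((g⁻¹ : GL ι F) : Matrix ι ι F) *ᵥ Pi.single b 1) l ≠ 0)
  (h6 : Fintype.card ι = 6)

include hu hz' h6 in
/-- no other column is constant off `o` -/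
lemma not_const {b : ι} (hb : b ≠ j₀) {γ : F} (h : ∀ q, q ≠ o → ((g : Matrix ι ι F) *ᵥ Pi.single b 1) q = γ) : False := by
  set f := (g : Matrix ι ι F) *ᵥ Pi.single b 1 with hf
  set u := (g : Matrix ι ι F) *ᵥ Pi.single j₀ 1 with hud
  have h1 : (g : Matrix ι ι F) *ᵥ (Pi.single b 1 - γ • Pi.single j₀ 1) = (f o - γ * u o) • Pi.single o 1 := by
    rw [Matrix.mulVec_sub, Matrix.mulVec_smul, ← hf, ← hud]
    ext q
    by_cases hq : q = o
    · subst hq; simp
    · simp [h q hq, hu q hq, hq]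
  have h2 : f o - γ * u o ≠ 0 := by
    intro h0
    rw [h0, zero_smul] at h1
    have h3 : (Pi.single b 1 - γ • Pi.single j₀ 1 : ι → F) = 0 := gl_mulVec_injective g (by simpa using h1)
    have h4 := congrFun h3 b
    simp [hb] at h4
  have h3 : ((g⁻¹ : GL ι F) : Matrix ι ι F) *ᵥ Pi.single o 1 =
      (f o - γ * u o)⁻¹ • (Pi.single b 1 - γ • Pi.single j₀ 1) := by
    apply gl_mulVec_injective g
    change (g : Matrix ι ι F) *ᵥ _ = (g : Matrix ι ι F) *ᵥ _
    rw [gl_mulVec_inv, Matrix.mulVec_smul, h1, smul_smul, inv_mul_cancel₀ h2, one_smul]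
  obtain ⟨k, hk⟩ := exists_notMem ({b, j₀} : Finset ι) (lt_of_le_of_lt Finset.card_le_two (by omega))
  obtain ⟨l, hl⟩ := exists_notMem ({b, j₀, k} : Finset ι) (lt_of_le_of_lt Finset.card_le_three (by omega))
  simp only [Finset.mem_insert, Finset.mem_singleton, not_or] at hk hl
  refine hz' o k l (Ne.symm hl.2.2) ?_ ?_
  · rw [h3]; simp [hk.1, hk.2]
  · rw [h3]; simp [hl.1, hl.2.1]

include hg hu hK in
/-- even permutations fixing `o` permute the columns of `g` -/
lemma frame_mon {σ : Equiv.Perm ι} (hσ : pm σ ∈ M) (hσo : σ o = o) : Mon (g⁻¹ * pm σ * g) := by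
  refine hK _ (M.mul_mem (M.mul_mem (M.inv_mem hg) hσ) hg) j₀ 1 ?_
  apply gl_mulVec_injective g
  change (g : Matrix ι ι F) *ᵥ _ = (g : Matrix ι ι F) *ᵥ _
  rw [gl_mul_mulVec, gl_mul_mulVec, gl_mulVec_inv, one_smul, pm_mulVec]
  ext s
  change ((g : Matrix ι ι F) *ᵥ Pi.single j₀ 1) (σ.symm s) = _
  by_cases hs : s = o
  · subst hs
    rw [(Equiv.symm_apply_eq _).2 hσo.symm]
  · rw [hu s hs, hu]
    intro h
    apply hs
    rw [Equiv.symm_apply_eq, hσo] at h
    exact h

include hg hu hK hP hz h6 in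
lemma exists_b {s : ι} (hs : s ≠ o) : ∃ b, b ≠ j₀ ∧ ∃ γ : F, ∀ q, q ≠ s → q ≠ o →
    ((g : Matrix ι ι F) *ᵥ Pi.single b 1) q = γ := by
  -- the four other indices
  have hcard : (Finset.univ \ {o, s} : Finset ι).card = 4 := by
    rw [Finset.card_univ_sdiff, h6, Finset.card_pair (Ne.symm hs)]
  obtain ⟨p1, p2, p3, p4, h12, h13, h14, h23, h24, h34, hset⟩ := Finset.card_eq_four.1 hcard
  have hmem : ∀ q, q ≠ s → q ≠ o → q = p1 ∨ q = p2 ∨ q = p3 ∨ q = p4 := by
    intro q h1 h2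
    have : q ∈ (Finset.univ \ {o, s} : Finset ι) := by simp [h1, h2]
    rw [hset] at this
    simpa using this
  have hne : ∀ p ∈ ({p1, p2, p3, p4} : Finset ι), p ≠ o ∧ p ≠ s := by
    intro p hp
    rw [← hset] at hp
    simpa using hp
  have n1 := hne p1 (by simp)
  have n2 := hne p2 (by simp)
  have n3 := hne p3 (by simp)
  have n4 := hne p4 (by simp)
  -- the Klein four-group
  have main : ∀ a b c d : ι, a ≠ b → c ≠ d → a ≠ c → a ≠ d → b ≠ c → b ≠ d → a ≠ o → b ≠ o → c ≠ o → d ≠ o →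
      a ≠ s → b ≠ s → c ≠ s → d ≠ s → Equiv.Perm.sign (Equiv.swap a b * Equiv.swap c d) = 1 ∧
      (Equiv.swap a b * Equiv.swap c d) o = o ∧ (Equiv.swap a b * Equiv.swap c d) s = s ∧
      (Equiv.swap a b * Equiv.swap c d) * (Equiv.swap a b * Equiv.swap c d) = 1 ∧
      (Equiv.swap a b * Equiv.swap c d) a = b ∧ (Equiv.swap a b * Equiv.swap c d) c = d := by
    intro a b c d hab hcd hac had hbc hbd hao hbo hco hdo has hbs hcs hds
    refine ⟨?_, ?_, ?_, ?_, ?_, ?_⟩
    · rw [map_mul, Equiv.Perm.sign_swap hab, Equiv.Perm.sign_swap hcd]; rfl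
    · rw [Equiv.Perm.mul_apply, Equiv.swap_apply_of_ne_of_ne (Ne.symm hco) (Ne.symm hdo),
        Equiv.swap_apply_of_ne_of_ne (Ne.symm hao) (Ne.symm hbo)]
    · rw [Equiv.Perm.mul_apply, Equiv.swap_apply_of_ne_of_ne (Ne.symm hcs) (Ne.symm hds),
        Equiv.swap_apply_of_ne_of_ne (Ne.symm has) (Ne.symm hbs)]
    · have hcomm : Equiv.swap c d * Equiv.swap a b = Equiv.swap a b * Equiv.swap c d := by
        apply Equiv.Perm.Disjoint.commute
        rw [Equiv.Perm.disjoint_iff_disjoint_support, Equiv.Perm.support_swap hcd, Equiv.Perm.support_swap hab]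
        simp [hac, had, hbc, hbd]
      calc Equiv.swap a b * Equiv.swap c d * (Equiv.swap a b * Equiv.swap c d) =
          Equiv.swap a b * (Equiv.swap c d * Equiv.swap a b) * Equiv.swap c d := by group
        _ = 1 := by
          rw [hcomm, ← mul_assoc, Equiv.swap_mul_self, one_mul, Equiv.swap_mul_self]
    · rw [Equiv.Perm.mul_apply, Equiv.swap_apply_of_ne_of_ne hac had, Equiv.swap_apply_left]
    · rw [Equiv.Perm.mul_apply, Equiv.swap_apply_left, Equiv.swap_apply_of_ne_of_ne (Ne.symm had) (Ne.symm hbd)]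
  obtain ⟨a1, a2, a3, a4, a5, a6⟩ := main p1 p2 p3 p4 h12 h34 h13 h14 h23 h24 n1.1 n2.1 n3.1 n4.1 n1.2 n2.2 n3.2 n4.2
  obtain ⟨b1, b2, b3, b4, b5, b6⟩ := main p1 p3 p2 p4 h13 h24 h12 h14 (Ne.symm h23) h34 n1.1 n3.1 n2.1 n4.1 n1.2 n3.2 n2.2 n4.2
  set v1 := Equiv.swap p1 p2 * Equiv.swap p3 p4 with hv1
  set v2 := Equiv.swap p1 p3 * Equiv.swap p2 p4 with hv2
  -- they commute
  have hcomm : v1 * v2 = v2 * v1 := by
    have e1 : ∀ q, (v1 * v2) q = (v2 * v1) q := by
      have k1 : v1 p1 = p2 := a5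
      have k3 : v1 p3 = p4 := a6
      have k2 : v1 p2 = p1 := by
        have := Equiv.Perm.ext_iff.1 a4 p1
        rwa [Equiv.Perm.mul_apply, k1, Equiv.Perm.one_apply] at this
      have k4 : v1 p4 = p3 := by
        have := Equiv.Perm.ext_iff.1 a4 p3
        rwa [Equiv.Perm.mul_apply, k3, Equiv.Perm.one_apply] at this
      have l1 : v2 p1 = p3 := b5
      have l2 : v2 p2 = p4 := b6
      have l3 : v2 p3 = p1 := by
        have := Equiv.Perm.ext_iff.1 b4 p1
        rwa [Equiv.Perm.mul_apply, l1, Equiv.Perm.one_apply] at this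
      have l4 : v2 p4 = p2 := by
        have := Equiv.Perm.ext_iff.1 b4 p2
        rwa [Equiv.Perm.mul_apply, l2, Equiv.Perm.one_apply] at this
      intro q
      change v1 (v2 q) = v2 (v1 q)
      by_cases hqs : q = s
      · rw [hqs, a3, b3, a3]
      by_cases hqo : q = o
      · rw [hqo, a2, b2, a2]
      rcases hmem q hqs hqo with rfl | rfl | rfl | rfl
      · rw [l1, k1, k3, l2]
      · rw [l2, k2, k4, l1]
      · rw [l3, k3, k1, l4]
      · rw [l4, k4, k2, l3]
    exact Equiv.ext e1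
  set N1 : GL ι F := g⁻¹ * pm v1 * g with hN1
  set N2 : GL ι F := g⁻¹ * pm v2 * g with hN2
  have m1 : Mon N1 := frame_mon hK hg hu (hP _ a1) a2
  have m2 : Mon N2 := frame_mon hK hg hu (hP _ b1) b2
  have pmmul : ∀ σ τ : Equiv.Perm ι, (pm σ : GL ι F) * pm τ = pm (σ * τ) := by
    intro σ τ
    apply gl_ext; intro x
    rw [gl_mul_mulVec, pm_mulVec, pm_mulVec, pm_mulVec]
    rfl
  have pmone : (pm 1 : GL ι F) = 1 := by
    apply gl_ext; intro x
    rw [pm_mulVec, Units.val_one, Matrix.one_mulVec]; ext q; rfl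
  have hNN : ∀ σ τ : Equiv.Perm ι, (g⁻¹ * pm σ * g) * (g⁻¹ * pm τ * g) = g⁻¹ * pm (σ * τ) * g := by
    intro σ τ
    rw [← pmmul]; group
  have sq1 : N1 * N1 = 1 := by rw [hN1, hNN, a4, pmone]; group
  have sq2 : N2 * N2 = 1 := by rw [hN2, hNN, b4, pmone]; group
  have cm : N1 * N2 = N2 * N1 := by rw [hN1, hN2, hNN, hNN, hcomm]
  choose π1 c1 e1 using m1
  choose π2 c2 e2 using m2
  have f1 : ∀ b, π1 (π1 b) = b := by
    intro b
    have h1 : (N1 : Matrix ι ι F) *ᵥ ((N1 : Matrix ι ι F) *ᵥ Pi.single b 1) = Pi.single b 1 := by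
      rw [← gl_mul_mulVec, sq1, Units.val_one, Matrix.one_mulVec]
    rw [e1, Matrix.mulVec_smul, e1, smul_smul] at h1
    exact smul_single_inj (mul_ne_zero (Mon.c_ne (e1 b)) (Mon.c_ne (e1 (π1 b)))) (h1.trans (one_smul F _).symm)
  have f2 : ∀ b, π2 (π2 b) = b := by
    intro b
    have h1 : (N2 : Matrix ι ι F) *ᵥ ((N2 : Matrix ι ι F) *ᵥ Pi.single b 1) = Pi.single b 1 := by
      rw [← gl_mul_mulVec, sq2, Units.val_one, Matrix.one_mulVec]
    rw [e2, Matrix.mulVec_smul, e2, smul_smul] at h1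
    exact smul_single_inj (mul_ne_zero (Mon.c_ne (e2 b)) (Mon.c_ne (e2 (π2 b)))) (h1.trans (one_smul F _).symm)
  have f3 : ∀ b, π1 (π2 b) = π2 (π1 b) := by
    intro b
    have h1 : (N1 : Matrix ι ι F) *ᵥ ((N2 : Matrix ι ι F) *ᵥ Pi.single b 1) =
        (N2 : Matrix ι ι F) *ᵥ ((N1 : Matrix ι ι F) *ᵥ Pi.single b 1) := by
      rw [← gl_mul_mulVec, ← gl_mul_mulVec, cm]
    rw [e1, e2, Matrix.mulVec_smul, Matrix.mulVec_smul, e1, e2, smul_smul, smul_smul] at h1
    exact smul_single_inj (mul_ne_zero (Mon.c_ne (e2 b)) (Mon.c_ne (e1 (π2 b)))) h1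
  have fixu : ∀ v : Equiv.Perm ι, v o = o → ((g⁻¹ * pm v * g : GL ι F) : Matrix ι ι F) *ᵥ Pi.single j₀ 1 = Pi.single j₀ 1 := by
    intro v hvo
    apply gl_mulVec_injective g
    change (g : Matrix ι ι F) *ᵥ _ = (g : Matrix ι ι F) *ᵥ _
    rw [gl_mul_mulVec, gl_mul_mulVec, gl_mulVec_inv, pm_mulVec]
    ext q
    change ((g : Matrix ι ι F) *ᵥ Pi.single j₀ 1) (v.symm q) = _
    by_cases hq : q = o
    · subst hq
      rw [(Equiv.symm_apply_eq _).2 hvo.symm]
    · rw [hu q hq, hu]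
      intro h
      apply hq
      rw [Equiv.symm_apply_eq, hvo] at h
      exact h
  have g1 : π1 j₀ = j₀ := by
    have := (e1 j₀).symm.trans (fixu v1 a2)
    exact smul_single_inj (Mon.c_ne (e1 j₀)) (this.trans (one_smul F _).symm)
  have g2 : π2 j₀ = j₀ := by
    have := (e2 j₀).symm.trans (fixu v2 b2)
    exact smul_single_inj (Mon.c_ne (e2 j₀)) (this.trans (one_smul F _).symm)
  obtain ⟨b, hbS, hb1, hb2⟩ := common_fixed (Finset.univ.erase j₀) (by
      rw [Finset.card_erase_of_mem (Finset.mem_univ _), Finset.card_univ, h6]; decide) π1 π2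
    (fun x hx => Finset.mem_erase.2 ⟨fun h => (Finset.mem_erase.1 hx).1 (by rw [← f1 x, h, g1]), Finset.mem_univ _⟩)
    (fun x hx => Finset.mem_erase.2 ⟨fun h => (Finset.mem_erase.1 hx).1 (by rw [← f2 x, h, g2]), Finset.mem_univ _⟩)
    (fun x _ => f1 x) (fun x _ => f2 x) (fun x _ => f3 x)
  refine ⟨b, (Finset.mem_erase.1 hbS).1, ((g : Matrix ι ι F) *ᵥ Pi.single b 1) p1, ?_⟩
  set f := (g : Matrix ι ι F) *ᵥ Pi.single b 1 with hf
  -- eigenvector with eigenvalue one
  have inv : ∀ (v : Equiv.Perm ι) (c : F), v o = o → v s = s →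
      ((g⁻¹ * pm v * g : GL ι F) : Matrix ι ι F) *ᵥ Pi.single b 1 = c • Pi.single b 1 → ∀ q, f (v q) = f q := by
    intro v c hvo hvs h
    have h1 : ((pm v : GL ι F) : Matrix ι ι F) *ᵥ f = c • f := by
      have := congrArg (fun z => (g : Matrix ι ι F) *ᵥ z) h
      simp only [gl_mul_mulVec, gl_mulVec_inv, Matrix.mulVec_smul] at this
      exact this
    rw [pm_mulVec] at h1
    have h2 : ∀ q, f q = c * f (v q) := by
      intro q
      have := congrFun h1 (v q)
      change f (v.symm (v q)) = _ at this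
      rw [Equiv.symm_apply_apply] at this
      exact this
    have hc : c = 1 := by
      by_cases h0 : f o = 0
      · have h3 := hz b o s (Ne.symm hs) h0
        rw [← hf] at h3
        have h4 := h2 s
        rw [hvs] at h4
        have : (c - 1) * f s = 0 := by linear_combination -h4
        exact sub_eq_zero.1 ((mul_eq_zero.1 this).resolve_right h3)
      · have h4 := h2 o
        rw [hvo] at h4
        have : (c - 1) * f o = 0 := by linear_combination -h4
        exact sub_eq_zero.1 ((mul_eq_zero.1 this).resolve_right h0)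
    intro q
    rw [h2 q, hc, one_mul]
  have i1 := inv v1 (c1 b) a2 a3 (by rw [← hN1, e1, hb1])
  have i2 := inv v2 (c2 b) b2 b3 (by rw [← hN2, e2, hb2])
  have j1 : f p2 = f p1 := by rw [← i1 p1, a5]
  have j2 : f p3 = f p1 := by rw [← i2 p1, b5]
  have j3 : f p4 = f p1 := by
    have : f p4 = f p3 := by rw [← i1 p3, a6]
    rw [this, j2]
  intro q hqs hqo
  rcases hmem q hqs hqo with rfl | rfl | rfl | rfl
  · rfl
  · exact j1
  · exact j2
  · exact j3

include hg hu hK hP hz hz' h6 in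
lemma oneexc6 (b : ι) (hb : b ≠ j₀) : ∃ s, s ≠ o ∧ ∃ γ : F, ((g : Matrix ι ι F) *ᵥ Pi.single b 1) s ≠ γ ∧
    ∀ q, q ≠ s → q ≠ o → ((g : Matrix ι ι F) *ᵥ Pi.single b 1) q = γ := by
  have h1 : ∀ s : {s // s ≠ o}, ∃ b : {b // b ≠ j₀}, ∃ γ : F, ∀ q, q ≠ s.1 → q ≠ o →
      ((g : Matrix ι ι F) *ᵥ Pi.single b.1 1) q = γ := by
    rintro ⟨s, hs⟩
    obtain ⟨b, hb, γ, h⟩ := exists_b hP hK hg hu hz h6 hs
    exact ⟨⟨b, hb⟩, γ, h⟩
  choose β γ hβ using h1
  have hinj : Function.Injective β := by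
    intro s s' hss
    by_contra hne
    have hne' : s.1 ≠ s'.1 := fun h => hne (Subtype.ext h)
    obtain ⟨k, hk⟩ := exists_notMem ({s.1, s'.1, o} : Finset ι) (lt_of_le_of_lt Finset.card_le_three (by omega))
    simp only [Finset.mem_insert, Finset.mem_singleton, not_or] at hk
    have e1 := hβ s k hk.1 hk.2.2
    have e2 := hβ s' k hk.2.1 hk.2.2
    rw [← hss, e1] at e2
    refine not_const hu hz' h6 (β s).2 (γ := γ s) fun q hq => ?_
    by_cases hqs : q = s.1
    · rw [hqs, e2, hss]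
      exact hβ s' s.1 hne' s.2
    · exact hβ s q hqs hq
  have hcard : Fintype.card {s // s ≠ o} = Fintype.card {b // b ≠ j₀} := by
    rw [Fintype.card_subtype_compl, Fintype.card_subtype_eq, Fintype.card_subtype_compl, Fintype.card_subtype_eq]
  obtain ⟨s, hs⟩ := ((Fintype.bijective_iff_injective_and_card β).2 ⟨hinj, hcard⟩).2 ⟨b, hb⟩
  have h2 := hβ s
  rw [hs] at h2
  refine ⟨s.1, s.2, γ s, fun h => ?_, h2⟩
  refine not_const hu hz' h6 hb (γ := γ s) fun q hq => ?_
  by_cases hqs : q = s.1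
  · rw [hqs]; exact h
  · exact h2 q hqs hq

include hD hg hu hK hP hz hz' h6 in
/-- the test vectors -/
lemma frame_test6 : ∃ γ ρ X : F, ρ ≠ 0 ∧ X ≠ 0 ∧ ∀ a : ι → Fˣ, a o = 1 → ∏ s, a s = 1 →
    ∃ x ∈ M, ∀ l, l ≠ o → ((x : Matrix ι ι F) *ᵥ Pi.single o 1) l =
      X * (γ * ∑ s, ((a s : F) - 1) + ρ * ((a l : F) - 1)) := by
  -- a non-constant column
  obtain ⟨b₀, hb₀⟩ := exists_notMem ({j₀} : Finset ι) (by rw [Finset.card_singleton]; omega)
  simp only [Finset.mem_singleton] at hb₀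
  obtain ⟨s₀, hs₀, γ, hfs, hfγ⟩ := oneexc6 hP hK hg hu hz hz' h6 b₀ hb₀
  set f := (g : Matrix ι ι F) *ᵥ Pi.single b₀ 1 with hf
  set u := (g : Matrix ι ι F) *ᵥ Pi.single j₀ 1 with hud
  have hρ : f s₀ - γ ≠ 0 := sub_ne_zero.2 hfs
  let W : ι → (ι → F) := fun s => if s = o then u else fun q => if q = o then f o else if q = s then f s₀ else γ
  have hWo : W o = u := by simp [W]
  have hW : ∀ s, s ≠ o → W s = fun q => if q = o then f o else if q = s then f s₀ else γ := by
    intro s hs; simp [W, hs]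
  have hB : ∀ s, ∃ B : ι, ∃ μ : F, μ ≠ 0 ∧ W s = μ • ((g : Matrix ι ι F) *ᵥ Pi.single B 1) ∧ (s = o → B = j₀ ∧ μ = 1) := by
    intro s
    by_cases hs : s = o
    · refine ⟨j₀, 1, one_ne_zero, ?_, fun _ => ⟨rfl, rfl⟩⟩
      rw [hs, hWo, one_smul]
    · obtain ⟨σ, hσ, hσs, hσo⟩ : ∃ σ : Equiv.Perm ι, Equiv.Perm.sign σ = 1 ∧ σ s₀ = s ∧ σ o = o := by
        by_cases hss : s₀ = s
        · exact ⟨1, by simp, by simp [hss], rfl⟩
        · obtain ⟨q, hq⟩ := exists_notMem ({s₀, s, o} : Finset ι) (lt_of_le_of_lt Finset.card_le_three (by omega))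
          simp only [Finset.mem_insert, Finset.mem_singleton, not_or] at hq
          exact ⟨cyc s₀ s q, cyc_sign hss (Ne.symm hq.2.1), cyc_i hss (Ne.symm hq.1),
            cyc_m (Ne.symm hs₀) (Ne.symm hs) (Ne.symm hq.2.2)⟩
      obtain ⟨B, c, hBc⟩ := frame_mon hK hg hu (hP σ hσ) hσo b₀
      refine ⟨B, c, Mon.c_ne hBc, ?_, fun h => absurd h hs⟩
      rw [← Matrix.mulVec_smul, ← hBc, gl_mul_mulVec, gl_mul_mulVec, gl_mulVec_inv, ← hf, pm_mulVec, hW s hs]
      ext q
      change _ = f (σ.symm q)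
      by_cases hqo : q = o
      · subst hqo
        rw [(Equiv.symm_apply_eq _).2 hσo.symm]; simp
      · by_cases hqs : q = s
        · subst hqs
          rw [(Equiv.symm_apply_eq _).2 hσs.symm]; simp [hqo]
        · have e1 : σ.symm q ≠ s₀ := by
            intro h; apply hqs; rw [← hσs, ← h, Equiv.apply_symm_apply]
          have e2 : σ.symm q ≠ o := by
            intro h; apply hqo; rw [← hσo, ← h, Equiv.apply_symm_apply]
          rw [hfγ _ e1 e2]; simp [hqo, hqs]
  choose B μ hμ hWB hBo using hB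
  have hWinj : ∀ s s' : ι, s ≠ s' → ∀ c : F, W s ≠ c • W s' := by
    have main : ∀ s s' : ι, s ≠ s' → s ≠ o → ∀ c : F, W s ≠ c • W s' := by
      intro s s' hss hso c h
      obtain ⟨q, hq⟩ := exists_notMem ({s, s', o} : Finset ι) (lt_of_le_of_lt Finset.card_le_three (by omega))
      simp only [Finset.mem_insert, Finset.mem_singleton, not_or] at hq
      have e1 := congrFun h q
      have e2 := congrFun h s
      rw [hW s hso] at e1 e2
      by_cases hs'o : s' = o
      · rw [hs'o, hWo] at e1 e2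
        simp only [hq.2.2, hq.1, if_false, Pi.smul_apply, hso, if_true] at e1 e2
        rw [hu q hq.2.2] at e1
        rw [hu s hso] at e2
        exact hfs (e2.trans e1.symm)
      · rw [hW s' hs'o] at e1 e2
        simp only [hq.2.2, hq.1, hq.2.1, if_false, Pi.smul_apply, hso, if_true, hss] at e1 e2
        exact hfs (e2.trans e1.symm)
    intro s s' hss c h
    by_cases hso : s = o
    · have hc : c ≠ 0 := by
        rintro rfl
        rw [zero_smul, hso, hWo] at h
        exact mulVec_single_ne g j₀ h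
      refine main s' s (Ne.symm hss) (by rw [← hso]; exact Ne.symm hss) c⁻¹ ?_
      rw [h, smul_smul, inv_mul_cancel₀ hc, one_smul]
    · exact main s s' hss hso c h
  have hBinj : Function.Injective B := by
    intro s s' h
    by_contra hne
    apply hWinj s s' hne (μ s * (μ s')⁻¹)
    rw [hWB s, hWB s', h, smul_smul, mul_assoc, inv_mul_cancel₀ (hμ s'), mul_one]
  let eB : ι ≃ ι := Equiv.ofBijective B ⟨hBinj, Finite.surjective_of_injective hBinj⟩
  -- coordinates of `e_o`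
  let y : ι → F := ((g⁻¹ : GL ι F) : Matrix ι ι F) *ᵥ Pi.single o 1
  let X : ι → F := fun s => y (B s) * (μ s)⁻¹
  have hX : (Pi.single o 1 : ι → F) = ∑ s, X s • W s := by
    have e1 : (Pi.single o 1 : ι → F) = (g : Matrix ι ι F) *ᵥ y := by
      simp only [y]; rw [gl_mulVec_inv]
    rw [e1, mulVec_eq_sum', ← Equiv.sum_comp eB]
    refine Finset.sum_congr rfl fun s _ => ?_
    change y (B s) • ((g : Matrix ι ι F) *ᵥ Pi.single (B s) 1) = X s • W s
    rw [hWB s, smul_smul]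
    simp only [X]
    rw [mul_assoc, inv_mul_cancel₀ (hμ s), mul_one]
  -- coordinates of combinations of the W s
  have hcoord : ∀ (Z : ι → F) (l : ι), l ≠ o → (∑ s, Z s • W s) l =
      Z o + γ * ∑ s ∈ Finset.univ.erase o, Z s + (f s₀ - γ) * Z l := by
    intro Z l hl
    rw [Finset.sum_apply, ← Finset.add_sum_erase _ _ (Finset.mem_univ o)]
    have e1 : (Z o • W o) l = Z o := by
      rw [hWo, Pi.smul_apply, hu l hl, smul_eq_mul, mul_one]
    have e2 : ∀ s ∈ Finset.univ.erase o, (Z s • W s) l = γ * Z s + (if s = l then (f s₀ - γ) * Z s else 0) := by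
      intro s hs
      have hso := Finset.ne_of_mem_erase hs
      rw [hW s hso, Pi.smul_apply, smul_eq_mul]
      by_cases hsl : s = l
      · subst hsl; simp [hl]; ring
      · simp [hl, hsl, Ne.symm hsl]; ring
    rw [e1, Finset.sum_congr rfl e2, Finset.sum_add_distrib, ← Finset.mul_sum, Finset.sum_ite_eq' ,
      if_pos (Finset.mem_erase.2 ⟨hl, Finset.mem_univ l⟩)]
    ring
  obtain ⟨l₀, hl₀⟩ := exists_notMem ({o} : Finset ι) (by rw [Finset.card_singleton]; omega)
  simp only [Finset.mem_singleton] at hl₀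
  have hzero : ∀ l, l ≠ o → X o + γ * ∑ s ∈ Finset.univ.erase o, X s + (f s₀ - γ) * X l = 0 := by
    intro l hl
    rw [← hcoord X l hl, ← hX, Pi.single_eq_of_ne hl]
  have hXc : ∀ l, l ≠ o → X l = X l₀ := by
    intro l hl
    have e1 := hzero l hl
    have e2 := hzero l₀ hl₀
    have : (f s₀ - γ) * (X l - X l₀) = 0 := by linear_combination e1 - e2
    exact sub_eq_zero.1 ((mul_eq_zero.1 this).resolve_left hρ)
  have hX0 : X l₀ ≠ 0 := by
    intro h0
    have hall : ∀ l, l ≠ o → X l = 0 := fun l hl => (hXc l hl).trans h0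
    have hs : ∑ s ∈ Finset.univ.erase o, X s = 0 :=
      Finset.sum_eq_zero fun s hs => hall s (Finset.ne_of_mem_erase hs)
    have hXo : X o = 0 := by
      have := hzero l₀ hl₀
      rw [hs, h0] at this
      linear_combination this
    have : (Pi.single o 1 : ι → F) = 0 := by
      rw [hX]
      refine Finset.sum_eq_zero fun s _ => ?_
      by_cases hso : s = o
      · rw [hso, hXo, zero_smul]
      · rw [hall s hso, zero_smul]
    exact single_ne o this
  refine ⟨γ, f s₀ - γ, X l₀, hρ, hX0, ?_⟩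
  intro a hao haprod
  let d : ι → Fˣ := fun b => a (eB.symm b)
  have hd : ∏ b, d b = 1 := by
    rw [← haprod]
    exact Equiv.prod_comp eB.symm a
  refine ⟨g * dg d * g⁻¹, M.mul_mem (M.mul_mem hg (hD d hd)) (M.inv_mem hg), ?_⟩
  have hxW : ∀ s, ((g * dg d * g⁻¹ : GL ι F) : Matrix ι ι F) *ᵥ W s = (a s : F) • W s := by
    intro s
    rw [hWB s, Matrix.mulVec_smul, gl_mul_mulVec, gl_inv_mulVec, gl_mul_mulVec, smul_comm]
    congr 1
    rw [← Matrix.mulVec_smul]
    congr 1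
    rw [dg_mulVec]
    ext q
    by_cases hq : q = B s
    · subst hq
      have : eB.symm (B s) = s := (Equiv.symm_apply_eq _).2 rfl
      simp [d, this]
    · simp [hq]
  intro l hl
  have h1 : ((g * dg d * g⁻¹ : GL ι F) : Matrix ι ι F) *ᵥ Pi.single o 1 = ∑ s, (X s * a s) • W s := by
    rw [hX, Matrix.mulVec_sum]
    refine Finset.sum_congr rfl fun s _ => ?_
    rw [Matrix.mulVec_smul, hxW, smul_smul]
  rw [h1, hcoord _ l hl]
  have h2 : ∑ s ∈ Finset.univ.erase o, X s * (a s : F) = X l₀ * ∑ s ∈ Finset.univ.erase o, (a s : F) := by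
    rw [Finset.mul_sum]
    exact Finset.sum_congr rfl fun s hs => by rw [hXc s (Finset.ne_of_mem_erase hs)]
  have h3 : ∑ s ∈ Finset.univ.erase o, X s = X l₀ * ∑ s ∈ Finset.univ.erase o, (1 : F) := by
    rw [Finset.mul_sum]
    exact Finset.sum_congr rfl fun s hs => by rw [hXc s (Finset.ne_of_mem_erase hs), mul_one]
  have h4 : ∑ s, ((a s : F) - 1) = ∑ s ∈ Finset.univ.erase o, (a s : F) - ∑ s ∈ Finset.univ.erase o, (1 : F) := by
    rw [← Finset.add_sum_erase _ _ (Finset.mem_univ o), hao, ← Finset.sum_sub_distrib]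
    simp
  have h5 := hzero l hl
  rw [h3, hXc l hl] at h5
  rw [h2, h4, hao, hXc l hl, Units.val_one]
  linear_combination h5


end frame

include hD hP hK hn in
theorem partA [Fintype F] (h5 : 5 ≤ Fintype.card F) (h6 : Fintype.card ι = 6) : ∀ x ∈ M, Mon x := by
  classical
  obtain ⟨a, ha2, ha3⟩ := exists_a h5
  have ha1 : (a : F) ≠ 1 := by
    intro h; apply ha2; rw [h]; ring
  by_contra hcon
  push Not at hcon
  obtain ⟨g₀, hg₀, hgm₀⟩ := hcon
  have hne : Nonempty ι := Fintype.card_pos_iff.1 (by omega)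
  let j₀ : ι := Classical.arbitrary ι
  set u₀ := (g₀ : Matrix ι ι F) *ᵥ Pi.single j₀ 1 with hu₀
  obtain ⟨o, ho⟩ : ∃ o, ∀ s, s ≠ o → u₀ s ≠ 0 := by
    by_cases h : ∃ s, u₀ s = 0
    · obtain ⟨s, hs⟩ := h
      exact ⟨s, fun t ht => S1' hD hP hK hn hg₀ hgm₀ ha2 ha3 (Ne.symm ht) hs⟩
    · push Not at h
      exact ⟨Classical.arbitrary ι, fun s _ => h s⟩
  let v : ι → Fˣ := fun s => if h : u₀ s ≠ 0 then Units.mk0 (u₀ s) h else 1
  have hv : ∀ s, s ≠ o → (v s : F) = u₀ s := by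
    intro s hs; simp [v, ho s hs]
  let d : ι → Fˣ := Function.update (fun s => (v s)⁻¹) o (∏ s ∈ Finset.univ.erase o, v s)
  have hd : ∏ s, d s = 1 := by
    rw [← Finset.mul_prod_erase _ _ (Finset.mem_univ o)]
    have e1 : ∏ s ∈ Finset.univ.erase o, d s = ∏ s ∈ Finset.univ.erase o, (v s)⁻¹ :=
      Finset.prod_congr rfl fun s hs => by simp [d, Finset.ne_of_mem_erase hs]
    rw [e1]
    simp [d]
  set g : GL ι F := dg d * g₀ with hgd
  have hg : g ∈ M := M.mul_mem (hD d hd) hg₀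
  have hgm : ¬ Mon g := by
    intro h
    apply hgm₀
    have := (Mon.dg d).inv.mul h
    rwa [hgd, inv_mul_cancel_left] at this
  have hu : ∀ s, s ≠ o → ((g : Matrix ι ι F) *ᵥ Pi.single j₀ 1) s = 1 := by
    intro s hs
    rw [hgd, gl_mul_mulVec, dg_mulVec, ← hu₀]
    simp only [d, Function.update_of_ne hs]
    rw [← hv s hs, Units.inv_mul]
  have hz : ∀ b k l : ι, k ≠ l → ((g : Matrix ι ι F) *ᵥ Pi.single b 1) k = 0 →
      ((g : Matrix ι ι F) *ᵥ Pi.single b 1) l ≠ 0 := fun b k l hkl hk => S1' hD hP hK hn hg hgm ha2 ha3 hkl hk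
  have hgm' : ¬ Mon g⁻¹ := by
    intro h
    have := h.inv
    rw [inv_inv] at this
    exact hgm this
  have hz' : ∀ b k l : ι, k ≠ l → (((g⁻¹ : GL ι F) : Matrix ι ι F) *ᵥ Pi.single b 1) k = 0 →
      (((g⁻¹ : GL ι F) : Matrix ι ι F) *ᵥ Pi.single b 1) l ≠ 0 := fun b k l hkl hk =>
    S1' hD hP hK hn (M.inv_mem hg) hgm' ha2 ha3 hkl hk
  obtain ⟨γ, ρ, X, hρ, hX, htest⟩ := frame_test6 hD hP hK hg hu hz hz' h6
  -- the final contradiction from a vector with two zeros and two non-zeros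
  have hfin : ∀ x ∈ M, ∀ l1 l2 l3 l4 : ι, l1 ≠ l2 → l3 ≠ l4 →
      ((x : Matrix ι ι F) *ᵥ Pi.single o 1) l1 ≠ 0 → ((x : Matrix ι ι F) *ᵥ Pi.single o 1) l2 ≠ 0 →
      ((x : Matrix ι ι F) *ᵥ Pi.single o 1) l3 = 0 → ((x : Matrix ι ι F) *ᵥ Pi.single o 1) l4 = 0 → False := by
    intro x hx l1 l2 l3 l4 h12 h34 n1 n2 n3 n4
    by_cases hm : Mon x
    · obtain ⟨i, c, h⟩ := hm o
      exact not_prop h12 n1 n2 h
    · exact S1' hD hP hK hn hx hm ha2 ha3 h34 n3 n4
  obtain ⟨e⟩ : Nonempty (Fin 5 ↪ {s // s ≠ o}) := by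
    apply Function.Embedding.nonempty_of_card_le
    rw [Fintype.card_subtype_compl, Fintype.card_fin, Fintype.card_subtype_eq]
    omega
  have hinj : Function.Injective (fun i => (e i : ι)) := Subtype.val_injective.comp e.injective
  -- three elements with sum three and product one
  set t : F := (a : F) with ht
  have t0 : t ≠ 0 := a.ne_zero
  have t1 : 1 + t ≠ 0 := by
    intro h; apply ha2; have : t = -1 := by linear_combination h
    rw [this]; ring
  have hq : t ^ 2 + t + 1 ≠ 0 := ha3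
  let b1 : Fˣ := Units.mk0 (-1 / (t * (1 + t))) (div_ne_zero (neg_ne_zero.2 one_ne_zero) (mul_ne_zero t0 t1))
  let b2 : Fˣ := Units.mk0 (-t ^ 2 / (1 + t)) (div_ne_zero (neg_ne_zero.2 (pow_ne_zero 2 t0)) t1)
  let b3 : Fˣ := Units.mk0 ((1 + t) ^ 2 / t) (div_ne_zero (pow_ne_zero 2 t1) t0)
  have hsum : (b1 : F) + b2 + b3 = 3 := by
    change -1 / (t * (1 + t)) + -t ^ 2 / (1 + t) + (1 + t) ^ 2 / t = 3
    field_simp
    ring
  have hprod : (b1 : F) * b2 * b3 = 1 := by
    change -1 / (t * (1 + t)) * (-t ^ 2 / (1 + t)) * ((1 + t) ^ 2 / t) = 1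
    field_simp
  have hb1 : (b1 : F) - 1 ≠ 0 := by
    change -1 / (t * (1 + t)) - 1 ≠ 0
    intro h
    apply hq
    field_simp at h
    linear_combination -h
  have hb2 : (b2 : F) - 1 ≠ 0 := by
    change -t ^ 2 / (1 + t) - 1 ≠ 0
    intro h
    apply hq
    field_simp at h
    linear_combination -h
  let a₀ : Fin 5 → Fˣ := ![1, 1, b1, b2, b3]
  let A : ι → Fˣ := Function.extend (fun i => (e i : ι)) a₀ 1
  have hAe : ∀ i, A (e i) = a₀ i := fun i => hinj.extend_apply a₀ 1 i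
  have hAo : ∀ s, s ∉ Set.range (fun i => (e i : ι)) → A s = 1 := by
    intro s hs
    rw [show A s = Function.extend (fun i => (e i : ι)) a₀ 1 s from rfl, Function.extend_apply' _ _ _ hs]; rfl
  have hAo' : A o = 1 := hAo o (by rintro ⟨i, hi⟩; exact (e i).2 hi)
  have hAprod : ∏ s, A s = 1 := by
    rw [← Fintype.prod_of_injective (fun i => (e i : ι)) hinj a₀ A hAo (fun i => (hAe i).symm)]
    apply Units.ext
    simp only [a₀, Fin.prod_univ_succ, Fin.prod_univ_zero, Units.val_mul, Matrix.cons_val_zero,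
      Matrix.cons_val_succ, Units.val_one, mul_one, one_mul]
    rw [← mul_assoc]; exact hprod
  have hAsum : ∑ s, ((A s : F) - 1) = 0 := by
    rw [← Fintype.sum_of_injective (fun i => (e i : ι)) hinj (fun i => (a₀ i : F) - 1) (fun s => (A s : F) - 1)
      (fun s hs => by rw [hAo s hs]; simp) (fun i => by rw [hAe])]
    simp only [a₀, Fin.sum_univ_succ, Fin.sum_univ_zero, Matrix.cons_val_zero,
      Matrix.cons_val_succ, Units.val_one, add_zero, sub_self]
    linear_combination hsum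
  obtain ⟨x, hx, hxl⟩ := htest A hAo' hAprod
  have hval : ∀ i, ((x : Matrix ι ι F) *ᵥ Pi.single o 1) (e i) = X * (ρ * ((a₀ i : F) - 1)) := by
    intro i
    rw [hxl _ (e i).2, hAsum, hAe, mul_zero, zero_add]
  have h01 : (e 0 : ι) ≠ e 1 := fun h => by simpa using hinj h
  have h23 : (e 2 : ι) ≠ e 3 := fun h => by simpa using hinj h
  refine hfin x hx (e 2) (e 3) (e 0) (e 1) h23 h01 ?_ ?_ ?_ ?_
  · rw [hval]; exact mul_ne_zero hX (mul_ne_zero hρ hb1)
  · rw [hval]; exact mul_ne_zero hX (mul_ne_zero hρ hb2)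
  · rw [hval]
    have : (a₀ 0 : F) = 1 := rfl
    rw [this, sub_self, mul_zero, mul_zero]
  · rw [hval]
    have : (a₀ 1 : F) = 1 := rfl
    rw [this, sub_self, mul_zero, mul_zero]

end partA

section partB

variable {o : ι}

theorem partB [Fintype F] (h5 : 5 ≤ Fintype.card F) (hn : 5 ≤ Fintype.card ι) {M : Subgroup (GL ι F)}
    (hMS : M ≤ specialLinear ι F) (hH : ∀ x : GL ι F, Mon x → x ∈ specialLinear ι F → x ∈ M)
    {x : GL ι F} (hx : x ∈ M) (hxm : ¬ Mon x) {c : F}
    (hxo : (x : Matrix ι ι F) *ᵥ Pi.single o 1 = c • Pi.single o 1) :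
    ∃ (o' : ι) (ψ : ι → F), ψ ≠ 0 ∧ HasT M (Pi.single o' 1) ψ := by
  classical
  obtain ⟨g, hg⟩ := exists_ind hxo
  by_cases hgm : Mon g
  · have h1 : lift1 o g ∈ M := hH _ hgm.lift1 (lift1_sl g)
    have h2 : x * (lift1 o g)⁻¹ ∈ M := M.mul_mem hx (M.inv_mem h1)
    obtain ⟨ψ, h0, hz⟩ := trivial_quo (o := o) (hMS h2) (by
      intro y
      rw [gl_mul_mulVec, hg, ← lift1_ind g, gl_mulVec_inv])
    refine ⟨o, ψ, ?_, h0, _, h2, hz⟩
    rintro rfl
    apply hxm
    have : x * (lift1 o g)⁻¹ = 1 := Units.ext (by rw [hz]; simp)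
    rw [mul_inv_eq_one] at this
    rw [this]; exact hgm.lift1
  · have hQ : ∀ g' : GL {s // s ≠ o} F, Mon g' → g' ∈ quo M o := fun g' h =>
      ⟨lift1 o g', hH _ h.lift1 (lift1_sl g'), lift1_ind g'⟩
    have hgQ : g ∈ quo M o := ⟨x, hx, hg⟩
    -- a column with two nonzero entries
    obtain ⟨j, hj⟩ : ∃ j, ∀ (i : {s // s ≠ o}) (c : F),
        (g : Matrix {s // s ≠ o} {s // s ≠ o} F) *ᵥ Pi.single j 1 ≠ c • Pi.single i 1 := by
      by_contra hcon
      push Not at hcon
      exact hgm hcon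
    obtain ⟨i₁, hi₁⟩ := Function.ne_iff.1 (mulVec_single_ne g j)
    obtain ⟨i₂, hi₂, hi₂'⟩ : ∃ i₂, i₁ ≠ i₂ ∧ ((g : Matrix {s // s ≠ o} {s // s ≠ o} F) *ᵥ Pi.single j 1) i₂ ≠ 0 := by
      by_contra hcon
      push Not at hcon
      apply hj i₁ (((g : Matrix {s // s ≠ o} {s // s ≠ o} F) *ᵥ Pi.single j 1) i₁)
      ext k
      by_cases hk : k = i₁
      · subst hk; simp
      · rw [hcon k (Ne.symm hk)]; simp [hk]
    obtain ⟨p, q, hpq, c', hc', hT⟩ := root_of_nonmono h5 (by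
      rw [Fintype.card_subtype_compl, Fintype.card_subtype_eq]; omega) (fun d => hQ _ (Mon.dg d)) (fun σ => hQ _ (Mon.pm σ))
      hgQ hi₂ hi₁ hi₂'
    obtain ⟨-, g', hg', hg'm⟩ := hT
    obtain ⟨x', hx', hind⟩ := mem_quo.1 hg'
    have hpq' : p.1 ≠ q.1 := fun h => hpq (Subtype.ext h)
    -- the root element r of GL ι
    have hr0 : (c' • (Pi.single q.1 (1 : F) : ι → F)) ⬝ᵥ (Pi.single p.1 1 : ι → F) = 0 := by
      simp [Ne.symm hpq']
    set r : GL ι F := tvec (Pi.single p.1 1) (c' • (Pi.single q.1 (1 : F) : ι → F)) hr0 with hrd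
    have hrv : ∀ y : ι → F, (r : Matrix ι ι F) *ᵥ y = y + (c' * y q.1) • Pi.single p.1 1 := by
      intro y
      rw [hrd, tvec_mulVec, smul_dotProduct]; simp
    have hrx : ∀ y : ι → F, res o ((x' : Matrix ι ι F) *ᵥ y) = res o ((r : Matrix ι ι F) *ᵥ y) := by
      intro y
      rw [hind, hg'm, hrv, Matrix.add_mulVec, Matrix.one_mulVec, Matrix.vecMulVec_mulVec]
      ext ⟨s, hs⟩
      by_cases hsp : s = p.1
      · subst hsp; simp [res]
      · have : (⟨s, hs⟩ : {s // s ≠ o}) ≠ p := fun h => hsp (congrArg Subtype.val h)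
        simp [res, hsp, this]
    have hrsl : r ∈ specialLinear ι F := tvec_det _ _ _
    obtain ⟨ψ, h0, hz⟩ := trivial_quo (o := o) (z := x' * r⁻¹) (Subgroup.mul_mem _ (hMS hx') (Subgroup.inv_mem _ hrsl)) (by
      intro y
      rw [gl_mul_mulVec, hrx, gl_mulVec_inv])
    have hψo : ψ o = 0 := by simpa using h0
    by_cases hψ : ψ = 0
    · refine ⟨p.1, c' • Pi.single q.1 1, ?_, ?_⟩
      · intro h
        have := congrFun h q.1
        simp at this
        exact hc' this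
      · rw [hasT_iff]
        refine ⟨hr0, ?_⟩
        have : x' * r⁻¹ = 1 := Units.ext (by rw [hz, hψ]; simp)
        rw [mul_inv_eq_one] at this
        rw [← hrd, ← this]; exact hx'
    · obtain ⟨s, hs⟩ := Function.ne_iff.1 hψ
      have hso : s ≠ o := by rintro rfl; exact hs hψo
      obtain ⟨t, ht⟩ := exists_notMem ({o, s, p.1, q.1} : Finset ι) (lt_of_le_of_lt Finset.card_le_four (by omega))
      simp only [Finset.mem_insert, Finset.mem_singleton, not_or] at ht
      obtain ⟨b, hb⟩ : ∃ b : Fˣ, b ≠ 1 := by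
        have : 1 < Fintype.card Fˣ := by rw [Fintype.card_units]; omega
        have := Fintype.one_lt_card_iff_nontrivial.1 this
        exact exists_ne 1
      have hd1 := dd_prod (F := F) (Ne.symm ht.1) b
      have hdM : dg (dd o t b) ∈ M := hH _ (Mon.dg _) (dg_mem_sl hd1)
      set δ : GL ι F := dg (dd o t b) with hδ
      -- conjugating `r` by δ does nothing
      have hδr : δ * r * δ⁻¹ = r := by
        apply gl_ext; intro y
        rw [gl_mul_mulVec, gl_mul_mulVec, hrv, hrv, Matrix.mulVec_add, gl_mulVec_inv, Matrix.mulVec_smul, hδ,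
          dg_single, dd_m p.2 (Ne.symm ht.2.2.1), Units.val_one, one_smul, dg_inv, dg_mulVec]
        simp only [Pi.inv_apply]
        rw [dd_m q.2 (Ne.symm ht.2.2.2)]
        simp
      have hzT : HasT ⊤ (Pi.single o 1) ψ := ⟨h0, _, trivial, hz⟩
      have hzc := (hzT.conj (g := δ) trivial)
      rw [hδ, dg_single, dd_k (Ne.symm ht.1), hasT_smul_left_iff b.ne_zero, vecMul_dg_inv] at hzc
      set φ : ι → F := (b : F) • fun i => (((dd o t b i)⁻¹ : Fˣ) : F) * ψ i with hφ
      have hmem : δ * x' * δ⁻¹ * x'⁻¹ ∈ M :=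
        M.mul_mem (M.mul_mem (M.mul_mem hdM hx') (M.inv_mem hdM)) (M.inv_mem hx')
      set z : GL ι F := x' * r⁻¹ with hzd
      have hx'z : x' = z * r := by rw [hzd]; group
      have e1 : δ * x' * δ⁻¹ * x'⁻¹ = (δ * z * δ⁻¹) * z⁻¹ := by
        calc δ * x' * δ⁻¹ * x'⁻¹ = (δ * z * δ⁻¹) * (δ * r * δ⁻¹) * r⁻¹ * z⁻¹ := by rw [hx'z]; group
          _ = (δ * z * δ⁻¹) * z⁻¹ := by rw [hδr]; group
      refine ⟨o, φ - ψ, ?_, ?_, _, hmem, ?_⟩
      · intro h
        have e2 := congrFun h s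
        by_cases hst : s = t
        · exact ht.2.1 hst.symm
        rw [Pi.sub_apply, hφ, Pi.smul_apply, dd_m hso hst] at e2
        simp only [inv_one, Units.val_one, one_mul, smul_eq_mul, Pi.zero_apply] at e2
        have e3 : ((b : F) - 1) * ψ s = 0 := by linear_combination e2
        rcases mul_eq_zero.1 e3 with h3 | h3
        · exact unit_sub_ne hb h3
        · exact hs h3
      · simp [hφ, hψo]
      · rw [e1]
        apply mat_ext; intro y
        rw [gl_mul_mulVec]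
        have e4 : (((z⁻¹ : GL ι F)) : Matrix ι ι F) *ᵥ y = y - (ψ ⬝ᵥ y) • Pi.single o 1 := by
          apply gl_mulVec_injective z
          change (z : Matrix ι ι F) *ᵥ _ = (z : Matrix ι ι F) *ᵥ _
          rw [gl_mulVec_inv, hz, Matrix.add_mulVec, Matrix.one_mulVec, Matrix.vecMulVec_mulVec, dotProduct_sub,
            dotProduct_smul, h0]
          simp
        have e5 : ∀ y : ι → F, ((δ * z * δ⁻¹ : GL ι F) : Matrix ι ι F) *ᵥ y = y + (φ ⬝ᵥ y) • Pi.single o 1 := by
          intro y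
          rw [gl_mul_mulVec, gl_mul_mulVec, hz, Matrix.add_mulVec, Matrix.one_mulVec, Matrix.vecMulVec_mulVec,
            Matrix.mulVec_add, gl_mulVec_inv, hδ]
          have e6 : ψ ⬝ᵥ ((((dg (dd o t b))⁻¹ : GL ι F) : Matrix ι ι F) *ᵥ y) = (b : F)⁻¹ * (φ ⬝ᵥ y) := by
            rw [Matrix.dotProduct_mulVec, vecMul_dg_inv, hφ, smul_dotProduct, smul_eq_mul, ← mul_assoc,
              inv_mul_cancel₀ b.ne_zero, one_mul]
          rw [e6]
          have e7 : MulOpposite.op ((b : F)⁻¹ * (φ ⬝ᵥ y)) • (Pi.single o 1 : ι → F) = ((b : F)⁻¹ * (φ ⬝ᵥ y)) • Pi.single o 1 := by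
            ext i; simp [mul_comm]
          rw [e7, Matrix.mulVec_smul, dg_single, dd_k (Ne.symm ht.1), smul_smul]
          congr 2
          field_simp
        have e8 : φ ⬝ᵥ (Pi.single o 1 : ι → F) = 0 := by simp [hφ, hψo]
        rw [e4, e5, dotProduct_sub, dotProduct_smul, e8, Matrix.add_mulVec, Matrix.one_mulVec, Matrix.vecMulVec_mulVec,
          sub_dotProduct]
        ext i
        simp
        ring

end partB

theorem mono_core [Fintype F] (h5 : 5 ≤ Fintype.card F) (h6 : Fintype.card ι = 6) {M : Subgroup (GL ι F)}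
    (hMS : M ≤ specialLinear ι F) (hH : ∀ x : GL ι F, Mon x → x ∈ specialLinear ι F → x ∈ M)
    {x : GL ι F} (hx : x ∈ M) (hxm : ¬ Mon x) : specialLinear ι F ≤ M := by
  have hD : ∀ d : ι → Fˣ, ∏ i, d i = 1 → dg d ∈ M := fun d h => hH _ (Mon.dg d) (dg_mem_sl h)
  have hP : ∀ σ : Equiv.Perm ι, Equiv.Perm.sign σ = 1 → pm σ ∈ M := fun σ h => hH _ (Mon.pm σ) (pm_mem_sl h)
  have hb : ∃ b : Fˣ, b ≠ 1 := by
    classical
    have : 1 < Fintype.card Fˣ := by
      rw [Fintype.card_units]; omega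
    have := Fintype.one_lt_card_iff_nontrivial.1 this
    exact exists_ne 1
  by_cases hK : ∀ x ∈ M, ∀ (o : ι) (c : F), (x : Matrix ι ι F) *ᵥ Pi.single o 1 = c • Pi.single o 1 → Mon x
  · exact absurd (partA hD hP hK (by omega) h5 h6 x hx) hxm
  · push Not at hK
    obtain ⟨y, hy, o, c, hyo, hym⟩ := hK
    obtain ⟨o', ψ, hψ, h⟩ := partB h5 (by omega) hMS hH hy hym hyo
    exact partC hD hP (by omega) hb hψ h


/-- the monomial case -/
theorem std_maximal_one {t : ℕ} [Fintype F] {β : ι → Fin t} (hc : ∀ j, Fintype.card {a // β a = j} = 1)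
    (h6 : Fintype.card ι = 6) (h5 : 5 ≤ Fintype.card F) :
    IsMaximalIn (specialLinear ι F) (decompositionStabilizer (blk β F) ⊓ specialLinear ι F) := by
  have hm0 : 0 < 1 := one_pos
  -- β is bijective
  have hinj : Function.Injective β := by
    intro a b hab
    have := Fintype.card_le_one_iff.1 (hc (β b)).le ⟨a, hab⟩ ⟨b, rfl⟩
    exact congrArg Subtype.val this
  have hne : ∀ j, ∃ a, β a = j := by
    intro i
    have : 0 < Fintype.card {a // β a = i} := by rw [hc]; exact hm0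
    obtain ⟨⟨a, ha⟩⟩ := Fintype.card_pos_iff.1 this
    exact ⟨a, ha⟩
  have hSp : ∀ (a : ι) (x : ι → F), Sp β (β a) x ↔ x = x a • Pi.single a 1 := by
    intro a x
    constructor
    · intro h
      ext b
      by_cases hb : b = a
      · subst hb; simp
      · rw [h b (fun h' => hb (hinj h'))]; simp [hb]
    · intro h b hb
      have : b ≠ a := fun h' => hb (by rw [h'])
      rw [h]; simp [this]
  have hmon : ∀ g : GL ι F, g ∈ decompositionStabilizer (blk β F) ↔ Mon g := by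
    intro g
    rw [mem_stab_iff hm0 hc]
    constructor
    · intro h j
      obtain ⟨l, hl⟩ := h (β j)
      obtain ⟨i, rfl⟩ := hne l
      exact ⟨i, _, (hSp i _).1 (hl _ (Sp.single j 1))⟩
    · intro h i
      obtain ⟨j, rfl⟩ := hne i
      obtain ⟨k, c, hk⟩ := h j
      refine ⟨β k, fun x hx => ?_⟩
      rw [(hSp j x).1 hx, Matrix.mulVec_smul, hk, smul_smul]
      exact (Sp.single k 1).smul _
  obtain ⟨a₀, b₀, hab⟩ := Fintype.exists_pair_of_one_lt_card (α := ι) (by omega)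
  refine ⟨lt_of_le_of_ne inf_le_right ?_, ?_⟩
  · intro heq
    have h0 : (Pi.single b₀ 1 : ι → F) ⬝ᵥ Pi.single a₀ 1 = 0 := by simp [hab.symm]
    have h1 := tvec_det (Pi.single a₀ (1 : F)) (Pi.single b₀ (1 : F)) h0
    rw [← heq] at h1
    obtain ⟨i, c, h2⟩ := (hmon _).1 (Subgroup.mem_inf.1 h1).1 b₀
    rw [tvec_mulVec] at h2
    exact not_prop hab (by simp [hab]) (by simp [hab.symm]) h2
  · intro M hHM hMS
    by_cases hM : M ≤ decompositionStabilizer (blk β F)
    · left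
      exact le_antisymm (le_inf hM hMS) hHM
    · right
      refine le_antisymm hMS ?_
      obtain ⟨g, hg, hgS⟩ := SetLike.not_le_iff_exists.1 hM
      exact mono_core h5 h6 hMS (fun x hx hxs => hHM ⟨(hmon x).2 hx, hxs⟩) hg (fun h => hgS ((hmon g).2 h))

open Cfsg.Agent.SmallDim.Blk (exists_std conj_stab)

theorem decomposition_maximal {t : ℕ} [Fintype F] {n : ℕ} (hn : 6 ≤ n) {m : ℕ} (hn1 : m = 1 → n = 6)
    (D : Fin t → Submodule F (Fin n → F))
    (hD : IsMDecomposition m D) (h1 : ¬ (m = 1 ∧ Fintype.card F ≤ 4)) (h2 : ¬ (m = 2 ∧ Fintype.card F = 2)) :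
    IsMaximalIn (specialLinear (Fin n) F) (decompositionStabilizer D ⊓ specialLinear (Fin n) F) := by
  classical
  obtain ⟨β, P, hc, hDP⟩ := exists_std hD
  have key : IsMaximalIn (specialLinear (Fin n) F) (decompositionStabilizer (blk β F) ⊓ specialLinear (Fin n) F) := by
    by_cases hm1 : m = 1
    · subst hm1
      refine std_maximal_one hc (by simpa using hn1 rfl) ?_
      by_contra h
      exact h1 ⟨rfl, by omega⟩
    · have hm : 2 ≤ m := by have := hD.pos; omega
      refine std_maximal hc hm hD.two_le ?_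
      rintro rfl
      constructor
      · -- n = 2 t
        have hsum : n = t * 2 := by
          have e1 : Fintype.card (Fin n) = ∑ j, Fintype.card {a // β a = j} := by
            rw [← Fintype.card_sigma]
            exact Fintype.card_congr (Equiv.sigmaFiberEquiv β).symm
          simp only [hc, Fintype.card_fin, Finset.sum_const, Finset.card_univ, smul_eq_mul] at e1
          exact e1
        omega
      · have hq : 2 < Fintype.card F := by
          have h3 : 1 < Fintype.card F := Fintype.one_lt_card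
          by_contra h
          exact h2 ⟨rfl, by omega⟩
        have : 1 < Fintype.card Fˣ := by rw [Fintype.card_units]; omega
        have := Fintype.one_lt_card_iff_nontrivial.1 this
        exact exists_ne 1
  have h3 := isMaximalIn_map (MulAut.conj P) key
  rw [Subgroup.map_inf _ _ _ (MulAut.conj P).injective, map_conj_specialLinear, ← conj_stab P hDP] at h3
  exact h3

end Cfsg.Agent.H94.Mono6
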