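import Cfsg.Agent.GeoMax.OU
import Cfsg.Agent.GeoMax.OBasic

/-!
Existence lemmas in small-dimensional quadratic spaces (dimension at least five or six).
-/

set_option autoImplicit false
set_option linter.unusedSectionVars false

namespace Cfsg.Agent.H94.SmallOrt

open QuadraticMap Module Cfsg.Agent.Orth Cfsg.Agent.GeoMax Cfsg.Agent.GeoMax.Ort

variable {F V : Type*} [Field F] [AddCommGroup V] [Module F V] [FiniteDimensional F V] {Q : QuadraticForm F V}

theorem mem_perp_list {l : List V} {x : V} : x ∈ perp Q (Submodule.span F {x | x ∈ l}) ↔ ∀ w ∈ l, polar Q x w = 0 := by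
  constructor
  · intro h w hw
    rw [pc]; exact h w (Submodule.subset_span hw)
  · intro h w hw
    change polar Q w x = 0
    rw [pc]
    refine Submodule.span_induction (p := fun w _ => polar Q x w = 0) (fun w hw => h w hw) (polar_zero_right Q x)
      (fun a b _ _ ha hb => by rw [par, ha, hb, add_zero]) (fun c a _ ha => by rw [psr, ha, mul_zero]) hw

theorem finrank_perp_list (hQ : (polarBilin Q).Nondegenerate) (l : List V) :
    finrank F V ≤ finrank F (perp Q (Submodule.span F {x | x ∈ l})) + l.length := by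
  have h1 := finrank_perp hQ (Submodule.span F {x | x ∈ l})
  have h2 := Symp.finrank_span_list_le (K := F) l
  omega

theorem exists_ns (hQ : (polarBilin Q).Nondegenerate) (W : Submodule F V) (hW : finrank F V < 2 * finrank F W) :
    ∃ c ∈ W, Q c ≠ 0 := by
  by_contra hcon
  push Not at hcon
  have h1 : W ≤ perp Q W := by
    intro x hx y hy
    change polar Q y x = 0
    have := hcon (y + x) (W.add_mem hy hx)
    rw [qadd, hcon y hy, hcon x hx] at this
    linear_combination this
  have h2 := Submodule.finrank_mono h1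
  have h3 := finrank_perp hQ W
  omega

theorem exists_list_ns (hQ : (polarBilin Q).Nondegenerate) (l : List V) (hl : 2 * l.length < finrank F V) :
    ∃ c, (∀ w ∈ l, polar Q c w = 0) ∧ Q c ≠ 0 := by
  have h1 := finrank_perp_list hQ l
  obtain ⟨c, hc, hq⟩ := exists_ns hQ (perp Q (Submodule.span F {x | x ∈ l})) (by omega)
  exact ⟨c, mem_perp_list.1 hc, hq⟩

/-- Eichler elements lie in the commutator subgroup -/
theorem eich_mem_commutator5 [Finite F] (hQ : (polarBilin Q).Nondegenerate) (hN : 5 ≤ finrank F V) {a b : V}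
    (ha : Q a = 0) (hab : polar Q a b = 0) : eich Q a b ha hab ∈ commutator (OGrp Q) := by
  have key : ∀ b, ∀ hab : polar Q a b = 0, Q b ≠ 0 → eich Q a b ha hab ∈ commutator (OGrp Q) := by
    intro b hab hb
    have hq : Q (b - Q b • a) = Q b := by
      rw [qsub, qsmul, psr, pc, hab, ha]; ring
    have hb' : Q (b - Q b • a) ≠ 0 := by rw [hq]; exact hb
    rw [eich_eq_refl_mul ha hab hb hb']
    exact refl_pair_mem hQ hb hb' hq.symm
  by_cases hb : Q b = 0
  · obtain ⟨b₁, h2, h1⟩ := exists_list_ns hQ [a, b] (by simp; omega)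
    have hb₁a : polar Q a b₁ = 0 := by rw [pc, h2 a (by simp)]
    have hb₁b : polar Q b b₁ = 0 := by rw [pc, h2 b (by simp)]
    have h3 : HasE (commutator (OGrp Q)) a b₁ := ⟨ha, hb₁a, key b₁ hb₁a h1⟩
    have h4 : polar Q a (b - b₁) = 0 := by rw [pdr, hab, hb₁a, sub_zero]
    have h5 : HasE (commutator (OGrp Q)) a (b - b₁) := by
      refine ⟨ha, h4, key _ h4 ?_⟩
      rw [qsub, hb, hb₁b, zero_add, sub_zero]; exact h1
    obtain ⟨_, _, h6⟩ := h5.add h3
    convert h6 using 2
    abel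
  · exact key b hab hb

theorem exists_polar_ne' (hQ : (polarBilin Q).Nondegenerate) {a : V} (ha : a ≠ 0) : ∃ y, polar Q a y ≠ 0 := by
  by_contra hcon
  push Not at hcon
  exact ha (hQ.1 a fun y => by rw [pbil]; exact hcon y)

/-- a singular vector not orthogonal to two given singular ones -/
theorem exists_sing_common (hQ : (polarBilin Q).Nondegenerate) (hN : 5 ≤ finrank F V) {a y : V} (ha : Q a = 0)
    (hy : Q y = 0) (ha0 : a ≠ 0) (hy0 : y ≠ 0) : ∃ c, Q c = 0 ∧ polar Q a c ≠ 0 ∧ polar Q y c ≠ 0 := by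
  by_cases h : polar Q a y = 0
  · obtain ⟨z, -, h1, h2⟩ := exists_polar_ne_two (Q := Q) (P := ⊤) (a := a) (b := y)
      (by obtain ⟨z, hz⟩ := exists_polar_ne' hQ ha0; exact ⟨z, trivial, hz⟩)
      (by obtain ⟨z, hz⟩ := exists_polar_ne' hQ hy0; exact ⟨z, trivial, hz⟩)
    refine ⟨z - (Q z / polar Q a z) • a, ?_, ?_, ?_⟩
    · rw [qsub, qsmul, ha, psr, pc Q z a]; field_simp; ring
    · rw [pdr, psr, pself, ha, mul_zero, mul_zero, sub_zero]; exact h1
    · rw [pdr, psr, pc Q y a, h, mul_zero, sub_zero]; exact h2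
  · obtain ⟨w, hw, hq⟩ := exists_list_ns hQ [a, y] (by simp; omega)
    have hwa : polar Q a w = 0 := by rw [pc]; exact hw a (by simp)
    have hwy : polar Q y w = 0 := by rw [pc]; exact hw y (by simp)
    refine ⟨a - (Q w / polar Q a y) • y + w, ?_, ?_, ?_⟩
    · rw [qadd, qsub, qsmul, ha, hy, psr, pdl, psl, hwa, hwy]; field_simp; ring
    · rw [par, pdr, psr, pself, ha, hwa]
      have : 2 * 0 - Q w / polar Q a y * polar Q a y + 0 = - Q w := by field_simp; ring
      rw [this]; exact neg_ne_zero.2 hq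
    · rw [par, pdr, psr, pself, hy, hwy, pc Q y a]
      simpa using h

/-- a singular vector not orthogonal to two given non-singular ones -/
theorem exists_sing_ne_two [Finite F] (hQ : (polarBilin Q).Nondegenerate) (h2 : (2 : F) ≠ 0) (hN : 6 ≤ finrank F V)
    {a b : V} (ha : Q a ≠ 0) (hb : b ≠ 0) : ∃ c, Q c = 0 ∧ polar Q a c ≠ 0 ∧ polar Q b c ≠ 0 := by
  set X := Submodule.span F {x | x ∈ [a, b]} with hX
  have haX : a ∈ X := Submodule.subset_span (by simp)
  have hX2 := Symp.finrank_span_list_le (K := F) [a, b]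
  simp only [List.length_cons, List.length_nil] at hX2
  have hP := finrank_perp_list hQ [a, b]
  simp only [List.length_cons, List.length_nil] at hP
  rw [← hX] at hX2 hP
  have hlt : X ⊓ perp Q X < X := by
    refine lt_of_le_of_ne inf_le_left fun h => ?_
    have h1 : a ∈ X ⊓ perp Q X := by rw [h]; exact haX
    have h3 : polar Q a a = 0 := h1.2 a haX
    rw [pself] at h3
    exact mul_ne_zero h2 ha h3
  have hR := Submodule.finrank_lt_finrank_of_lt hlt
  obtain ⟨C, hC⟩ := Submodule.exists_isCompl (X ⊓ perp Q X)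
  have h5 := Submodule.finrank_add_eq_of_isCompl hC
  have h6 := Submodule.finrank_sup_add_finrank_inf_eq (perp Q X) C
  have h7 := Submodule.finrank_le (perp Q X ⊔ C)
  obtain ⟨s, ⟨hs1, hs2⟩, hs0, hsq⟩ := exists_sing_mem Q (perp Q X ⊓ C) (by omega)
  have hsX : s ∉ X := by
    intro h
    have := hC.disjoint
    rw [Submodule.disjoint_def] at this
    exact hs0 (this s ⟨h, hs1⟩ hs2)
  obtain ⟨p, hp, hps⟩ := exists_ortho_not hQ X hsX
  have ha0 : a ≠ 0 := by rintro rfl; exact ha (QuadraticMap.map_zero Q)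
  obtain ⟨y, -, hy1, hy2⟩ := exists_polar_ne_two (Q := Q) (P := ⊤) (a := a) (b := b)
    (by obtain ⟨z, hz⟩ := exists_polar_ne' hQ ha0; exact ⟨z, trivial, hz⟩)
    (by obtain ⟨z, hz⟩ := exists_polar_ne' hQ hb; exact ⟨z, trivial, hz⟩)
  have hbX : b ∈ X := Submodule.subset_span (by simp)
  have hsa : polar Q a s = 0 := hs1 a haX
  have hsb : polar Q b s = 0 := hs1 b hbX
  obtain ⟨z, hz1, hz2, hz3⟩ : ∃ z, polar Q a z ≠ 0 ∧ polar Q b z ≠ 0 ∧ polar Q s z ≠ 0 := by
    by_cases h : polar Q s y = 0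
    · refine ⟨y + p, ?_, ?_, ?_⟩
      · rw [par, pc Q a p, hp a haX, add_zero]; exact hy1
      · rw [par, pc Q b p, hp b hbX, add_zero]; exact hy2
      · rw [par, h, pc Q s p, hps, zero_add]; exact one_ne_zero
    · exact ⟨y, hy1, hy2, h⟩
  refine ⟨z - (Q z / polar Q s z) • s, ?_, ?_, ?_⟩
  · rw [qsub, qsmul, hsq, psr, pc Q z s]; field_simp; ring
  · rw [pdr, psr, hsa, mul_zero, sub_zero]; exact hz1
  · rw [pdr, psr, hsb, mul_zero, sub_zero]; exact hz2

/-- Orthogonal to a pair spanning a plane that is not totally singular, there are a singular vector `b` off the plane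
and a non-singular `c ⊥ b`. -/
theorem exists_pair [Finite F] (hQ : (polarBilin Q).Nondegenerate) (h2 : (2 : F) ≠ 0) (hN : 6 ≤ finrank F V)
    {a₁ a₂ : V} (hns : ¬ (Q a₁ = 0 ∧ Q a₂ = 0 ∧ polar Q a₁ a₂ = 0)) :
    ∃ b c, Q b = 0 ∧ b ∉ Submodule.span F {x | x ∈ [a₁, a₂]} ∧ polar Q b a₁ = 0 ∧ polar Q b a₂ = 0 ∧
      polar Q c a₁ = 0 ∧ polar Q c a₂ = 0 ∧ polar Q b c = 0 ∧ Q c ≠ 0 := by
  set X := Submodule.span F {x | x ∈ [a₁, a₂]} with hX
  have m1 : a₁ ∈ X := Submodule.subset_span (by simp)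
  have m2 : a₂ ∈ X := Submodule.subset_span (by simp)
  have hX2 := Symp.finrank_span_list_le (K := F) [a₁, a₂]
  simp only [List.length_cons, List.length_nil] at hX2
  have hP := finrank_perp_list hQ [a₁, a₂]
  simp only [List.length_cons, List.length_nil] at hP
  rw [← hX] at hX2 hP
  have hlt : X ⊓ perp Q X < X := by
    refine lt_of_le_of_ne inf_le_left fun h => ?_
    have h1 : a₁ ∈ X ⊓ perp Q X := by rw [h]; exact m1
    have h1' : a₂ ∈ X ⊓ perp Q X := by rw [h]; exact m2
    have e1 : polar Q a₁ a₁ = 0 := h1.2 a₁ m1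
    have e2 : polar Q a₂ a₂ = 0 := h1'.2 a₂ m2
    have e3 : polar Q a₁ a₂ = 0 := h1'.2 a₁ m1
    rw [pself] at e1 e2
    exact hns ⟨(mul_eq_zero.1 e1).resolve_left h2, (mul_eq_zero.1 e2).resolve_left h2, e3⟩
  have hR := Submodule.finrank_lt_finrank_of_lt hlt
  obtain ⟨C, hC⟩ := Submodule.exists_isCompl (X ⊓ perp Q X)
  have h5 := Submodule.finrank_add_eq_of_isCompl hC
  have h6 := Submodule.finrank_sup_add_finrank_inf_eq (perp Q X) C
  have h7 := Submodule.finrank_le (perp Q X ⊔ C)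
  obtain ⟨b, ⟨hb1, hb2⟩, hb0, hbq⟩ := exists_sing_mem Q (perp Q X ⊓ C) (by omega)
  have hbX : b ∉ X := by
    intro h
    have := hC.disjoint
    rw [Submodule.disjoint_def] at this
    exact hb0 (this b ⟨h, hb1⟩ hb2)
  have hba1 : polar Q b a₁ = 0 := by rw [pc]; exact hb1 a₁ m1
  have hba2 : polar Q b a₂ = 0 := by rw [pc]; exact hb1 a₂ m2
  set T := perp Q (Submodule.span F {x | x ∈ [a₁, a₂, b]}) with hT
  have hT3 := finrank_perp_list hQ [a₁, a₂, b]
  simp only [List.length_cons, List.length_nil] at hT3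
  rw [← hT] at hT3
  obtain ⟨c, hcT, hcq⟩ : ∃ c ∈ T, Q c ≠ 0 := by
    by_contra hcon
    push Not at hcon
    have h8 : T ≤ perp Q T := by
      intro x hx y hy
      change polar Q y x = 0
      have := hcon (y + x) (T.add_mem hy hx)
      rw [qadd, hcon y hy, hcon x hx] at this
      linear_combination this
    have h9 := finrank_perp hQ T
    have h10 : T = perp Q T := Submodule.eq_of_le_of_finrank_le h8 (by omega)
    have h11 : ∀ w ∈ [a₁, a₂, b], w ∈ T := by
      intro w hw
      rw [h10]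
      intro x hx
      exact (mem_perp_list.1 hx) w hw
    have k1 := h11 a₁ (by simp)
    have k2 := h11 a₂ (by simp)
    exact hns ⟨hcon a₁ k1, hcon a₂ k2, mem_perp_list.1 k1 a₂ (by simp)⟩
  have hc := mem_perp_list.1 hcT
  exact ⟨b, c, hbq, hbX, hba1, hba2, hc a₁ (by simp), hc a₂ (by simp), by rw [pc]; exact hc b (by simp), hcq⟩

end Cfsg.Agent.H94.SmallOrt
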