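import Cfsg.Agent.GeoMax.ONDFin
import Cfsg.Agent.GeoMax.OGL
import Cfsg.Agent.H94.SmallOrt

/-!
Stabilisers of non-degenerate subspaces in `Ω` are maximal: small dimensions.
-/

set_option autoImplicit false
set_option linter.unusedSectionVars false

namespace Cfsg.Agent.H94.ND8

open QuadraticMap Module Cfsg.Agent.Orth Cfsg.Agent.GeoMax.Ort Cfsg.Agent.GeoMax Cfsg.Agent.H94.SmallOrt

variable {F V : Type*} [Field F] [AddCommGroup V] [Module F V]
variable [Finite F] [FiniteDimensional F V] {Q : QuadraticForm F V}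

/-- singular vectors of `W` separate the vectors of `W` -/
theorem exists_sing_pair {W : Submodule F V} (hW : W ⊓ perp Q W = ⊥) (h3 : 3 ≤ finrank F W) {w : V} (hw : w ∈ W)
    (hw0 : w ≠ 0) : ∃ a ∈ W, Q a = 0 ∧ polar Q w a ≠ 0 := by
  obtain ⟨a₀, ha₀W, ha₀0, ha₀q⟩ := exists_sing_mem Q W h3
  by_cases h4 : polar Q w a₀ = 0
  · obtain ⟨p, hp, h5, h6⟩ := exists_polar_ne_two (Q := Q) (P := W) (a := w) (b := a₀)
      (by obtain ⟨y, hy, h⟩ := exists_polar_ne_U hW hw hw0; exact ⟨y, hy, by rw [pc]; exact h⟩)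
      (by obtain ⟨y, hy, h⟩ := exists_polar_ne_U hW ha₀W ha₀0; exact ⟨y, hy, by rw [pc]; exact h⟩)
    refine ⟨p + (-(Q p / polar Q a₀ p)) • a₀, W.add_mem hp (W.smul_mem _ ha₀W), ?_, ?_⟩
    · rw [qadd, qsmul, ha₀q, psr, pc Q p a₀]; field_simp; ring
    · rw [par, psr, h4, mul_zero, add_zero]; exact h5
  · exact ⟨a₀, ha₀W, ha₀q, h4⟩

/-- hyperbolic partner inside a non-degenerate subspace -/
theorem exists_hyp {U : Submodule F V} (hU : U ⊓ perp Q U = ⊥) {u : V} (huU : u ∈ U) (hu0 : u ≠ 0)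
    (huq : Q u = 0) : ∃ f ∈ U, Q f = 0 ∧ polar Q u f = 1 := by
  obtain ⟨p, hpW, hpe⟩ := exists_polar_ne_U hU huU hu0
  refine ⟨(polar Q p u)⁻¹ • p + (-(Q ((polar Q p u)⁻¹ • p))) • u, U.add_mem (U.smul_mem _ hpW) (U.smul_mem _ huU), ?_, ?_⟩
  · have h7 : polar Q ((polar Q p u)⁻¹ • p) u = 1 := by rw [psl, inv_mul_cancel₀ hpe]
    rw [qadd, qsmul Q (-(Q ((polar Q p u)⁻¹ • p))) u, huq, psr, h7]; ring
  · rw [par, psr, psr, pself, huq, pc Q u p, inv_mul_cancel₀ hpe]; ring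

/-- every norm occurs in `U` orthogonally to a hyperbolic pair of `U` -/
theorem univ_perp (hQ : (polarBilin Q).Nondegenerate) {U : Submodule F V} (hU : U ⊓ perp Q U = ⊥)
    (h4 : 4 ≤ finrank F U) {u u' : V} (huU : u ∈ U) (hu'U : u' ∈ U) (huq : Q u = 0) (hu'q : Q u' = 0)
    (huu' : polar Q u u' = 1) (c : F) : ∃ z ∈ U, polar Q z u = 0 ∧ polar Q z u' = 0 ∧ Q z = c := by
  set E := U ⊓ perp Q (Submodule.span F {x | x ∈ [u, u']}) with hE
  have hmem : ∀ z, z ∈ E ↔ z ∈ U ∧ polar Q z u = 0 ∧ polar Q z u' = 0 := by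
    intro z
    rw [hE, Submodule.mem_inf, mem_perp_list]
    simp
  have hEE : E ⊓ perp Q E = ⊥ := by
    rw [eq_bot_iff]
    rintro x ⟨hx, hx'⟩
    rw [Submodule.mem_bot]
    obtain ⟨hxU, hxu, hxu'⟩ := (hmem x).1 hx
    by_contra hx0
    obtain ⟨y, hy, hyx⟩ := exists_polar_ne_U hU hxU hx0
    have hy' : y - polar Q y u' • u - polar Q y u • u' ∈ E := by
      rw [hmem]
      refine ⟨U.sub_mem (U.sub_mem hy (U.smul_mem _ huU)) (U.smul_mem _ hu'U), ?_, ?_⟩
      · rw [pdl, pdl, psl, psl, pself, huq, pc Q u' u, huu']; ring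
      · rw [pdl, pdl, psl, psl, pself, hu'q, huu']; ring
    have h1 : polar Q (y - polar Q y u' • u - polar Q y u • u') x = 0 := hx' _ hy'
    rw [pdl, pdl, psl, psl, pc Q u x, pc Q u' x, hxu, hxu', mul_zero, mul_zero, sub_zero, sub_zero] at h1
    exact hyx h1
  have h1 := finrank_inf_perp hQ U (Submodule.span F {x | x ∈ [u, u']})
  have h2 := Symp.finrank_span_list_le (K := F) [u, u']
  simp only [List.length_cons, List.length_nil] at h2
  rw [← hE] at h1
  obtain ⟨z, hz⟩ := exists_q_eq (nondegenerate_restrict hEE) (by omega) c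
  obtain ⟨h3, h4, h5⟩ := (hmem z).1 z.2
  exact ⟨z, h3, h4, h5, hz⟩

section
variable {U : Submodule F V} {M : Subgroup (OGrp Q)}

theorem hUW {y w : V} (hy : y ∈ U) (hw : w ∈ perp Q U) : polar Q y w = 0 := hw y hy
theorem hWU {y w : V} (hy : y ∈ U) (hw : w ∈ perp Q U) : polar Q w y = 0 := by rw [pc]; exact hw y hy

theorem pair_U (hQ : (polarBilin Q).Nondegenerate) (hHM : stabO Q U ⊓ commutator (OGrp Q) ≤ M) {z z' : V}
    (hz : Q z ≠ 0) (hz' : Q z' ≠ 0) (hzU : z ∈ U) (hz'U : z' ∈ U) (h : Q z = Q z') :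
    refl Q z hz * refl Q z' hz' ∈ M := by
  refine hHM ⟨mem_stabO_of_le fun x hx => ?_, refl_pair_mem hQ hz hz' h⟩
  rw [coe_mul_apply, refl_apply, refl_apply]
  exact U.sub_mem (U.sub_mem hx (U.smul_mem _ hz'U)) (U.smul_mem _ hzU)

theorem pair_WU (hQ : (polarBilin Q).Nondegenerate) (hHM : stabO Q U ⊓ commutator (OGrp Q) ≤ M) {z z' : V}
    (hz : Q z ≠ 0) (hz' : Q z' ≠ 0) (hzU : z ∈ perp Q U) (hz'U : z' ∈ U) (h : Q z = Q z') :
    refl Q z hz * refl Q z' hz' ∈ M := by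
  refine hHM ⟨mem_stabO_of_le fun x hx => ?_, refl_pair_mem hQ hz hz' h⟩
  have h1 : (refl Q z' hz' : V ≃ₗ[F] V) x ∈ U := by
    rw [refl_apply]; exact U.sub_mem hx (U.smul_mem _ hz'U)
  rw [coe_mul_apply, refl_apply_of_ortho hz (hUW h1 hzU)]
  exact h1

theorem hasE_U (hQ : (polarBilin Q).Nondegenerate) (hN : 5 ≤ finrank F V)
    (hHM : stabO Q U ⊓ commutator (OGrp Q) ≤ M) {a b : V} (ha : a ∈ U) (hb : b ∈ U) (haq : Q a = 0)
    (hab : polar Q a b = 0) : HasE M a b := by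
  refine ⟨haq, hab, hHM ⟨mem_stabO_of_le fun x hx => ?_, eich_mem_commutator5 hQ hN _ _⟩⟩
  rw [eich_apply]
  exact U.sub_mem (U.sub_mem (U.add_mem hx (U.smul_mem _ ha)) (U.smul_mem _ hb)) (U.smul_mem _ ha)

theorem hasE_W (hQ : (polarBilin Q).Nondegenerate) (hN : 5 ≤ finrank F V)
    (hHM : stabO Q U ⊓ commutator (OGrp Q) ≤ M) {a b : V} (ha : a ∈ perp Q U) (hb : b ∈ perp Q U) (haq : Q a = 0)
    (hab : polar Q a b = 0) : HasE M a b := by
  refine ⟨haq, hab, hHM ⟨mem_stabO_of_le fun x hx => ?_, eich_mem_commutator5 hQ hN _ _⟩⟩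
  rw [eich_apply, hUW hx ha, hUW hx hb]
  simpa using hx

/-- two reflections exchanging a hyperbolic pair up to scalars -/
theorem refl_swap {u u' : V} (huq : Q u = 0) (hu'q : Q u' = 0) (huu' : polar Q u u' = 1) {c : F} (hc : c ≠ 0) :
    ∃ h : Q (c • u - u') ≠ 0, (refl Q (c • u - u') h : V ≃ₗ[F] V) u' = c • u ∧
      (refl Q (c • u - u') h : V ≃ₗ[F] V) (c • u) = u' := by
  have hq : Q (c • u - u') = -c := by
    rw [qsub, qsmul, huq, hu'q, psl, huu']; ring
  have h : Q (c • u - u') ≠ 0 := by rw [hq]; exact neg_ne_zero.2 hc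
  refine ⟨h, ?_, ?_⟩
  · rw [refl_apply, hq, pdr, psr, pself, hu'q, pc Q u' u, huu']
    have : (-c)⁻¹ * (c * 1 - 2 * 0) = -1 := by field_simp; ring
    rw [this]; module
  · rw [refl_apply, hq, pdr, psr, psl, pself, huq, psl, huu']
    have : (-c)⁻¹ * (c * (c * (2 * 0)) - c * 1) = 1 := by field_simp; ring
    rw [this]; module

/-- Once `M` contains `eich u w` for some `u ∈ U`, `w ∈ U^⊥` non-zero, it contains `Ω`. -/
theorem le_of_mixed (hQ : (polarBilin Q).Nondegenerate)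
    (hU : U ⊓ perp Q U = ⊥) (hN : 4 ≤ finrank F U) (hNV : 7 ≤ finrank F V)
    (hHM : stabO Q U ⊓ commutator (OGrp Q) ≤ M)
    (hex : finrank F (perp Q U) = 2 → (∃ s ∈ perp Q U, s ≠ 0 ∧ Q s = 0) → 4 ≤ Nat.card F)
    {u w : V} (huU : u ∈ U) (hu0 : u ≠ 0) (hwW : w ∈ perp Q U) (hw0 : w ≠ 0) (huw : HasE M u w) :
    commutator (OGrp Q) ≤ M := by
  have huq := huw.sing
  obtain ⟨u', hu'U, hu'q, huu'⟩ := exists_hyp hU huU hu0 huq
  have hmv : ∀ c : F, c ≠ 0 → ∃ t ∈ M, (t : V ≃ₗ[F] V) u' = c • u ∧ ∀ x ∈ perp Q U, (t : V ≃ₗ[F] V) x = x := by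
    intro c hc
    obtain ⟨hv, h1, h2⟩ := refl_swap huq hu'q huu' hc
    have hvU : c • u - u' ∈ U := U.sub_mem (U.smul_mem _ huU) hu'U
    obtain ⟨z, hzU, hzu, hzu', hzq⟩ := univ_perp hQ hU hN huU hu'U huq hu'q huu' (Q (c • u - u'))
    have hz0 : Q z ≠ 0 := by rw [hzq]; exact hv
    refine ⟨refl Q (c • u - u') hv * refl Q z hz0, pair_U hQ hHM hv hz0 hvU hzU hzq.symm, ?_, ?_⟩
    · rw [coe_mul_apply, refl_apply_of_ortho hz0 (by rw [pc]; exact hzu'), h1]
    · intro x hx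
      rw [coe_mul_apply, refl_apply_of_ortho hz0 (hWU hzU hx), refl_apply_of_ortho hv (hWU hvU hx)]
  -- the set of `w`
  let B : Submodule F V :=
    { carrier := {w | w ∈ perp Q U ∧ HasE M u w}
      add_mem' := fun {a b} ha hb => ⟨(perp Q U).add_mem ha.1 hb.1, ha.2.add hb.2⟩
      zero_mem' := ⟨(perp Q U).zero_mem, HasE.zero huq⟩
      smul_mem' := by
        rintro c w ⟨hw, h⟩
        refine ⟨(perp Q U).smul_mem c hw, ?_⟩
        by_cases hc : c = 0
        · rw [hc, zero_smul]; exact HasE.zero huq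
        obtain ⟨t, htM, htu, htw⟩ := hmv c hc
        obtain ⟨t', ht'M, ht'u, ht'w⟩ := hmv 1 one_ne_zero
        rw [one_smul] at ht'u
        have ht'u' : ((t'⁻¹ : OGrp Q) : V ≃ₗ[F] V) u = u' := by
          rw [← ht'u, coe_inv_apply_self]
        have ht'w' : ((t'⁻¹ : OGrp Q) : V ≃ₗ[F] V) w = w := by
          conv_lhs => rw [← ht'w w hw]
          rw [coe_inv_apply_self]
        have h1 := (h.conj (M.inv_mem ht'M)).conj htM
        rw [ht'u', ht'w', htu, htw w hw] at h1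
        exact h1.smul_left huq (hUW huU hw) }
  have hB : ∀ x, x ∈ B ↔ x ∈ perp Q U ∧ HasE M u x := fun x => Iff.rfl
  have hWB : perp Q U ≤ B := by
    apply irr hQ (perp_nd hQ hU) (fun x hx => ((hB x).1 hx).1)
    · intro h
      have : w ∈ B := ⟨hwW, huw⟩
      rw [h] at this
      exact hw0 ((Submodule.mem_bot F).1 this)
    · intro a b ha hab haW hbW x hx
      obtain ⟨_, _, hm⟩ := hasE_W hQ (by omega) hHM haW hbW ha hab
      have h1 := hx.2.conj hm
      rw [eich_apply, eich_apply, hUW huU hbW, hUW huU haW] at h1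
      rw [eich_apply]
      refine ⟨?_, ?_⟩
      · exact Submodule.sub_mem _ (Submodule.sub_mem _ (Submodule.add_mem _ hx.1 (Submodule.smul_mem _ _ haW))
          (Submodule.smul_mem _ _ hbW)) (Submodule.smul_mem _ _ haW)
      · simpa using h1
    · intro z hz hzW x hx
      obtain ⟨z', hz'U, hz'u, -, hz'q⟩ := univ_perp hQ hU hN huU hu'U huq hu'q huu' (Q z)
      have hz'0 : Q z' ≠ 0 := by rw [hz'q]; exact hz
      have hm := pair_WU hQ hHM hz hz'0 hzW hz'U hz'q.symm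
      have h1 := hx.2.conj hm
      rw [coe_mul_apply, coe_mul_apply, refl_apply_of_ortho hz'0 (by rw [pc]; exact hz'u),
        refl_apply_of_ortho hz (hUW huU hzW), refl_apply_of_ortho hz'0 (hWU hz'U hx.1)] at h1
      refine ⟨?_, h1⟩
      rw [refl_apply]
      exact Submodule.sub_mem _ hx.1 (Submodule.smul_mem _ _ hzW)
    · exact hex
  have hFu : FullR M u := by
    intro b hb
    obtain ⟨w', hw', y, hy, rfl⟩ := exists_add hQ hU b
    rw [par, hUW huU hw', zero_add] at hb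
    exact (hWB hw').2.add (hasE_U hQ (by omega) hHM huU hy huq hb)
  obtain ⟨t, htM, htu, -⟩ := hmv 1 one_ne_zero
  rw [one_smul] at htu
  have htu' : ((t⁻¹ : OGrp Q) : V ≃ₗ[F] V) u = u' := by
    rw [← htu, coe_inv_apply_self]
  have hFu' := hFu.conj (M.inv_mem htM)
  rw [htu'] at hFu'
  exact commutator_le_of_FullR hQ hNV hFu hFu' (by rw [pc, huu']; exact one_ne_zero)

/-- A subspace closed under the Eichler elements of a non-degenerate subspace `Y` contains `Y` or is orthogonal to it. -/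
theorem le_of_closed (hQ : (polarBilin Q).Nondegenerate) {Y S : Submodule F V}
    (hY : Y ⊓ perp Q Y = ⊥) (hN : 3 ≤ finrank F Y)
    (hS : ∀ (a b : V) (ha : Q a = 0) (hab : polar Q a b = 0), a ∈ Y → b ∈ Y → ∀ x ∈ S,
      (eich Q a b ha hab : V ≃ₗ[F] V) x ∈ S)
    (hne : ∃ x ∈ S, ∃ y ∈ Y, polar Q x y ≠ 0) : Y ≤ S := by
  have L1 : ∀ x ∈ S, ∀ a ∈ Y, Q a = 0 → polar Q x a ≠ 0 → a ∈ S ∧ ∀ b ∈ Y, polar Q a b = 0 → b ∈ S := by
    intro x hx a haY ha hxa
    have ha0 : a ≠ 0 := by rintro rfl; rw [polar_zero_right] at hxa; exact hxa rfl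
    have hE : ∀ b ∈ Y, polar Q a b = 0 → polar Q x b • a - polar Q x a • b - (Q b * polar Q x a) • a ∈ S := by
      intro b hb hab
      have h1 := S.sub_mem (hS a b ha hab haY hb x hx) hx
      rw [eich_apply] at h1
      convert h1 using 1
      module
    -- two vectors with non-zero polar
    obtain ⟨b, hbY, hab, hba⟩ : ∃ b ∈ Y, polar Q a b = 0 ∧ b ∉ Submodule.span F {a} := by
      have h4 := finrank_inf_perp hQ Y (Submodule.span F {a})
      rw [finrank_span_singleton ha0] at h4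
      by_contra hcon
      push Not at hcon
      have h5 : Y ⊓ perp Q (Submodule.span F {a}) ≤ Submodule.span F {a} := by
        intro b hb
        refine hcon b hb.1 ?_
        exact hb.2 a (Submodule.mem_span_singleton_self a)
      have h6 := Submodule.finrank_mono h5
      rw [finrank_span_singleton ha0] at h6
      omega
    obtain ⟨y₁, hy₁, hy₁b⟩ := exists_ortho_not hQ (Submodule.span F {a}) hba
    obtain ⟨w', hw', b', hb'Y, rfl⟩ := exists_add hQ hY y₁
    have hab' : polar Q a b' = 0 := by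
      have := hy₁ a (Submodule.mem_span_singleton_self a)
      rw [pal, hWU haY hw', zero_add] at this
      rw [pc]; exact this
    have hbb' : polar Q b b' = 1 := by
      rw [pal, hWU hbY hw', zero_add] at hy₁b
      rw [pc]; exact hy₁b
    have haS : a ∈ S := by
      have h1 := hE b hbY hab
      have h2 := hE b' hb'Y hab'
      have h3 := hE (b + b') (Y.add_mem hbY hb'Y) (by rw [par, hab, hab', add_zero])
      have h4 := S.sub_mem (S.sub_mem h3 h1) h2
      have e : polar Q x (b + b') • a - polar Q x a • (b + b') - (Q (b + b') * polar Q x a) • a -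
          (polar Q x b • a - polar Q x a • b - (Q b * polar Q x a) • a) -
          (polar Q x b' • a - polar Q x a • b' - (Q b' * polar Q x a) • a) = (-(polar Q x a)) • a := by
        rw [par, qadd, hbb']; module
      rw [e] at h4
      have h5 := S.smul_mem (-(polar Q x a))⁻¹ h4
      rwa [smul_smul, inv_mul_cancel₀ (neg_ne_zero.2 hxa), one_smul] at h5
    refine ⟨haS, fun b hb hab => ?_⟩
    have h1 := hE b hb hab
    have h2 := S.sub_mem (S.smul_mem (polar Q x b - Q b * polar Q x a) haS) h1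
    have e : (polar Q x b - Q b * polar Q x a) • a -
        (polar Q x b • a - polar Q x a • b - (Q b * polar Q x a) • a) = polar Q x a • b := by module
    rw [e] at h2
    have h5 := S.smul_mem (polar Q x a)⁻¹ h2
    rwa [smul_smul, inv_mul_cancel₀ hxa, one_smul] at h5
  obtain ⟨x, hx, y, hy, hxy⟩ := hne
  obtain ⟨xW, hxW, xY, hxY, hxx⟩ := exists_add hQ hY x
  have hxY0 : xY ≠ 0 := by
    rintro rfl
    rw [add_zero] at hxx
    rw [hxx] at hxy
    exact hxy (hWU hy hxW)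
  obtain ⟨a, haY, haq, hxa'⟩ := exists_sing_pair hY hN hxY hxY0
  have hxa : polar Q x a ≠ 0 := by rw [hxx, pal, hWU haY hxW, zero_add]; exact hxa'
  obtain ⟨haS, h1⟩ := L1 x hx a haY haq hxa
  have ha0 : a ≠ 0 := by rintro rfl; rw [polar_zero_right] at hxa; exact hxa rfl
  obtain ⟨a', ha'Y, ha'q, haa'⟩ := exists_sing_pair hY hN haY ha0
  obtain ⟨ha'S, -⟩ := L1 a haS a' ha'Y ha'q haa'
  intro z hz
  have h2 : z - (polar Q a z / polar Q a a') • a' ∈ S := by
    apply h1 _ (Y.sub_mem hz (Y.smul_mem _ ha'Y))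
    rw [pdr, psr]; field_simp; ring
  have h3 := S.add_mem h2 (S.smul_mem (polar Q a z / polar Q a a') ha'S)
  rwa [sub_add_cancel] at h3

/-- the stabiliser is a proper subgroup -/
theorem stab_lt (hQ : (polarBilin Q).Nondegenerate) (hU : U ⊓ perp Q U = ⊥) (hN : 3 ≤ finrank F U)
    (hNV : 5 ≤ finrank F V) (hW0 : perp Q U ≠ ⊥) :
    stabO Q U ⊓ commutator (OGrp Q) < commutator (OGrp Q) := by
  refine lt_of_le_of_ne inf_le_right ?_
  intro heq
  obtain ⟨u, huU, hu0, huq⟩ := exists_sing_mem Q U hN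
  obtain ⟨w, hwW, hw0⟩ := Submodule.exists_mem_ne_zero_of_ne_bot hW0
  obtain ⟨x, hxU, hxu⟩ := exists_polar_ne_U hU huU hu0
  have huw := hUW huU hwW
  have hmem : eich Q u w huq huw ∈ stabO Q U ⊓ commutator (OGrp Q) := by
    rw [heq]; exact eich_mem_commutator5 hQ hNV huq huw
  have h1 := (mem_stabO.1 hmem.1 x).1 hxU
  rw [eich_apply, hUW hxU hwW, zero_smul, add_zero] at h1
  have h2 : polar Q x u • w ∈ U := by
    have h3 := U.sub_mem (U.sub_mem hxU h1) (U.smul_mem (Q w * polar Q x u) huU)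
    convert h3 using 1
    module
  have h3 := U.smul_mem (polar Q x u)⁻¹ h2
  rw [smul_smul, inv_mul_cancel₀ hxu, one_smul] at h3
  have h4 : w ∈ U ⊓ perp Q U := ⟨h3, hwW⟩
  rw [hU] at h4
  exact hw0 ((Submodule.mem_bot F).1 h4)

/-- an Eichler element of a conjugate of `U` moving `U` -/
theorem exists_eich (hQ : (polarBilin Q).Nondegenerate) (hU : U ⊓ perp Q U = ⊥) (hN : 3 ≤ finrank F U)
    (hNV : 5 ≤ finrank F V) (hHM : stabO Q U ⊓ commutator (OGrp Q) ≤ M) {g : OGrp Q} (hgM : g ∈ M)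
    (hg : g ∉ stabO Q U) (hswap : ¬ U.map ((g : V ≃ₗ[F] V) : V →ₗ[F] V) ≤ perp Q U) :
    ∃ (a b : V), HasE M a b ∧ ∃ (ha : Q a = 0) (hab : polar Q a b = 0),
      ∃ x ∈ U, (eich Q a b ha hab : V ≃ₗ[F] V) x ∉ U := by
  set Y := U.map ((g : V ≃ₗ[F] V) : V →ₗ[F] V) with hY
  have hYfin : finrank F Y = finrank F U := LinearEquiv.finrank_map_eq _ _
  have hYnd : Y ⊓ perp Q Y = ⊥ := nd_map hQ g hU
  have hMY : ∀ a ∈ Y, ∀ b ∈ Y, Q a = 0 → polar Q a b = 0 → HasE M a b := by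
    rintro _ ⟨a, ha, rfl⟩ _ ⟨b, hb, rfl⟩ haq hab
    have h1 : Q a = 0 := by rw [← OGrp_q g]; exact haq
    have h2 : polar Q a b = 0 := by rw [← OGrp_polar g]; exact hab
    exact (hasE_U hQ hNV hHM ha hb h1 h2).conj hgM
  by_contra hcon
  push Not at hcon
  by_cases hne : ∃ x ∈ U, ∃ y ∈ Y, polar Q x y ≠ 0
  · have h1 := le_of_closed hQ hYnd (by omega) (fun a b ha hab haY hbY x hx =>
      hcon a b (hMY a haY b hbY ha hab) ha hab x hx) hne
    have h2 := Submodule.eq_of_le_of_finrank_eq h1 hYfin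
    apply hg
    refine mem_stabO_of_le fun v hv => ?_
    rw [← h2]
    exact ⟨v, hv, rfl⟩
  · push Not at hne
    apply hswap
    intro y hy u hu
    exact hne u hu y hy

/-- a mixed Eichler element from a fixed singular vector -/
theorem mixed_of_fixed (hQ : (polarBilin Q).Nondegenerate) (hU : U ⊓ perp Q U = ⊥)
    (hNV : 5 ≤ finrank F V) (hHM : stabO Q U ⊓ commutator (OGrp Q) ≤ M) {ρ : OGrp Q} (hρ : ρ ∈ M) {u x : V}
    (huU : u ∈ U) (huq : Q u = 0) (hρu : (ρ : V ≃ₗ[F] V) u = u) (hxU : x ∈ U) (hux : polar Q u x = 0)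
    (hx : (ρ : V ≃ₗ[F] V) x ∉ U) : ∃ w ∈ perp Q U, w ≠ 0 ∧ HasE M u w := by
  have h1 := (hasE_U hQ hNV hHM huU hxU huq hux).conj hρ
  rw [hρu] at h1
  obtain ⟨w, hw, y, hy, hwy⟩ := exists_add hQ hU ((ρ : V ≃ₗ[F] V) x)
  rw [hwy] at h1
  have h2 := h1.ortho
  rw [par, hUW huU hw, zero_add] at h2
  have h3 := h1.sub (hasE_U hQ hNV hHM huU hy huq h2)
  rw [add_sub_cancel_right] at h3
  refine ⟨w, hw, ?_, h3⟩
  rintro rfl
  rw [zero_add] at hwy
  exact hx (by rw [hwy]; exact hy)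

/-- Maximality of stabilisers of non-degenerate subspaces, `dim U ≥ 6` -/
theorem nd_maximal6 (hQ : (polarBilin Q).Nondegenerate)
    (hU : U ⊓ perp Q U = ⊥) (hN : 6 ≤ finrank F U)
    (hW0 : perp Q U ≠ ⊥)
    (hswap : ∀ g ∈ commutator (OGrp Q), ¬ U.map ((g : V ≃ₗ[F] V) : V →ₗ[F] V) ≤ perp Q U)
    (hex : finrank F (perp Q U) = 2 → (∃ s ∈ perp Q U, s ≠ 0 ∧ Q s = 0) → 4 ≤ Nat.card F) :
    Cfsg.Geo.IsMaximalIn (commutator (OGrp Q)) (stabO Q U ⊓ commutator (OGrp Q)) := by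
  have hNV : 7 ≤ finrank F V := by
    have h1 := finrank_perp hQ U
    have : Nontrivial (perp Q U) := Submodule.nontrivial_iff_ne_bot.2 hW0
    have h2 : 0 < finrank F (perp Q U) := finrank_pos
    omega
  refine ⟨stab_lt hQ hU (by omega) (by omega) hW0, ?_⟩
  intro M hHM hMI
  by_cases hMH : M = stabO Q U ⊓ commutator (OGrp Q)
  · exact Or.inl hMH
  right
  refine le_antisymm hMI ?_
  obtain ⟨g, hgM, hg⟩ : ∃ g ∈ M, g ∉ stabO Q U := by
    by_contra hcon
    push Not at hcon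
    exact hMH (le_antisymm (fun g hg => ⟨hcon g hg, hMI hg⟩) hHM)
  obtain ⟨a, b, ⟨_, _, hρ⟩, haq, hab, x, hxU, hx⟩ := exists_eich hQ hU (by omega) (by omega) hHM hgM hg (hswap g (hMI hgM))
  obtain ⟨u, ⟨huU, huP⟩, hu0, huq⟩ : ∃ u ∈ U ⊓ perp Q (Submodule.span F {z | z ∈ [x, a, b]}), u ≠ 0 ∧ Q u = 0 := by
    apply exists_sing_mem
    have h1 := finrank_inf_perp hQ U (Submodule.span F {z | z ∈ [x, a, b]})
    have h2 := Symp.finrank_span_list_le (K := F) [x, a, b]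
    simp only [List.length_cons, List.length_nil] at h2
    omega
  have huo := mem_perp_list.1 huP
  obtain ⟨w, hw, hw0, huw⟩ := mixed_of_fixed hQ hU (by omega) hHM hρ huU huq
    (by rw [eich_apply, huo a (by simp), huo b (by simp)]; simp) hxU (huo x (by simp)) hx
  exact le_of_mixed hQ hU (by omega) hNV hHM hex huU hu0 hw hw0 huw

end

end Cfsg.Agent.H94.ND8
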