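import Cfsg.Agent.H94.ND8b
import Cfsg.Agent.GeoMax.ONDGlue

/-!
Stabilisers of non-degenerate subspaces in `Ω` are maximal: `4^+ + 4^-`.
-/

set_option autoImplicit false
set_option linter.unusedSectionVars false

namespace Cfsg.Agent.H94.ND8

open QuadraticMap Module Cfsg.Agent.Orth Cfsg.Agent.GeoMax.Ort Cfsg.Agent.GeoMax Cfsg.Agent.H94.SmallOrt

variable {F V : Type*} [Field F] [AddCommGroup V] [Module F V]
variable [Finite F] [FiniteDimensional F V] {Q : QuadraticForm F V}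

/-- two orthogonal anisotropic planes contain a totally singular plane between them -/
theorem exists_ts_of_two_aniso (A B : Submodule F V) (hA : A ⊓ perp Q A = ⊥) (hB : B ⊓ perp Q B = ⊥)
    (hAB : ∀ a ∈ A, ∀ b ∈ B, polar Q a b = 0) (hA2 : finrank F A = 2) (hB2 : finrank F B = 2)
    (hAa : ∀ a ∈ A, Q a = 0 → a = 0) (hBa : ∀ b ∈ B, Q b = 0 → b = 0) :
    ∃ x ∈ A ⊔ B, ∃ y ∈ A ⊔ B, Q x = 0 ∧ Q y = 0 ∧ polar Q x y = 0 ∧ x ≠ 0 ∧ y ∉ Submodule.span F {x} := by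
  have hts : ∀ (A : Submodule F V), (∀ a ∈ A, Q a = 0 → a = 0) → ∀ U : Submodule F A, TS (Q.restrict A) U → finrank F U < 1 := by
    intro A hAa U hU
    have : U = ⊥ := by
      rw [eq_bot_iff]
      intro x hx
      rw [Submodule.mem_bot]
      exact Subtype.ext (hAa x x.2 (hU x hx))
    rw [this, finrank_bot]; exact one_pos
  obtain ⟨φ, hφ⟩ := exists_isom_elliptic (m := 1) le_rfl (by omega) (by omega) (nondegenerate_restrict hA)
    (nondegenerate_restrict hB) (hts A hAa) (hts B hBa)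
  obtain ⟨ψ, hψ⟩ := exists_anti hB (by rw [hB2]; exact even_two)
  have hq : ∀ a : A, Q ((ψ (φ a) : B) : V) = - Q (a : V) := by
    intro a
    rw [hψ]
    have := hφ a
    change Q ((φ a : B) : V) = Q (a : V) at this
    rw [this]
  let s : A →ₗ[F] V := A.subtype + B.subtype ∘ₗ (ψ : B →ₗ[F] B) ∘ₗ (φ : A →ₗ[F] B)
  have hs : ∀ a : A, s a = (a : V) + ((ψ (φ a) : B) : V) := fun a => rfl
  have hsq : ∀ a : A, Q (s a) = 0 := by
    intro a
    rw [hs, qadd, hq, hAB a a.2 _ (ψ (φ a)).2]; ring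
  have hsmem : ∀ a : A, s a ∈ A ⊔ B := by
    intro a
    rw [hs]
    exact Submodule.add_mem _ (Submodule.mem_sup_left a.2) (Submodule.mem_sup_right (ψ (φ a)).2)
  have hker : ∀ a : A, s a = 0 → a = 0 := by
    intro a ha
    have h1 : (a : V) ∈ A ⊓ perp Q A := by
      refine ⟨a.2, ?_⟩
      intro u hu
      change polar Q u a = 0
      have h2 : (a : V) = -((ψ (φ a) : B) : V) := eq_neg_of_add_eq_zero_left (by rw [← hs]; exact ha)
      rw [h2, polar_neg_right, hAB u hu _ (ψ (φ a)).2, neg_zero]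
    rw [hA] at h1
    exact Subtype.ext ((Submodule.mem_bot F).1 h1)
  have hA1 : A ≠ ⊥ := by
    rintro h
    rw [h, finrank_bot] at hA2
    omega
  obtain ⟨a, ha, ha0⟩ := Submodule.exists_mem_ne_zero_of_ne_bot hA1
  obtain ⟨b, hb, hba⟩ : ∃ b ∈ A, b ∉ Submodule.span F {a} := by
    by_contra hcon
    push Not at hcon
    have h4 := Submodule.finrank_mono (show A ≤ Submodule.span F {a} from hcon)
    rw [finrank_span_singleton ha0] at h4
    omega
  refine ⟨s ⟨a, ha⟩, hsmem _, s ⟨b, hb⟩, hsmem _, hsq _, hsq _, ?_, ?_, ?_⟩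
  · have h1 := hsq (⟨a, ha⟩ + ⟨b, hb⟩)
    rw [map_add, qadd, hsq, hsq, zero_add, zero_add] at h1
    exact h1
  · intro h
    exact ha0 (congrArg Subtype.val (hker _ h))
  · intro h
    obtain ⟨c, hc⟩ := Submodule.mem_span_singleton.1 h
    apply hba
    rw [Submodule.mem_span_singleton]
    have h1 := hker (c • ⟨a, ha⟩ - ⟨b, hb⟩) (by rw [map_sub, map_smul, hc, sub_self])
    exact ⟨c, congrArg Subtype.val (sub_eq_zero.1 h1)⟩

theorem nd_maximal44 (hQ : (polarBilin Q).Nondegenerate) {U : Submodule F V}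
    (hU : U ⊓ perp Q U = ⊥) (hN : finrank F U = 4) (hNW : finrank F (perp Q U) = 4)
    (hUp : ∀ z ∈ U, z ≠ 0 → Q z = 0 → ∃ z' ∈ U, Q z' = 0 ∧ polar Q z z' = 0 ∧ z' ∉ Submodule.span F {z})
    (hWm : ∀ x ∈ perp Q U, ∀ y ∈ perp Q U, x ≠ 0 → Q x = 0 → Q y = 0 → polar Q x y = 0 → y ∈ Submodule.span F {x}) :
    Cfsg.Geo.IsMaximalIn (commutator (OGrp Q)) (stabO Q U ⊓ commutator (OGrp Q)) := by
  have hV : finrank F V = 8 := by
    have := finrank_perp hQ U
    omega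
  have hW0 : perp Q U ≠ ⊥ := by
    intro h; rw [h, finrank_bot] at hNW; omega
  have hWnd := perp_nd hQ hU
  refine ⟨stab_lt hQ hU (by omega) (by omega) hW0, ?_⟩
  intro M hHM hMI
  by_cases hMH : M = stabO Q U ⊓ commutator (OGrp Q)
  · exact Or.inl hMH
  right
  refine le_antisymm hMI ?_
  obtain ⟨g, hgM, hg⟩ : ∃ g ∈ M, g ∉ stabO Q U := by
    by_contra hcon
    push Not at hcon
    exact hMH (le_antisymm (fun g hg => ⟨hcon g hg, hMI hg⟩) hHM)
  by_contra hcon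
  have hnoU : ∀ u ∈ U, u ≠ 0 → ∀ w ∈ perp Q U, HasE M u w → w = 0 := by
    intro u huU hu0 w hw huw
    by_contra hw0
    exact hcon (le_of_mixed hQ hU (by omega) (by omega) hHM (by omega) huU hu0 hw hw0 huw)
  have hHM' : stabO Q (perp Q U) ⊓ commutator (OGrp Q) ≤ M := by rw [stabO_perp hQ]; exact hHM
  have hnoW : ∀ w ∈ perp Q U, w ≠ 0 → ∀ u ∈ U, HasE M w u → u = 0 := by
    intro w hw hw0 u huU hwu
    by_contra hu0
    refine hcon (le_of_mixed hQ hWnd (by omega) (by omega) hHM' (by rw [perp_perp hQ]; omega) hw hw0 ?_ hu0 hwu)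
    rw [perp_perp hQ]; exact huU
  have hDU : ∀ z ∈ U, z ≠ 0 → ∀ b, HasE M z b → b ∈ U := by
    intro z hz hz0 b hb
    obtain ⟨bW, hbW, bU, hbU, rfl⟩ := exists_add hQ hU b
    have h1 := hb.ortho
    rw [par, hUW hz hbW, zero_add] at h1
    have h2 := hb.sub (hasE_U hQ (by omega) hHM hz hbU hb.sing h1)
    rw [add_sub_cancel_right] at h2
    rw [hnoU z hz hz0 bW hbW h2, zero_add]
    exact hbU
  have hDW : ∀ z ∈ perp Q U, z ≠ 0 → ∀ b, HasE M z b → b ∈ perp Q U := by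
    intro z hz hz0 b hb
    obtain ⟨bW, hbW, bU, hbU, rfl⟩ := exists_add hQ hU b
    have h1 := hb.ortho
    rw [par, hWU hbU hz, add_zero] at h1
    have h2 := hb.sub (hasE_W hQ (by omega) hHM hz hbW hb.sing h1)
    rw [add_sub_cancel_left] at h2
    rw [hnoW z hz hz0 bU hbU h2, add_zero]
    exact hbW
  have hne0 : ∀ (h : OGrp Q) (z : V), z ≠ 0 → (h : V ≃ₗ[F] V) z ≠ 0 := by
    intro h z hz h0
    exact hz ((LinearEquiv.map_eq_zero_iff _).1 h0)
  have hPUU : ∀ h ∈ M, ∀ z ∈ U, z ≠ 0 → Q z = 0 → (h : V ≃ₗ[F] V) z ∈ U → ∀ b ∈ U, polar Q z b = 0 →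
      (h : V ≃ₗ[F] V) b ∈ U := by
    intro h hh z hz hz0 hzq hhz b hb hzb
    exact hDU _ hhz (hne0 h z hz0) _ ((hasE_U hQ (by omega) hHM hz hb hzq hzb).conj hh)
  have hPUW : ∀ h ∈ M, ∀ z ∈ U, z ≠ 0 → Q z = 0 → (h : V ≃ₗ[F] V) z ∈ perp Q U → ∀ b ∈ U, polar Q z b = 0 →
      (h : V ≃ₗ[F] V) b ∈ perp Q U := by
    intro h hh z hz hz0 hzq hhz b hb hzb
    exact hDW _ hhz (hne0 h z hz0) _ ((hasE_U hQ (by omega) hHM hz hb hzq hzb).conj hh)
  have hPWW : ∀ h ∈ M, ∀ z ∈ perp Q U, z ≠ 0 → Q z = 0 → (h : V ≃ₗ[F] V) z ∈ perp Q U → ∀ b ∈ perp Q U,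
      polar Q z b = 0 → (h : V ≃ₗ[F] V) b ∈ perp Q U := by
    intro h hh z hz hz0 hzq hhz b hb hzb
    exact hDW _ hhz (hne0 h z hz0) _ ((hasE_W hQ (by omega) hHM hz hb hzq hzb).conj hh)
  -- (U1)
  have hU1 : ∀ h ∈ M, ∀ z ∈ U, z ≠ 0 → Q z = 0 → (h : V ≃ₗ[F] V) z ∈ U → h ∈ stabO Q U := by
    intro h hh z hz hz0 hzq hhz
    obtain ⟨z', hz', hz'q, hzz', hz's⟩ := hUp z hz hz0 hzq
    have hz'0 : z' ≠ 0 := by rintro rfl; exact hz's (Submodule.zero_mem _)
    have hhz' := hPUU h hh z hz hz0 hzq hhz z' hz' hzz'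
    have hzs : z ∉ Submodule.span F {z'} := notMem_span_symm hz0 hz's
    obtain ⟨c, hc, hcz⟩ := exists_ortho_not hQ _ hzs
    obtain ⟨w', hw', y, hy, rfl⟩ := exists_add hQ hU c
    have h1 := hc z' (Submodule.mem_span_singleton_self z')
    rw [pal, hWU hz' hw', zero_add] at h1
    rw [pal, hWU hz hw', zero_add] at hcz
    refine mem_stabO_of_le fun x hx => ?_
    have h2 : x = (x - polar Q x z • y) + polar Q x z • y := by module
    rw [h2, map_add]
    refine U.add_mem (hPUU h hh z hz hz0 hzq hhz _ (U.sub_mem hx (U.smul_mem _ hy)) ?_)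
      (hPUU h hh z' hz' hz'0 hz'q hhz' _ (U.smul_mem _ hy) ?_)
    · rw [pdr, psr, pc Q z y, hcz, pc Q z x]; ring
    · rw [psr, pc Q z' y, h1, mul_zero]
  have hmemU : ∀ x, (∀ w ∈ perp Q U, polar Q w x = 0) → x ∈ U := by
    intro x hx
    rw [← perp_perp hQ U]
    exact hx
  -- (U2)
  have hU2 : ∀ h ∈ M, ∀ z ∈ perp Q U, z ≠ 0 → Q z = 0 → (h : V ≃ₗ[F] V) z ∈ perp Q U → h ∈ stabO Q U := by
    intro h hh z hz hz0 hzq hhz
    set N := (perp Q U).map (((h⁻¹ : OGrp Q) : V ≃ₗ[F] V) : V →ₗ[F] V) with hN'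
    have hNfin : finrank F N = 4 := (LinearEquiv.finrank_map_eq _ _).trans hNW
    have h1 : perp Q U ⊓ perp Q (Submodule.span F {z}) ≤ perp Q U ⊓ N := by
      rintro b ⟨hb, hbz⟩
      refine ⟨hb, ?_⟩
      have hzb : polar Q z b = 0 := hbz z (Submodule.mem_span_singleton_self z)
      exact ⟨(h : V ≃ₗ[F] V) b, hPWW h hh z hz hz0 hzq hhz b hb hzb, coe_inv_apply_self h b⟩
    have h2 := finrank_inf_perp hQ (perp Q U) (Submodule.span F {z})
    rw [finrank_span_singleton hz0] at h2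
    have h3 := Submodule.finrank_mono h1
    have h4 := Submodule.finrank_sup_add_finrank_inf_eq (perp Q U) N
    have h5 := finrank_perp hQ (perp Q U ⊔ N)
    obtain ⟨y, hy, hy0, hyq⟩ := exists_sing_mem Q (perp Q (perp Q U ⊔ N)) (by omega)
    have hyU : y ∈ U := hmemU y fun w hw => hy w (Submodule.mem_sup_left hw)
    have hhy : (h : V ≃ₗ[F] V) y ∈ U := by
      refine hmemU _ fun w hw => ?_
      have h6 : polar Q (((h⁻¹ : OGrp Q) : V ≃ₗ[F] V) w) y = 0 := hy _ (Submodule.mem_sup_right ⟨w, hw, rfl⟩)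
      rw [← OGrp_polar h, coe_apply_inv_self] at h6
      exact h6
    exact hU1 h hh y hyU hy0 hyq hhy
  -- (U3)
  have hU3 : ∀ h ∈ M, ∀ z ∈ U, z ≠ 0 → Q z = 0 → (h : V ≃ₗ[F] V) z ∉ perp Q U := by
    intro h hh z hz hz0 hzq hhz
    obtain ⟨z', hz', hz'q, hzz', hz's⟩ := hUp z hz hz0 hzq
    have h1 := hPUW h hh z hz hz0 hzq hhz z' hz' hzz'
    have h2 := hWm _ hhz _ h1 (hne0 h z hz0) (by rw [OGrp_q, hzq]) (by rw [OGrp_q, hz'q]) (by rw [OGrp_polar, hzz'])
    obtain ⟨c, hc⟩ := Submodule.mem_span_singleton.1 h2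
    apply hz's
    rw [Submodule.mem_span_singleton]
    refine ⟨c, (h : V ≃ₗ[F] V).injective ?_⟩
    rw [map_smul]; exact hc
  have hginv : ∀ w ∈ perp Q U, w ≠ 0 → Q w = 0 → ((g⁻¹ : OGrp Q) : V ≃ₗ[F] V) w ∉ perp Q U := by
    intro w hw hw0 hwq h
    apply hg
    have := hU2 g⁻¹ (M.inv_mem hgM) w hw hw0 hwq h
    have := (stabO Q U).inv_mem this
    rwa [inv_inv] at this
  -- the two images
  set Z := (perp Q U).map ((g : V ≃ₗ[F] V) : V →ₗ[F] V) with hZ
  set Z' := U.map ((g : V ≃ₗ[F] V) : V →ₗ[F] V) with hZ'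
  have hZfin : finrank F Z = 4 := (LinearEquiv.finrank_map_eq _ _).trans hNW
  have hZperp : perp Q Z = Z' := by rw [hZ, map_perp hQ, perp_perp hQ]
  have hZmem : ∀ x, x ∈ Z ↔ ((g⁻¹ : OGrp Q) : V ≃ₗ[F] V) x ∈ perp Q U := by
    intro x
    constructor
    · rintro ⟨y, hy, rfl⟩
      have : ((g⁻¹ : OGrp Q) : V ≃ₗ[F] V) (((g : V ≃ₗ[F] V) : V →ₗ[F] V) y) = y := coe_inv_apply_self g y
      rw [this]; exact hy
    · intro h
      exact ⟨_, h, coe_apply_inv_self g x⟩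
  have hZ'mem : ∀ x, x ∈ Z' ↔ ((g⁻¹ : OGrp Q) : V ≃ₗ[F] V) x ∈ U := by
    intro x
    constructor
    · rintro ⟨y, hy, rfl⟩
      have : ((g⁻¹ : OGrp Q) : V ≃ₗ[F] V) (((g : V ≃ₗ[F] V) : V →ₗ[F] V) y) = y := coe_inv_apply_self g y
      rw [this]; exact hy
    · intro h
      exact ⟨_, h, coe_apply_inv_self g x⟩
  have hanisoZ : ∀ x ∈ perp Q U ⊓ Z, Q x = 0 → x = 0 := by
    rintro x ⟨hx, hxZ⟩ hxq
    by_contra hx0
    exact hginv x hx hx0 hxq ((hZmem x).1 hxZ)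
  have hanisoZ' : ∀ x ∈ perp Q U ⊓ Z', Q x = 0 → x = 0 := by
    rintro x ⟨hx, hxZ⟩ hxq
    by_contra hx0
    refine hU3 g hgM _ ((hZ'mem x).1 hxZ) (hne0 _ x hx0) (by rw [OGrp_q, hxq]) ?_
    rw [coe_apply_inv_self]; exact hx
  -- each singular vector of `W` lies in the sum
  have key : ∀ w ∈ perp Q U, Q w = 0 → w ∈ (perp Q U ⊓ Z) ⊔ (perp Q U ⊓ Z') := by
    intro w hw hwq
    by_cases hw0 : w = 0
    · rw [hw0]; exact Submodule.zero_mem _
    obtain ⟨z, ⟨hzZ, hzw⟩, hz0, hzq⟩ : ∃ z ∈ Z ⊓ perp Q (Submodule.span F {w}), z ≠ 0 ∧ Q z = 0 := by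
      apply exists_sing_mem
      have h2 := finrank_inf_perp hQ Z (Submodule.span F {w})
      rw [finrank_span_singleton hw0] at h2
      omega
    have hwz : polar Q w z = 0 := hzw w (Submodule.mem_span_singleton_self w)
    obtain ⟨b, hbW, hwb, hzb, hbs⟩ : ∃ b ∈ perp Q U, polar Q w b = 0 ∧ polar Q z b = 0 ∧ b ∉ Submodule.span F {w} := by
      have h4 := finrank_inf_perp hQ (perp Q U) (Submodule.span F {x | x ∈ [w, z]})
      have h2 := Symp.finrank_span_list_le (K := F) [w, z]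
      simp only [List.length_cons, List.length_nil] at h2
      by_contra hc
      push Not at hc
      have h5 : perp Q U ⊓ perp Q (Submodule.span F {x | x ∈ [w, z]}) ≤ Submodule.span F {w} := by
        rintro b ⟨hb, hb'⟩
        have h6 := mem_perp_list.1 hb'
        exact hc b hb (by rw [pc]; exact h6 w (by simp)) (by rw [pc]; exact h6 z (by simp))
      have h6 := Submodule.finrank_mono h5
      rw [finrank_span_singleton hw0] at h6
      have h7 : 1 ≤ finrank F ↥(perp Q (perp Q U) ⊓ Submodule.span F {x | x ∈ [w, z]}) ∨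
          finrank F ↥(perp Q (perp Q U) ⊓ Submodule.span F {x | x ∈ [w, z]}) = 0 := by omega
      omega
    obtain ⟨_, _, ht⟩ := hasE_W hQ (by omega) hHM hw hbW hwq hwb
    set t := eich Q w b hwq hwb with htdef
    have htz : (t : V ≃ₗ[F] V) z = z := by
      rw [htdef, eich_apply, hzb, pc Q z w, hwz]; simp
    have htZ : ∀ x ∈ Z, (t : V ≃ₗ[F] V) x ∈ Z := by
      have h1 : g⁻¹ * t * g ∈ M := M.mul_mem (M.mul_mem (M.inv_mem hgM) ht) hgM
      have h2 : ((g⁻¹ * t * g : OGrp Q) : V ≃ₗ[F] V) (((g⁻¹ : OGrp Q) : V ≃ₗ[F] V) z) =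
          ((g⁻¹ : OGrp Q) : V ≃ₗ[F] V) z := by
        rw [coe_mul_apply, coe_mul_apply, coe_apply_inv_self, htz]
      have h3 := hU2 _ h1 (((g⁻¹ : OGrp Q) : V ≃ₗ[F] V) z) ((hZmem z).1 hzZ) (hne0 _ z hz0) (by rw [OGrp_q, hzq])
        (by rw [h2]; exact (hZmem z).1 hzZ)
      rw [← stabO_perp hQ] at h3
      intro x hx
      rw [hZmem] at hx ⊢
      have h4 := (mem_stabO.1 h3 _).1 hx
      rwa [coe_mul_apply, coe_mul_apply, coe_apply_inv_self] at h4
    by_cases hall : ∀ x ∈ Z, polar Q x w = 0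
    · refine Submodule.mem_sup_right ⟨hw, ?_⟩
      rw [← hZperp]; exact hall
    push Not at hall
    obtain ⟨x₀, hx₀, hx₀w⟩ := hall
    have hsub : ∀ x ∈ Z, polar Q x b • w - polar Q x w • b - (Q b * polar Q x w) • w ∈ Z := by
      intro x hx
      have h1 := Z.sub_mem (htZ x hx) hx
      rw [htdef, eich_apply] at h1
      convert h1 using 1
      module
    set k := Q b - polar Q x₀ b / polar Q x₀ w with hk
    set β := b + k • w with hβ
    have hβZ : β ∈ Z := by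
      have h1 := Z.smul_mem (-(polar Q x₀ w))⁻¹ (hsub x₀ hx₀)
      convert h1 using 1
      rw [hβ, hk, smul_sub, smul_sub, smul_smul, smul_smul, smul_smul]
      have e1 : (-(polar Q x₀ w))⁻¹ * polar Q x₀ w = -1 := by field_simp
      have e2 : (-(polar Q x₀ w))⁻¹ * polar Q x₀ b = - (polar Q x₀ b / polar Q x₀ w) := by field_simp
      have e3 : (-(polar Q x₀ w))⁻¹ * (Q b * polar Q x₀ w) = - Q b := by field_simp
      rw [e1, e2, e3]; module
    have hβW : β ∈ perp Q U := Submodule.add_mem _ hbW (Submodule.smul_mem _ _ hw)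
    have hβq : Q β = Q b := by rw [hβ, qadd, qsmul, hwq, psr, pc Q b w, hwb]; ring
    have hβ0 : β ≠ 0 := by
      intro h
      apply hbs
      rw [Submodule.mem_span_singleton]
      refine ⟨-k, ?_⟩
      have : b = β - k • w := by rw [hβ, add_sub_cancel_right]
      rw [this, h]; module
    have hβq0 : Q β ≠ 0 := fun h => hβ0 (hanisoZ β ⟨hβW, hβZ⟩ h)
    have hwZ : w ∉ Z := fun h => hw0 (hanisoZ w ⟨hw, h⟩ hwq)
    have hall' : ∀ x ∈ Z, polar Q x β - Q β * polar Q x w = 0 := by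
      intro x hx
      by_contra hne
      apply hwZ
      have h1 := Z.add_mem (hsub x hx) (Z.smul_mem (polar Q x w) hβZ)
      have h2 : polar Q x b • w - polar Q x w • b - (Q b * polar Q x w) • w + polar Q x w • β =
          (polar Q x β - Q β * polar Q x w) • w := by
        rw [hβq, hβ, par, psr]; module
      rw [h2] at h1
      have h3 := Z.smul_mem (polar Q x β - Q β * polar Q x w)⁻¹ h1
      rwa [smul_smul, inv_mul_cancel₀ hne, one_smul] at h3
    have hγ : β - Q β • w ∈ Z' := by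
      rw [← hZperp]
      intro x hx
      change polar Q x (β - Q β • w) = 0
      rw [pdr, psr]; exact hall' x hx
    have hw' : w = (Q β)⁻¹ • β + (-(Q β)⁻¹) • (β - Q β • w) := by
      rw [smul_sub, smul_smul, neg_mul, inv_mul_cancel₀ hβq0]; module
    rw [hw']
    exact Submodule.add_mem _ (Submodule.mem_sup_left (Submodule.smul_mem _ _ ⟨hβW, hβZ⟩))
      (Submodule.mem_sup_right (Submodule.smul_mem _ _
        ⟨Submodule.sub_mem _ hβW (Submodule.smul_mem _ _ hw), hγ⟩))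
  have hWS : perp Q U ≤ (perp Q U ⊓ Z) ⊔ (perp Q U ⊓ Z') := by
    intro x hx
    by_cases hx0 : x = 0
    · rw [hx0]; exact Submodule.zero_mem _
    obtain ⟨w, hw, hwq, hxw⟩ := exists_sing_pair hWnd (by omega) hx hx0
    have h1 : x = (x - (Q x / polar Q x w) • w) + (Q x / polar Q x w) • w := by module
    rw [h1]
    refine Submodule.add_mem _ (key _ (Submodule.sub_mem _ hx (Submodule.smul_mem _ _ hw)) ?_)
      (key _ (Submodule.smul_mem _ _ hw) (by rw [qsmul, hwq, mul_zero]))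
    rw [qsub, qsmul, hwq, psr]; field_simp; ring
  have hA2 : finrank F ↥(perp Q U ⊓ Z) ≤ 2 := by
    by_contra h
    obtain ⟨x, hx, hx0, hxq⟩ := exists_sing_mem Q (perp Q U ⊓ Z) (by omega)
    exact hx0 (hanisoZ x hx hxq)
  have hB2 : finrank F ↥(perp Q U ⊓ Z') ≤ 2 := by
    by_contra h
    obtain ⟨x, hx, hx0, hxq⟩ := exists_sing_mem Q (perp Q U ⊓ Z') (by omega)
    exact hx0 (hanisoZ' x hx hxq)
  have h4 := (Submodule.finrank_mono hWS).trans (Submodule.finrank_add_le_finrank_add_finrank _ _)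
  have hortho : ∀ a ∈ perp Q U ⊓ Z, ∀ b ∈ perp Q U ⊓ Z', polar Q a b = 0 := by
    rintro a ⟨-, ha⟩ b ⟨-, hb⟩
    rw [← hZperp] at hb
    exact hb a ha
  have hndA : (perp Q U ⊓ Z) ⊓ perp Q (perp Q U ⊓ Z) = ⊥ := by
    rw [eq_bot_iff, ← hWnd]
    rintro x ⟨hx, hx'⟩
    refine ⟨hx.1, ?_⟩
    intro y hy
    change polar Q y x = 0
    obtain ⟨c, hc, d, hd, rfl⟩ := Submodule.mem_sup.1 (hWS hy)
    rw [pal]
    have e1 : polar Q c x = 0 := hx' c hc
    rw [e1, pc Q d x, hortho x hx d hd, add_zero]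
  have hndB : (perp Q U ⊓ Z') ⊓ perp Q (perp Q U ⊓ Z') = ⊥ := by
    rw [eq_bot_iff, ← hWnd]
    rintro x ⟨hx, hx'⟩
    refine ⟨hx.1, ?_⟩
    intro y hy
    change polar Q y x = 0
    obtain ⟨c, hc, d, hd, rfl⟩ := Submodule.mem_sup.1 (hWS hy)
    rw [pal]
    have e1 : polar Q d x = 0 := hx' d hd
    rw [e1, hortho c hc x hx, add_zero]
  obtain ⟨x, hx, y, hy, hxq, hyq, hxy, hx0, hys⟩ := exists_ts_of_two_aniso _ _ hndA hndB hortho (by omega) (by omega)
    hanisoZ hanisoZ'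
  have hle : (perp Q U ⊓ Z) ⊔ (perp Q U ⊓ Z') ≤ perp Q U := sup_le inf_le_left inf_le_left
  exact hys (hWm x (hle hx) y (hle hy) hx0 hxq hyq hxy)

end Cfsg.Agent.H94.ND8
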