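import Cfsg.Agent.H94.ND8c

/-!
Stabilisers of non-degenerate subspaces and of non-singular points in `Ω_n`, `n ≥ 8`, in the vocabulary of `Cfsg.Geo`.
-/

set_option autoImplicit false
set_option linter.unusedSectionVars false

namespace Cfsg.Agent.H94.ND8

open QuadraticMap Module Cfsg.Agent.Orth Cfsg.Agent.GeoMax.Ort Cfsg.Agent.GeoMax Cfsg.Agent.H94.SmallOrt

section
variable {F V : Type*} [Field F] [AddCommGroup V] [Module F V]
variable [Finite F] [FiniteDimensional F V] {Q : QuadraticForm F V}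

theorem exists_sub2 (C : Submodule F V) {l : ℕ} (hl : l ≤ finrank F C) :
    ∃ C' : Submodule F V, C' ≤ C ∧ finrank F C' = l := by
  obtain ⟨v, hv⟩ := exists_linearIndependent_of_le_finrank hl
  refine ⟨(Submodule.span F (Set.range v)).map C.subtype, Submodule.map_subtype_le _ _, ?_⟩
  rw [Submodule.finrank_map_subtype_eq, finrank_span_eq_card hv, Fintype.card_fin]

theorem plus_pairs (hQ : (polarBilin Q).Nondegenerate) {U T : Submodule F V} (hTU : T ≤ U) (hT : ∀ x ∈ T, Q x = 0)
    (hT2 : finrank F T = 2) (z : V) (hz0 : z ≠ 0) :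
    ∃ z' ∈ U, Q z' = 0 ∧ polar Q z z' = 0 ∧ z' ∉ Submodule.span F {z} := by
  have hpol : ∀ x ∈ T, ∀ y ∈ T, polar Q x y = 0 := by
    intro x hx y hy
    have h1 := hT (x + y) (T.add_mem hx hy)
    rwa [qadd, hT x hx, hT y hy, zero_add, zero_add] at h1
  by_cases hzT : z ∈ T
  · obtain ⟨b, hb, hba⟩ : ∃ b ∈ T, b ∉ Submodule.span F {z} := by
      by_contra hcon
      push Not at hcon
      have h4 := Submodule.finrank_mono (show T ≤ Submodule.span F {z} from hcon)
      rw [finrank_span_singleton hz0] at h4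
      omega
    exact ⟨b, hTU hb, hT b hb, hpol z hzT b hb, hba⟩
  · have h2 := finrank_inf_perp hQ T (Submodule.span F {z})
    rw [finrank_span_singleton hz0] at h2
    have h3 : T ⊓ perp Q (Submodule.span F {z}) ≠ ⊥ := by
      intro h; rw [h, finrank_bot] at h2; omega
    obtain ⟨b, ⟨hb, hb'⟩, hb0⟩ := Submodule.exists_mem_ne_zero_of_ne_bot h3
    refine ⟨b, hTU hb, hT b hb, hb' z (Submodule.mem_span_singleton_self z), ?_⟩
    intro h
    obtain ⟨c, hc⟩ := Submodule.mem_span_singleton.1 h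
    have hc0 : c ≠ 0 := by rintro rfl; rw [zero_smul] at hc; exact hb0 hc.symm
    apply hzT
    have := T.smul_mem c⁻¹ hb
    rwa [← hc, smul_smul, inv_mul_cancel₀ hc0, one_smul] at this

theorem minus_pairs {W : Submodule F V} (hW : ∀ T : Submodule F V, T ≤ W → (∀ x ∈ T, Q x = 0) → finrank F T ≠ 2) :
    ∀ x ∈ W, ∀ y ∈ W, x ≠ 0 → Q x = 0 → Q y = 0 → polar Q x y = 0 → y ∈ Submodule.span F {x} := by
  intro x hx y hy hx0 hxq hyq hxy
  by_contra hcon
  have hli : LinearIndependent F ![x, y] := by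
    rw [LinearIndependent.pair_iff' hx0]
    intro a ha
    exact hcon (Submodule.mem_span_singleton.2 ⟨a, ha⟩)
  have h3 : Module.finrank F (Submodule.span F {x, y}) = 2 := by
    have h4 := finrank_span_eq_card hli
    rw [Fintype.card_fin] at h4
    have h5 : Set.range ![x, y] = {x, y} := by simp [Set.pair_comm]
    rwa [h5] at h4
  refine hW (Submodule.span F {x, y}) ?_ ?_ h3
  · rw [Submodule.span_le]
    rintro z (rfl | rfl)
    · exact hx
    · exact hy
  · intro w hw
    obtain ⟨a, b, rfl⟩ := Submodule.mem_span_pair.1 hw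
    rw [qadd, qsmul, qsmul, psl, psr, hxq, hyq, hxy]; ring

/-- two isometric-type halves of minus type: the sum is of plus type -/
theorem exists_ts_of_two_minus (hQ : (polarBilin Q).Nondegenerate) {W : Submodule F V} (hW : W ⊓ perp Q W = ⊥)
    (h4 : finrank F W = 4) (h4' : finrank F (perp Q W) = 4)
    (h1 : ∀ T : Submodule F V, T ≤ W → (∀ x ∈ T, Q x = 0) → finrank F T ≠ 2)
    (h2 : ∀ T : Submodule F V, T ≤ perp Q W → (∀ x ∈ T, Q x = 0) → finrank F T ≠ 2) :
    ∃ T : Submodule F V, (∀ x ∈ T, Q x = 0) ∧ finrank F T = 4 := by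
  have hts : ∀ (A : Submodule F V), (∀ T : Submodule F V, T ≤ A → (∀ x ∈ T, Q x = 0) → finrank F T ≠ 2) →
      ∀ U : Submodule F A, TS (Q.restrict A) U → finrank F U < 2 := by
    intro A hA U hU
    by_contra hcon
    obtain ⟨U', hU'U, hU'2⟩ := exists_sub2 U (l := 2) (by omega)
    refine hA (U'.map A.subtype) (Submodule.map_subtype_le _ _) ?_ ?_
    · rintro _ ⟨x, hx, rfl⟩
      exact hU x (hU'U hx)
    · rw [Submodule.finrank_map_subtype_eq]; exact hU'2
  obtain ⟨φ, hφ⟩ := exists_isom_elliptic (m := 2) (by omega) (by omega) (by omega) (nondegenerate_restrict hW)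
    (nondegenerate_restrict (perp_nd hQ hW)) (hts W h1) (hts _ h2)
  obtain ⟨ψ, hψ⟩ := exists_anti (perp_nd hQ hW) (by rw [h4']; decide)
  have hq : ∀ a : W, Q ((ψ (φ a) : perp Q W) : V) = - Q (a : V) := by
    intro a
    rw [hψ]
    have := hφ a
    change Q ((φ a : perp Q W) : V) = Q (a : V) at this
    rw [this]
  let s : W →ₗ[F] V := W.subtype + (perp Q W).subtype ∘ₗ (ψ : perp Q W →ₗ[F] perp Q W) ∘ₗ (φ : W →ₗ[F] perp Q W)
  have hs : ∀ a : W, s a = (a : V) + ((ψ (φ a) : perp Q W) : V) := fun a => rfl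
  have hsq : ∀ a : W, Q (s a) = 0 := by
    intro a
    rw [hs, qadd, hq, hUW a.2 (ψ (φ a)).2]; ring
  have hinj : Function.Injective s := by
    rw [← LinearMap.ker_eq_bot, eq_bot_iff]
    intro a ha
    rw [LinearMap.mem_ker, hs] at ha
    have h1 : (a : V) ∈ W ⊓ perp Q W := by
      refine ⟨a.2, ?_⟩
      rw [eq_neg_of_add_eq_zero_left ha]
      exact Submodule.neg_mem _ (ψ (φ a)).2
    rw [hW] at h1
    exact Subtype.ext ((Submodule.mem_bot F).1 h1)
  refine ⟨LinearMap.range s, ?_, ?_⟩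
  · rintro _ ⟨a, rfl⟩; exact hsq a
  · rw [LinearMap.finrank_range_of_inj hinj, h4]

end

section
variable {F : Type*} [Field F] [Fintype F]

open Cfsg.Agent.GeoMax.Ort

/-- Non-degenerate subspaces in minus type, `n ≥ 8`. -/
theorem nd_minus_aux {n : ℕ} (hn : 8 ≤ n) (Q : (Fin n → F) → F)
    (hQ : Cfsg.Geo.IsNondegenerateQuadraticForm Q) (hminus : ¬ Cfsg.Geo.IsPlusTypeOn Q ⊤)
    (W : Submodule F (Fin n → F)) (hle : finrank F (perp (toQF hQ) W) ≤ finrank F W)
    (hW1 : W ≠ ⊤) (hdim : ¬ (2 * finrank F W = n ∧ Odd (finrank F W)))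
    (hodd : Odd (finrank F W) → Odd (Fintype.card F))
    (hW : W ⊓ perp (toQF hQ) W = ⊥)
    (hex : finrank F (perp (toQF hQ) W) = 2 → (∃ s ∈ perp (toQF hQ) W, s ≠ 0 ∧ (toQF hQ) s = 0) → 4 ≤ Nat.card F) :
    Cfsg.Geo.IsMaximalIn (commutator (OGrp (toQF hQ))) (stabO (toQF hQ) W ⊓ commutator (OGrp (toQF hQ))) := by
  have hfr : Module.finrank F (Fin n → F) = n := by
    rw [Module.finrank_fintype_fun_eq_card]; simp
  have hnd := toQF_nondeg hQ
  have hd := finrank_perp hnd W
  have hWp : perp (toQF hQ) W ≠ ⊥ := by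
    intro h
    rw [h, finrank_bot, zero_add] at hd
    exact hW1 (Submodule.eq_top_of_finrank_eq hd)
  have hpos : 0 < finrank F (perp (toQF hQ) W) := by
    have : Nontrivial (perp (toQF hQ) W) := Submodule.nontrivial_iff_ne_bot.2 hWp
    exact finrank_pos
  have hnoplus : ∀ T : Submodule F (Fin n → F), (∀ x ∈ T, (toQF hQ) x = 0) → 2 * finrank F T ≠ n := by
    intro T hT h
    refine hminus ⟨T, le_top, hT, ?_⟩
    rw [finrank_top, hfr, h]
  have hswap : ∀ g ∈ commutator (OGrp (toQF hQ)),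
      ¬ W.map ((g : (Fin n → F) ≃ₗ[F] (Fin n → F)) : (Fin n → F) →ₗ[F] (Fin n → F)) ≤ perp (toQF hQ) W := by
    intro g _ hg
    have h1 := Submodule.finrank_mono hg
    rw [LinearEquiv.finrank_map_eq] at h1
    have hev : Even (Module.finrank F W) := by
      rw [← Nat.not_odd_iff_even]
      exact fun ho => hdim ⟨by omega, ho⟩
    obtain ⟨T, hT, hTd⟩ := plus_of_swap hW hev g
      (Submodule.eq_of_le_of_finrank_le hg (by rw [LinearEquiv.finrank_map_eq]; exact hle))
    exact hnoplus T hT (by omega)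
  rcases Nat.lt_or_ge (finrank F W) 6 with h6 | h6
  · rcases Nat.lt_or_ge (finrank F W) 5 with h5 | h5
    · -- `4 + 4`
      have h4 : finrank F W = 4 := by omega
      have h4' : finrank F (perp (toQF hQ) W) = 4 := by omega
      by_cases hp : ∃ T : Submodule F (Fin n → F), T ≤ W ∧ (∀ x ∈ T, (toQF hQ) x = 0) ∧ finrank F T = 2
      · obtain ⟨T, hTW, hT, hT2⟩ := hp
        refine nd_maximal44 hnd hW h4 h4' (fun z _ hz0 _ => plus_pairs hnd hTW hT hT2 z hz0) (minus_pairs ?_)
        intro T' hT'W hT' hT'2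
        refine hnoplus (T ⊔ T') ?_ ?_
        · intro x hx
          obtain ⟨c, hc, d, hd', rfl⟩ := Submodule.mem_sup.1 hx
          rw [qadd, hT c hc, hT' d hd', hUW (hTW hc) (hT'W hd')]; ring
        · have h7 := Submodule.finrank_sup_add_finrank_inf_eq T T'
          have h8 : T ⊓ T' = ⊥ := by
            rw [eq_bot_iff, ← hW]; exact inf_le_inf hTW hT'W
          rw [h8, finrank_bot] at h7
          omega
      · push Not at hp
        by_cases hp' : ∃ T : Submodule F (Fin n → F), T ≤ perp (toQF hQ) W ∧ (∀ x ∈ T, (toQF hQ) x = 0) ∧ finrank F T = 2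
        · obtain ⟨T, hTW, hT, hT2⟩ := hp'
          rw [← stabO_perp hnd]
          refine nd_maximal44 hnd (perp_nd hnd hW) h4' (by rw [perp_perp hnd]; exact h4)
            (fun z _ hz0 _ => plus_pairs hnd hTW hT hT2 z hz0) (minus_pairs ?_)
          rw [perp_perp hnd]
          exact fun T hT hT' => hp T hT hT'
        · push Not at hp'
          exfalso
          obtain ⟨T, hT, hT4⟩ := exists_ts_of_two_minus hnd hW h4 h4' (fun T hT hT' => hp T hT hT')
            (fun T hT hT' => hp' T hT hT')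
          exact hnoplus T hT (by omega)
    · have h5' : finrank F W = 5 := by omega
      have h2 := Cfsg.Agent.GeoMax.Ort.two_ne_zero_of_odd (hodd (by rw [h5']; decide))
      exact nd_maximal5 hnd h2 hW h5' (by omega) hWp hswap hex
  · exact nd_maximal6 hnd hW h6 hWp hswap hex

/-- Non-degenerate subspaces in minus type, `n ≥ 8`. -/
theorem nd_minus {n : ℕ} (hn : 8 ≤ n) (heven : Even n) (Q : (Fin n → F) → F)
    (hQ : Cfsg.Geo.IsNondegenerateQuadraticForm Q) (hminus : ¬ Cfsg.Geo.IsPlusTypeOn Q ⊤)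
    (W : Submodule F (Fin n → F)) (hW0 : W ≠ ⊥) (hW1 : W ≠ ⊤)
    (hdim : ¬ (2 * finrank F W = n ∧ Odd (finrank F W)))
    (hodd : Odd (finrank F W) → Odd (Fintype.card F))
    (hW : Cfsg.Geo.IsNondegenerateOn (QuadraticMap.polar Q) W)
    (hex : ¬ (Fintype.card F ≤ 3 ∧ (∃ U : Submodule F (Fin n → F), Module.finrank F U = 2 ∧
      Cfsg.Geo.IsNondegenerateOn (QuadraticMap.polar Q) U ∧ Cfsg.Geo.IsPlusTypeOn Q U ∧
      (U = W ∨ (Cfsg.Geo.AreOrthogonalFor (QuadraticMap.polar Q) U W ∧ Module.finrank F U + Module.finrank F W = n))))) :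
    Cfsg.Geo.IsMaximalIn (Cfsg.Geo.omegaGL Q) (Cfsg.Geo.subspaceStabilizer W ⊓ Cfsg.Geo.omegaGL Q) := by
  refine isMaximalIn_omegaGL (toQF hQ) (mem_stabO_iff_emGL _ _) ?_
  have hfr : Module.finrank F (Fin n → F) = n := by
    rw [Module.finrank_fintype_fun_eq_card]; simp
  have hnd := toQF_nondeg hQ
  have hWp : W ⊓ perp (toQF hQ) W = ⊥ := inf_perp_of_geo hW
  have hd := finrank_perp hnd W
  have hex1 : finrank F W = 2 → (∃ s ∈ W, s ≠ 0 ∧ (toQF hQ) s = 0) → 4 ≤ Nat.card F := by
    rintro h2 ⟨s, hs, hs0, hq⟩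
    by_contra hcon
    rw [Nat.card_eq_fintype_card] at hcon
    exact hex ⟨by omega, W, h2, hW, plusType_of_sing hQ h2 hs hs0 hq, Or.inl rfl⟩
  have hex2 : finrank F (perp (toQF hQ) W) = 2 → (∃ s ∈ perp (toQF hQ) W, s ≠ 0 ∧ (toQF hQ) s = 0) → 4 ≤ Nat.card F := by
    rintro h2 ⟨s, hs, hs0, hq⟩
    by_contra hcon
    rw [Nat.card_eq_fintype_card] at hcon
    refine hex ⟨by omega, perp (toQF hQ) W, h2, geo_of_inf_perp (Q := toQF hQ) (perp_nd hnd hWp),
      plusType_of_sing hQ h2 hs hs0 hq, Or.inr ⟨?_, by omega⟩⟩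
    intro u hu v hv
    exact mem_perp'.1 hu v hv
  rcases Nat.lt_or_ge (finrank F W) (finrank F (perp (toQF hQ) W)) with h | h
  · rw [← stabO_perp hnd]
    refine nd_minus_aux hn Q hQ hminus (perp (toQF hQ) W) (by rw [perp_perp hnd]; exact h.le) ?_ ?_ ?_
      (perp_nd hnd hWp) (by rw [perp_perp hnd]; exact hex1)
    · intro htop
      rw [htop, finrank_top, hfr] at hd
      have : finrank F W = 0 := by omega
      exact hW0 (Submodule.finrank_eq_zero.1 this)
    · rintro ⟨h1, -⟩
      omega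
    · intro ho
      apply hodd
      obtain ⟨k, hk⟩ := heven
      obtain ⟨m, hm⟩ := ho
      exact ⟨k - m - 1, by omega⟩
  · exact nd_minus_aux hn Q hQ hminus W h hW1 hdim hodd hWp hex2

end

section
variable {F : Type*} [Field F] [Fintype F]

/-- the stabiliser of a non-singular point (any characteristic) in `Ω_n`, `n ≥ 7`, is maximal -/
theorem point_maximal7 {V : Type*} [AddCommGroup V] [Module F V] [FiniteDimensional F V] {Q : QuadraticForm F V}
    (hQ : (polarBilin Q).Nondegenerate) (hNV : 7 ≤ finrank F V) {v : V} (hv : Q v ≠ 0) :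
    Cfsg.Geo.IsMaximalIn (commutator (OGrp Q)) (stabO Q (Submodule.span F {v}) ⊓ commutator (OGrp Q)) := by
  have hv0 : v ≠ 0 := by rintro rfl; exact hv (QuadraticMap.map_zero Q)
  constructor
  · refine lt_of_le_of_ne inf_le_right ?_
    intro heq
    obtain ⟨y, hy⟩ := exists_polar_ne hQ hv0
    obtain ⟨a, haq, ha⟩ := repV hQ [v] (by simp; omega) y 0
    have hva : polar Q v a ≠ 0 := by rw [pc, ha v (by simp)]; exact hy
    obtain ⟨b, hbq, hb⟩ := repV hQ [a, v] (by simp; omega) 0 1
    have hab : polar Q a b = 0 := by rw [pc, hb a (by simp), polar_zero_left]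
    have hvb : polar Q v b = 0 := by rw [pc, hb v (by simp), polar_zero_left]
    have hmem : eich Q a b haq hab ∈ stabO Q (Submodule.span F {v}) ⊓ commutator (OGrp Q) := by
      rw [heq]; exact eich_mem_commutator hQ hNV _ _
    have h1 := (mem_stabO.1 hmem.1 v).1 (Submodule.mem_span_singleton_self v)
    rw [eich_apply, hvb, zero_smul, add_zero, hbq, one_mul] at h1
    obtain ⟨c, hc⟩ := Submodule.mem_span_singleton.1 h1
    have h2 := congrArg (fun w => polar Q w a) hc
    simp only [psl, pdl, pself, haq, pc Q b a, hab] at h2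
    have h3 : (c - 1) * polar Q v a = 0 := by linear_combination h2
    have h4 := (mul_eq_zero.1 h3).resolve_right hva
    have h5 : polar Q v a • (b + a) = 0 := by
      have : polar Q v a • (b + a) = v - (v - polar Q v a • b - polar Q v a • a) := by module
      rw [this, ← hc]
      have h6 : c = 1 := sub_eq_zero.1 h4
      rw [h6, one_smul, sub_self]
    have h6 := (smul_eq_zero.1 h5).resolve_left hva
    have h7 : b = -a := eq_neg_of_add_eq_zero_left h6
    rw [h7, QuadraticMap.map_neg, haq] at hbq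
    exact zero_ne_one hbq
  · intro M hHM hMI
    by_cases hMH : M = stabO Q (Submodule.span F {v}) ⊓ commutator (OGrp Q)
    · exact Or.inl hMH
    right
    refine le_antisymm hMI ?_
    have hMU : ∀ a b : V, polar Q v a = 0 → polar Q v b = 0 → Q a = 0 → polar Q a b = 0 → HasE M a b := by
      intro a b ha hb haq hab
      refine ⟨haq, hab, hHM ⟨mem_stabO_of_le fun x hx => ?_, eich_mem_commutator hQ hNV _ _⟩⟩
      obtain ⟨c, rfl⟩ := Submodule.mem_span_singleton.1 hx
      rw [eich_apply, psl, psl, ha, hb]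
      simpa using hx
    obtain ⟨g, hgM, hg⟩ : ∃ g ∈ M, g ∉ stabO Q (Submodule.span F {v}) := by
      by_contra hcon
      push Not at hcon
      exact hMH (le_antisymm (fun g hg => ⟨hcon g hg, hMI hg⟩) hHM)
    set v' := (g : V ≃ₗ[F] V) v with hv'
    have hv'0 : v' ≠ 0 := by
      intro h
      apply hv
      rw [← OGrp_q g, ← hv', h, QuadraticMap.map_zero]
    have hv'v : v' ∉ Submodule.span F {v} := by
      intro h
      apply hg
      refine mem_stabO_of_le fun x hx => ?_
      obtain ⟨c, rfl⟩ := Submodule.mem_span_singleton.1 hx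
      rw [map_smul]
      exact Submodule.smul_mem _ _ h
    have hMU' : ∀ a b : V, polar Q v' a = 0 → polar Q v' b = 0 → Q a = 0 → polar Q a b = 0 → HasE M a b := by
      intro a b ha hb haq hab
      have h1 : ∀ z, polar Q v' z = 0 → polar Q v (((g⁻¹ : OGrp Q) : V ≃ₗ[F] V) z) = 0 := by
        intro z hz
        rw [← OGrp_polar g, coe_apply_inv_self]; exact hz
      have h2 := (hMU (((g⁻¹ : OGrp Q) : V ≃ₗ[F] V) a) (((g⁻¹ : OGrp Q) : V ≃ₗ[F] V) b) (h1 a ha) (h1 b hb)
        (by rw [OGrp_q, haq]) (by rw [OGrp_polar, hab])).conj hgM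
      rwa [coe_apply_inv_self, coe_apply_inv_self] at h2
    -- a singular vector orthogonal to both
    obtain ⟨u, huP, huX, hu0, huq⟩ := exists_sing_perp_notMem hQ (Submodule.span F {x | x ∈ [v, v']}) (by
      have := Symp.finrank_span_list_le (K := F) [v, v']
      simp only [List.length_cons, List.length_nil] at this
      omega)
    have hvu : polar Q v u = 0 := huP v (Submodule.subset_span (by simp))
    have hv'u : polar Q v' u = 0 := huP v' (Submodule.subset_span (by simp))
    -- `v` is not in the span of `u`, `v'`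
    have hvX : v ∉ Submodule.span F {u, v'} := by
      intro h
      obtain ⟨a, b, hab⟩ := Submodule.mem_span_pair.1 h
      by_cases ha : a = 0
      · rw [ha, zero_smul, zero_add] at hab
        exact notMem_span_symm hv0 hv'v (Submodule.mem_span_singleton.2 ⟨b, hab⟩)
      · apply huX
        have h1 : u = a⁻¹ • (v - b • v') := by
          rw [← hab, add_sub_cancel_right, smul_smul, inv_mul_cancel₀ ha, one_smul]
        rw [h1]
        exact Submodule.smul_mem _ _ (Submodule.sub_mem _ (Submodule.subset_span (by simp))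
          (Submodule.smul_mem _ _ (Submodule.subset_span (by simp))))
    obtain ⟨b₂, hb₂, hb₂v⟩ := exists_ortho_not hQ _ hvX
    have hb₂u : polar Q u b₂ = 0 := by rw [pc]; exact hb₂ u (Submodule.subset_span (by simp))
    have hb₂v' : polar Q v' b₂ = 0 := by rw [pc]; exact hb₂ v' (Submodule.subset_span (by simp))
    have hFu : FullR M u := by
      intro b hb
      have h1 := hMU' u ((polar Q b v) • b₂) hv'u (by rw [psr, hb₂v', mul_zero]) huq (by rw [psr, hb₂u, mul_zero])
      have h2 := hMU u (b - (polar Q b v) • b₂) hvu (by rw [pdr, psr, pc Q v b₂, hb₂v, pc]; ring) huq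
        (by rw [pdr, psr, hb, hb₂u]; ring)
      have h3 := h2.add h1
      rwa [sub_add_cancel] at h3
    -- a second one
    have huv : u ∉ Submodule.span F {v} := by
      intro h
      apply huX
      refine Submodule.span_mono ?_ h
      rintro _ rfl
      simp
    obtain ⟨y, hy, hyu⟩ := exists_ortho_not hQ _ huv
    obtain ⟨a, haq, ha⟩ := repV hQ [v, u] (by simp; omega) y 0
    have hav : polar Q v a = 0 := by rw [pc, ha v (by simp)]; exact hy v (Submodule.mem_span_singleton_self v)
    have hau : polar Q u a = 1 := by rw [pc, ha u (by simp)]; exact hyu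
    obtain ⟨b, hbq, hb⟩ := repV hQ [v, a] (by simp; omega) 0 1
    have hvb : polar Q v b = 0 := by rw [pc, hb v (by simp), polar_zero_left]
    have hab : polar Q a b = 0 := by rw [pc, hb a (by simp), polar_zero_left]
    obtain ⟨_, _, ht⟩ := hMU a b hav hvb haq hab
    have hF2 := hFu.conj ht
    refine commutator_le_of_FullR hQ hNV hFu hF2 ?_
    rw [polar_eich_self haq hab huq, hbq, hau]
    simp

theorem point_minus {n : ℕ} (hn : 7 ≤ n) (Q : (Fin n → F) → F)
    (hQ : Cfsg.Geo.IsNondegenerateQuadraticForm Q) (v : (Fin n → F)) (hv : Q v ≠ 0) :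
    Cfsg.Geo.IsMaximalIn (Cfsg.Geo.omegaGL Q) (Cfsg.Geo.subspaceStabilizer (Submodule.span F {v}) ⊓ Cfsg.Geo.omegaGL Q) := by
  have hfr : Module.finrank F (Fin n → F) = n := by
    rw [Module.finrank_fintype_fun_eq_card]; simp
  refine isMaximalIn_omegaGL (toQF hQ) (mem_stabO_iff_emGL _ _) ?_
  exact point_maximal7 (toQF_nondeg hQ) (by omega) hv

end

end Cfsg.Agent.H94.ND8
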