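import Cfsg.Agent.GeoMax.OTransport
import Cfsg.Agent.ODec.Row
import Cfsg.Agent.OMax.SubfieldGL
import Cfsg.Agent.H94.ND8d

/-!
Maximal subgroups of `Ω_n^-`, small `n`: parabolics, decompositions, subfield groups.
-/

set_option autoImplicit false
set_option linter.unusedSectionVars false
set_option linter.unusedVariables false

namespace Cfsg.Agent.H94.OmMinus

theorem par_minus {F : Type*} [Field F] [Fintype F] {n : ℕ} (hn : 7 ≤ n) (heven : Even n) (Q : (Fin n → F) → F) (hQ : Cfsg.Geo.IsNondegenerateQuadraticForm Q) (hminus : ¬ Cfsg.Geo.IsPlusTypeOn Q ⊤) (W : Submodule F (Fin n → F)) (hW0 : W ≠ ⊥) (hW : Cfsg.Geo.IsTotallySingularQuad Q W) : Cfsg.Geo.IsMaximalIn (Cfsg.Geo.omegaGL Q) (Cfsg.Geo.subspaceStabilizer W ⊓ Cfsg.Geo.omegaGL Q) := by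
  have hfr : Module.finrank F (Fin n → F) = n := by
    rw [Module.finrank_fintype_fun_eq_card]; simp
  refine Cfsg.Agent.GeoMax.Ort.isMaximalIn_omegaGL (Cfsg.Agent.GeoMax.Ort.toQF hQ)
    (Cfsg.Agent.GeoMax.Ort.mem_stabO_iff_emGL _ W) ?_
  refine Cfsg.Agent.GeoMax.Ort.parabolic_maximal (Cfsg.Agent.GeoMax.Ort.toQF_nondeg hQ) (by omega) W hW0 hW ?_
  intro h s hs hsq
  by_contra hsW
  apply hminus
  refine ⟨W ⊔ Submodule.span F {s}, le_top, ?_, ?_⟩
  · intro x hx
    obtain ⟨w', hw', y, hy, rfl⟩ := Submodule.mem_sup.1 hx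
    obtain ⟨c, rfl⟩ := Submodule.mem_span_singleton.1 hy
    have e1 : QuadraticMap.polar (Cfsg.Agent.GeoMax.Ort.toQF hQ) w' s = 0 := hs w' hw'
    have e2 := Cfsg.Agent.Orth.qadd (Cfsg.Agent.GeoMax.Ort.toQF hQ) w' (c • s)
    rw [Cfsg.Agent.Orth.qsmul, Cfsg.Agent.Orth.psr, e1, hsq] at e2
    have e3 : (Cfsg.Agent.GeoMax.Ort.toQF hQ) w' = 0 := hW w' hw'
    rw [e3] at e2
    have e4 : Q (w' + c • s) = (Cfsg.Agent.GeoMax.Ort.toQF hQ) (w' + c • s) := rfl
    rw [e4, e2]; ring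
  · have hs0 : s ≠ 0 := by rintro rfl; exact hsW W.zero_mem
    have h1 : W ⊓ Submodule.span F {s} = ⊥ := by
      rw [eq_bot_iff]
      rintro x ⟨hx, hx'⟩
      obtain ⟨c, rfl⟩ := Submodule.mem_span_singleton.1 hx'
      by_cases hc : c = 0
      · rw [hc, zero_smul]; exact Submodule.zero_mem _
      · exfalso; apply hsW
        have := W.smul_mem c⁻¹ hx
        rwa [smul_smul, inv_mul_cancel₀ hc, one_smul] at this
    have h2 := Submodule.finrank_sup_add_finrank_inf_eq W (Submodule.span F {s})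
    rw [h1, finrank_bot, finrank_span_singleton hs0] at h2
    rw [finrank_top]
    omega


section
open QuadraticMap Cfsg.Agent.Orth Cfsg.Agent.OMax Cfsg.Geo Cfsg.Agent.ODec Cfsg.Agent

theorem row_max3 {F : Type*} [Field F] [Fintype F] {n : ℕ} (hn : 7 ≤ n) (Q : QuadraticForm F (Fin n → F))
    (hQ : (polarBilin Q).Nondegenerate) {t : ℕ} (k : ℕ) (hk : 3 ≤ k) (D : Fin t → Submodule F (Fin n → F))
    (hD : IsOrthogonalMDecomposition ⇑Q k D) (hko : Odd k → Odd (Fintype.card F))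
    (h3 : k = 3 → Fintype.card F ≠ 3)
    (h4 : k = 4 → Fintype.card F = 2 → ∀ i, ¬ IsPlusTypeOn ⇑Q (D i)) :
    IsMaximalIn (omegaGL ⇑Q) (decompositionStabilizer D ⊓ omegaGL ⇑Q) := by
  have hcard : t * k = n := by
    rw [OMax.mul_eq_finrank hD.decomp.decomp]; simp
  have hfr : Module.finrank F (Fin n → F) = n := by simp
  have ht : 2 ≤ t := hD.decomp.decomp.two_le
  have hF : OMax.IsFrame Q k D := OMax.isFrame_of_decomp hD
  refine OMax.isMaximalIn_of_abstract Q (Cfsg.Geo.decompositionStabilizer D)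
    (fun g => ∃ σ : Equiv.Perm (Fin t), ∀ i, OMax.act g (D i) = D (σ i))
    (OMax.mem_decompStab_iff _ D) ?_ ?_
  · refine proper_of_not_le Q ?_
    exact OCase.not_omegaGL_le_decompositionStabilizer hQ (by rw [Fintype.card_fin]; omega)
      hD.decomp.decomp
  · intro M _ hHM hM
    have C : DC Q M k D := ⟨hQ, by rw [hfr]; omega, by omega, hF, OMax.isom_of_decomp hD, hHM⟩
    have hcF : Nat.card F = Fintype.card F := Nat.card_eq_fintype_card
    by_cases hodd : Odd (Fintype.card F)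
    · have h20 : (2 : F) ≠ 0 := Orth.two_ne_zero_of_odd hodd
      refine OMax.frame_maximal ⟨hQ, h20, by rw [hfr]; omega, by omega, ?_, hF, hHM⟩
        (OMax.isom_of_decomp hD) hM
      by_cases h4' : 4 ≤ k
      · exact Or.inl h4'
      · right
        have h3' := h3 (by omega)
        have h1 : 1 < Fintype.card F := Fintype.one_lt_card
        obtain ⟨a, ha⟩ := hodd
        omega
    · have hkev : ¬ Odd k := fun h => hodd (hko h)
      rw [Nat.not_odd_iff_even] at hkev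
      have h20 : (2 : F) = 0 := by
        by_contra h20
        apply hodd
        rcases FiniteField.even_card_iff_char_two (F := F) with h
        by_contra hodd'
        rw [Nat.not_odd_iff_even] at hodd'
        have h5 : ringChar F = 2 := h.2 (Nat.even_iff.1 hodd')
        exact h20 (by have := ringChar.Nat.cast_ringChar (R := F); rw [h5] at this; exact_mod_cast this)
      have hk4 : 4 ≤ k := by
        obtain ⟨a, ha⟩ := hkev
        omega
      refine C.four_max (fun i => ⟨h20, hF.nondeg i, by rw [hF.dim]; exact hk4, ?_⟩) ht hM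
      rw [hcF, hF.dim]
      by_cases hc : 2 < Fintype.card F
      · exact Or.inl hc
      by_cases hk6 : 6 ≤ k
      · exact Or.inr (Or.inl hk6)
      have h1 : 1 < Fintype.card F := Fintype.one_lt_card
      have hk4' : k = 4 := by
        obtain ⟨a, ha⟩ := hkev
        omega
      exact Or.inr (Or.inr fun U hU hq => finrank_le_one_of_not_plus (hF.nondeg i)
        (by rw [hF.dim, hk4']) (h4 hk4' (by omega) i) U hU hq)


end

theorem dec_geo {F : Type*} [Field F] [Fintype F] {n : ℕ} (hn : 7 ≤ n) (Q : (Fin n → F) → F) (hQ : Cfsg.Geo.IsNondegenerateQuadraticForm Q) {t : ℕ} (k : ℕ) (hk : 3 ≤ k) (D : Fin t → Submodule F (Fin n → F)) (hD : Cfsg.Geo.IsOrthogonalMDecomposition Q k D) (hko : Odd k → Odd (Fintype.card F)) (h3 : k = 3 → Fintype.card F ≠ 3)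
    (h4 : k = 4 → Fintype.card F = 2 → ∀ i, ¬ Cfsg.Geo.IsPlusTypeOn Q (D i)) : Cfsg.Geo.IsMaximalIn (Cfsg.Geo.omegaGL Q) (Cfsg.Geo.decompositionStabilizer D ⊓ Cfsg.Geo.omegaGL Q) := by
  obtain ⟨q, rfl, hq'⟩ := Cfsg.Agent.OCase.exists_qf hQ
  exact row_max3 hn q hq' k hk D hD hko h3 h4

theorem sub_geo {F : Type*} [Field F] [Fintype F] {n : ℕ} (hn : 11 ≤ n) (Q : (Fin n → F) → F) (hQ : Cfsg.Geo.IsNondegenerateQuadraticForm Q) (F₀ : Subfield F) (r : ℕ) (hr : r.Prime) (hcard : Fintype.card F = Nat.card F₀ ^ r) (P : Matrix.GeneralLinearGroup (Fin n) F) (ζ : F) (hζ : ζ ≠ 0) (hP : Cfsg.Geo.IsQuadFormRationalStructure (fun v : Fin n → F => ζ * Q v) F₀ P) : Cfsg.Geo.IsMaximalIn (Cfsg.Geo.omegaGL Q) (Cfsg.Geo.subfieldSubgroup F₀ P ⊓ Cfsg.Geo.omegaGL Q) := by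
  classical
  have h := OMax.subfield_isMaximalIn (ζ • OMax.qfOf hQ)
    (OMax.smul_nondegenerate (OMax.qfOf_nondegenerate hQ) hζ)
    (by rw [Fintype.card_fin]; omega) F₀ r hr hcard P (fun u => hP _ fun i => (u i).2)
  have e : Cfsg.Geo.omegaGL ⇑(ζ • OMax.qfOf hQ) = Cfsg.Geo.omegaGL Q := OMax.omegaGL_smul Q hζ
  rwa [e] at h

end Cfsg.Agent.H94.OmMinus
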