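import Cfsg.Agent.H94.SmallOrt
import Mathlib.FieldTheory.ChevalleyWarning

/-!
Moving singular points in dimension at least five; common singular vectors of two quadratic forms.
-/

set_option autoImplicit false
set_option linter.unusedSectionVars false

namespace Cfsg.Agent.H94.SmallOrt

open QuadraticMap Module Cfsg.Agent.Orth Cfsg.Agent.GeoMax Cfsg.Agent.GeoMax.Ort

theorem sum_two_squares {F : Type*} [Field F] [Finite F] (h2 : (2 : F) ≠ 0) (x : F) : ∃ a b : F, a * a + b * b = x := by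
  have := Fintype.ofFinite F
  have hodd : Fintype.card F % 2 = 1 := by
    apply FiniteField.odd_card_of_char_ne_two
    intro h
    apply h2
    have h1 : ((ringChar F : ℕ) : F) = 0 := ringChar.spec F (ringChar F) |>.2 dvd_rfl
    rw [h] at h1
    exact_mod_cast h1
  obtain ⟨a, b, hab⟩ := @FiniteField.exists_root_sum_quadratic _ _ _ _ (Polynomial.X ^ 2 : Polynomial F)
    (Polynomial.X ^ 2 - Polynomial.C x) (by rw [Polynomial.degree_X_pow]; rfl)
    (by rw [Polynomial.degree_X_pow_sub_C (by norm_num)]; rfl) hodd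
  refine ⟨a, b, ?_⟩
  simp only [Polynomial.eval_pow, Polynomial.eval_X, Polynomial.eval_sub, Polynomial.eval_C] at hab
  linear_combination hab

variable {F V : Type*} [Field F] [AddCommGroup V] [Module F V] [FiniteDimensional F V] {Q : QuadraticForm F V}

/-- the group generated by the Siegel elements is transitive on singular points -/
theorem exists_mem_move_proj (hQ : (polarBilin Q).Nondegenerate) (hN : 5 ≤ finrank F V) {M : Subgroup (OGrp Q)}
    (hM : ∀ a b, Q a = 0 → polar Q a b = 0 → HasE M a b) {u v : V} (hu : Q u = 0) (hv : Q v = 0) (hu0 : u ≠ 0)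
    (hv0 : v ≠ 0) : ∃ g ∈ M, ∃ k : F, k ≠ 0 ∧ (g : V ≃ₗ[F] V) u = k • v := by
  have key : ∀ u v : V, Q u = 0 → Q v = 0 → polar Q u v ≠ 0 → ∃ g ∈ M, ∃ k : F, k ≠ 0 ∧ (g : V ≃ₗ[F] V) u = k • v := by
    intro u v hu hv huv
    obtain ⟨w, hw, hwq⟩ := exists_list_ns hQ [u, v] (by simp; omega)
    have hwu : polar Q u w = 0 := by rw [pc]; exact hw u (by simp)
    have hwv : polar Q v w = 0 := by rw [pc]; exact hw v (by simp)
    set B := polar Q u v with hB
    set s : F := -(Q w * B)⁻¹ with hs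
    have hs0 : s ≠ 0 := neg_ne_zero.2 (inv_ne_zero (mul_ne_zero hwq huv))
    have hwv' : polar Q v (s • w) = 0 := by rw [psr, hwv, mul_zero]
    obtain ⟨_, _, m1⟩ := hM v (s • w) hv hwv'
    obtain ⟨_, _, m2⟩ := hM u w hu hwu
    refine ⟨_, M.mul_mem (M.inv_mem m2) m1, s, hs0, ?_⟩
    have h5 : ((eich Q u w hu hwu : OGrp Q) : V ≃ₗ[F] V) (s • v) =
        u + polar Q u (s • w) • v - polar Q u v • s • w - (Q (s • w) * polar Q u v) • v := by
      rw [map_smul, eich_apply, psr, hwu, hwv, pc Q v u, ← hB, qsmul]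
      have e1 : -(s * (Q w * B)) = 1 := by rw [hs]; field_simp
      have e2 : s * (Q w * B) = -1 := by rw [← e1]; ring
      have e3 : s * s * Q w * B = -s := by
        have : s * s * Q w * B = s * (s * (Q w * B)) := by ring
        rw [this, e2]; ring
      rw [mul_zero, zero_smul, zero_smul, add_zero, add_zero, e3, smul_sub, smul_sub, smul_smul s, smul_smul s,
        smul_smul B s, e2]
      module
    rw [coe_mul_apply, eich_apply Q v (s • w), ← h5, ← coe_mul_apply, inv_mul_cancel]; rfl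
  obtain ⟨c, hc, hac, hbc⟩ := exists_sing_common hQ hN hu hv hu0 hv0
  obtain ⟨g, hg, k, hk, h1⟩ := key u c hu hc hac
  obtain ⟨g', hg', k', hk', h2⟩ := key c v hc hv (by rw [pc]; exact hbc)
  refine ⟨g' * g, M.mul_mem hg' hg, k * k', mul_ne_zero hk hk', ?_⟩
  rw [coe_mul_apply, h1, map_smul, h2, smul_smul]

/-- a singular vector orthogonal to `c` but not to `v` -/
theorem exists_sing_perp_ne [Finite F] (hQ : (polarBilin Q).Nondegenerate) (h2 : (2 : F) ≠ 0) (hN : 6 ≤ finrank F V)
    {c v : V} (hvc : v ∉ Submodule.span F {x | x ∈ [c]}) (hns : Q v ≠ 0 ∨ polar Q v c = 0) :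
    ∃ s, Q s = 0 ∧ polar Q s c = 0 ∧ polar Q s v ≠ 0 := by
  obtain ⟨y, hy, hyv⟩ := exists_sep hQ [c] hvc
  have hyc := hy c (by simp)
  by_cases hv : Q v = 0
  · have hvc' := hns.resolve_left (fun h => h hv)
    refine ⟨y - Q y • v, ?_, ?_, ?_⟩
    · rw [qsub, qsmul, hv, psr, hyv]; ring
    · rw [pdl, psl, hyc, hvc']; ring
    · rw [pdl, psl, hyv, pself, hv]; simp
  set X := Submodule.span F {x | x ∈ [c, v]} with hX
  have m1 : c ∈ X := Submodule.subset_span (by simp)
  have m2 : v ∈ X := Submodule.subset_span (by simp)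
  have hX2 := Symp.finrank_span_list_le (K := F) [c, v]
  simp only [List.length_cons, List.length_nil] at hX2
  have hP := finrank_perp_list hQ [c, v]
  simp only [List.length_cons, List.length_nil] at hP
  rw [← hX] at hX2 hP
  have hlt : X ⊓ perp Q X < X := by
    refine lt_of_le_of_ne inf_le_left fun h => ?_
    have h1 : v ∈ X ⊓ perp Q X := by rw [h]; exact m2
    have e1 : polar Q v v = 0 := h1.2 v m2
    rw [pself] at e1
    exact mul_ne_zero h2 hv e1
  have hR := Submodule.finrank_lt_finrank_of_lt hlt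
  obtain ⟨C, hC⟩ := Submodule.exists_isCompl (X ⊓ perp Q X)
  have h5 := Submodule.finrank_add_eq_of_isCompl hC
  have h6 := Submodule.finrank_sup_add_finrank_inf_eq (perp Q X) C
  have h7 := Submodule.finrank_le (perp Q X ⊔ C)
  obtain ⟨s, ⟨hs1, hs2⟩, hs0, hsq⟩ := exists_sing_mem Q (perp Q X ⊓ C) (by omega)
  have hsX : s ∉ X := by
    intro h
    have := hC.disjoint
    rw [Submodule.disjoint_def] at this
    exact hs0 (this s ⟨h, hs1⟩ hs2)
  obtain ⟨p, hp, hps⟩ := exists_ortho_not hQ X hsX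
  have hsc : polar Q s c = 0 := by rw [pc]; exact hs1 c m1
  have hsv : polar Q s v = 0 := by rw [pc]; exact hs1 v m2
  obtain ⟨z, hz1, hz2, hz3⟩ : ∃ z, polar Q z c = 0 ∧ polar Q z v = 1 ∧ polar Q z s ≠ 0 := by
    by_cases h : polar Q y s = 0
    · refine ⟨y + p, ?_, ?_, ?_⟩
      · rw [pal, hp c m1, hyc, add_zero]
      · rw [pal, hp v m2, hyv, add_zero]
      · rw [pal, h, hps, zero_add]; exact one_ne_zero
    · exact ⟨y, hyc, hyv, h⟩
  refine ⟨z - (Q z / polar Q z s) • s, ?_, ?_, ?_⟩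
  · rw [qsub, qsmul, hsq, psr]; field_simp; ring
  · rw [pdl, psl, hsc, hz1]; ring
  · rw [pdl, psl, hsv, hz2, mul_zero, sub_zero]; exact one_ne_zero

/-- two quadratic forms in at least five variables have a common non-trivial zero (Chevalley-Warning) -/
theorem exists_common_sing {ι : Type} [Fintype ι] [DecidableEq ι] [Finite F] (hN : 5 ≤ Fintype.card ι)
    (Q Q' : QuadraticForm F (ι → F)) : ∃ a : ι → F, a ≠ 0 ∧ Q a = 0 ∧ Q' a = 0 := by
  classical
  have := Fintype.ofFinite F
  obtain ⟨p, hp⟩ := CharP.exists F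
  have hpp : p.Prime := CharP.char_is_prime F p
  -- the polynomial of a quadratic form
  have hpoly : ∀ R : QuadraticForm F (ι → F), ∃ f : MvPolynomial ι F, f.totalDegree ≤ 2 ∧
      ∀ x, MvPolynomial.eval x f = R x := by
    intro R
    obtain ⟨B, hB⟩ : ∃ B : LinearMap.BilinForm F (ι → F), ∀ x, B x x = R x := by
      obtain ⟨B, hB⟩ := LinearMap.BilinMap.toQuadraticMap_surjective (R := F) (M := ι → F) (N := F) R
      exact ⟨B, fun x => by rw [← hB]; rfl⟩
    refine ⟨∑ i, ∑ j, MvPolynomial.C (B (Pi.single j 1) (Pi.single i 1)) * (MvPolynomial.X i * MvPolynomial.X j), ?_, ?_⟩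
    · refine MvPolynomial.totalDegree_finsetSum_le fun i _ => MvPolynomial.totalDegree_finsetSum_le fun j _ => ?_
      refine (MvPolynomial.totalDegree_mul _ _).trans ?_
      rw [MvPolynomial.totalDegree_C, zero_add]
      refine (MvPolynomial.totalDegree_mul _ _).trans ?_
      rw [MvPolynomial.totalDegree_X, MvPolynomial.totalDegree_X]
    · intro x
      rw [← hB]
      have hx : x = ∑ i, x i • (Pi.single i (1 : F) : ι → F) := by
        ext k
        simp [Finset.sum_apply, Pi.single_apply]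
      conv_rhs => rw [hx]
      simp only [map_sum, map_smul, LinearMap.sum_apply, LinearMap.smul_apply, smul_eq_mul, MvPolynomial.eval_C,
        MvPolynomial.eval_X, map_mul]
      refine Finset.sum_congr rfl fun i _ => ?_
      rw [Finset.mul_sum]
      refine Finset.sum_congr rfl fun j _ => ?_
      ring
  obtain ⟨f₁, hd₁, hf₁⟩ := hpoly Q
  obtain ⟨f₂, hd₂, hf₂⟩ := hpoly Q'
  have hdvd := char_dvd_card_solutions_of_add_lt (K := F) p (σ := ι) (f₁ := f₁) (f₂ := f₂) (by omega)
  by_contra hcon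
  push Not at hcon
  have h1 : Fintype.card {x : ι → F // MvPolynomial.eval x f₁ = 0 ∧ MvPolynomial.eval x f₂ = 0} = 1 := by
    rw [Fintype.card_eq_one_iff]
    refine ⟨⟨0, by rw [hf₁, QuadraticMap.map_zero], by rw [hf₂, QuadraticMap.map_zero]⟩, ?_⟩
    rintro ⟨x, hx1, hx2⟩
    rw [hf₁] at hx1
    rw [hf₂] at hx2
    apply Subtype.ext
    by_contra hx0
    exact hcon x hx0 hx1 hx2
  rw [h1] at hdvd
  exact hpp.one_lt.ne' (Nat.dvd_one.1 hdvd)

end Cfsg.Agent.H94.SmallOrt
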