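import Cfsg.Agent.GeoMax.OSLMain
import Cfsg.Agent.H94.SmallOrt2

/-!
Maximality of the orthogonal similarity group in `SL_n(q)`, `q` odd, `n ≥ 6`.
-/

set_option autoImplicit false
set_option linter.unusedSectionVars false

namespace Cfsg.Agent.H94.QS6

open QuadraticMap Module Cfsg.Agent.Orth Cfsg.Agent.GeoMax Cfsg.Agent.GeoMax.Ort Cfsg.Agent.H94.SmallOrt
open Matrix
open scoped MatrixGroups

variable {ι : Type} [Fintype ι] [DecidableEq ι] {F : Type*} [Field F]
variable {M : Subgroup (GL ι F)} {Q : QuadraticForm F (ι → F)}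

section fin
variable [Finite F]

/-- from one transvection with singular centre, all with this centre -/
theorem tq_all (hQ : (polarBilin Q).Nondegenerate) (h2 : (2 : F) ≠ 0) (hN : 6 ≤ Fintype.card ι) (hS : Sie M Q)
    {a c : ι → F} (ha : Q a = 0) (hc : c ∉ Submodule.span F {x | x ∈ [a]}) (h : TQ M Q a c) :
    ∀ t, polar Q t a = 0 → TQ M Q a t := by
  have hfr : 6 ≤ finrank F (ι → F) := by rw [Module.finrank_fintype_fun_eq_card]; exact hN
  have haa : polar Q a a = 0 := by rw [pself, ha, mul_zero]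
  -- conjugation by Siegel elements fixing `a`
  have N : ∀ c, TQ M Q a c → ∀ d f, Q d = 0 → polar Q a d = 0 → polar Q a f = 0 → polar Q d f = 0 →
      TQ M Q a (polar Q c f • d - polar Q c d • f - (Q f * polar Q c d) • d) := by
    intro c h d f hd hda hfa hdf
    obtain ⟨_, _, h3⟩ := hS d f hd hdf
    have h4 := h.conj h3
    rw [eich_apply, eich_apply, hda, hfa] at h4
    simp only [mul_zero, zero_smul, add_zero, sub_zero] at h4
    have h5 := h4.sub_right h
    have e : c + polar Q c f • d - polar Q c d • f - (Q f * polar Q c d) • d - c =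
        polar Q c f • d - polar Q c d • f - (Q f * polar Q c d) • d := by abel
    rwa [e] at h5
  -- all multiples of `d`
  have A2 : ∀ c, TQ M Q a c → ∀ d, Q d = 0 → polar Q a d = 0 → polar Q c d ≠ 0 → ∀ k : F, TQ M Q a (k • d) := by
    intro c h d hd hda hcd k
    obtain ⟨f, hf, hfq⟩ := exists_list_ns hQ [a, d] (by simp; omega)
    have hfa : polar Q a f = 0 := by rw [pc]; exact hf a (by simp)
    have hfd : polar Q d f = 0 := by rw [pc]; exact hf d (by simp)
    have hsq : ∀ l : F, TQ M Q a ((-(2 * Q f * polar Q c d) * (l * l)) • d) := by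
      intro l
      have h1 := N c h (l • d) f (by rw [qsmul, hd, mul_zero]) (by rw [psr, hda, mul_zero]) hfa (by rw [psl, hfd, mul_zero])
      have h2 := N c h (l • d) (-f) (by rw [qsmul, hd, mul_zero]) (by rw [psr, hda, mul_zero])
        (by rw [polar_neg_right, hfa, neg_zero]) (by rw [polar_neg_right, psl, hfd, mul_zero, neg_zero])
      have h3 := h1.add_right h2
      have e : polar Q c f • l • d - polar Q c (l • d) • f - (Q f * polar Q c (l • d)) • l • d +
          (polar Q c (-f) • l • d - polar Q c (l • d) • -f - (Q (-f) * polar Q c (l • d)) • l • d) =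
          (-(2 * Q f * polar Q c d) * (l * l)) • d := by
        rw [polar_neg_right, QuadraticMap.map_neg, psr]
        module
      rwa [e] at h3
    have hne : -(2 * Q f * polar Q c d) ≠ 0 := neg_ne_zero.2 (mul_ne_zero (mul_ne_zero h2 hfq) hcd)
    obtain ⟨x, y, hxy⟩ := sum_two_squares h2 (k / -(2 * Q f * polar Q c d))
    have h3 := (hsq x).add_right (hsq y)
    rw [← add_smul, ← mul_add, hxy, mul_div_cancel₀ _ hne] at h3
    exact h3
  -- the perp of `a`, `d`
  have A4 : ∀ c, TQ M Q a c → ∀ d, Q d = 0 → polar Q a d = 0 → polar Q c d ≠ 0 → ∀ f, polar Q a f = 0 → polar Q d f = 0 →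
      TQ M Q a f := by
    intro c h d hd hda hcd f hfa hfd
    have hcd' : -(polar Q c d) ≠ 0 := neg_ne_zero.2 hcd
    have h1 := N c h d ((-(polar Q c d))⁻¹ • f) hd hda (by rw [psr, hfa, mul_zero]) (by rw [psr, hfd, mul_zero])
    have h3 := A2 c h d hd hda hcd (polar Q c ((-(polar Q c d))⁻¹ • f) - (Q ((-(polar Q c d))⁻¹ • f) * polar Q c d))
    have h4 := h1.sub_right h3
    have e : polar Q c ((-(polar Q c d))⁻¹ • f) • d - polar Q c d • (-(polar Q c d))⁻¹ • f -
        (Q ((-(polar Q c d))⁻¹ • f) * polar Q c d) • d -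
        (polar Q c ((-(polar Q c d))⁻¹ • f) - (Q ((-(polar Q c d))⁻¹ • f) * polar Q c d)) • d = f := by
      have e1 : polar Q c d • (-(polar Q c d))⁻¹ • f = -f := by
        rw [smul_smul]
        have : polar Q c d * (-(polar Q c d))⁻¹ = -1 := by field_simp
        rw [this, neg_one_smul]
      rw [e1]; module
    rwa [e] at h4
  have hca : polar Q c a = 0 := by rw [pc]; exact h.1
  obtain ⟨d, hd, hda, hdc⟩ := exists_sing_perp_ne hQ h2 hfr hc (Or.inr hca)
  have hda' : polar Q a d = 0 := by rw [pc]; exact hda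
  have hcd : polar Q c d ≠ 0 := by rw [pc]; exact hdc
  -- a second one
  obtain ⟨c₁, hc₁, hc₁q⟩ := exists_list_ns hQ [a, d] (by simp; omega)
  have hc₁a : polar Q a c₁ = 0 := by rw [pc]; exact hc₁ a (by simp)
  have hc₁d : polar Q d c₁ = 0 := by rw [pc]; exact hc₁ d (by simp)
  have hT₁ := A4 c h d hd hda' hcd c₁ hc₁a hc₁d
  have hs1 : ∀ z : ι → F, ({x | x ∈ [z]} : Set (ι → F)) = {z} := by intro z; ext; simp
  have hs2 : ∀ z w : ι → F, ({x | x ∈ [z, w]} : Set (ι → F)) = {z, w} := by intro z w; ext; simp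
  have hc₁n : c₁ ∉ Submodule.span F {x | x ∈ [a]} := by
    intro hm
    rw [hs1] at hm
    obtain ⟨k, rfl⟩ := Submodule.mem_span_singleton.1 hm
    exact hc₁q (by rw [qsmul, ha, mul_zero])
  obtain ⟨d₁, hd₁, hd₁a, hd₁c⟩ := exists_sing_perp_ne hQ h2 hfr hc₁n (Or.inl hc₁q)
  have hd₁a' : polar Q a d₁ = 0 := by rw [pc]; exact hd₁a
  have hcd₁ : polar Q c₁ d₁ ≠ 0 := by rw [pc]; exact hd₁c
  have hdn : d ∉ Submodule.span F {x | x ∈ [a, d₁]} := by
    intro hm
    rw [hs2] at hm
    obtain ⟨α, β, hab⟩ := Submodule.mem_span_pair.1 hm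
    have h1 := congrArg (fun z => polar Q z c₁) hab
    simp only [pal, psl, hc₁a, hc₁d, mul_zero, zero_add] at h1
    have h3 := (mul_eq_zero.1 h1).resolve_right hd₁c
    rw [h3, zero_smul, add_zero] at hab
    apply hdc
    rw [← hab, psl, h.1, mul_zero]
  obtain ⟨e, he, hed⟩ := exists_sep hQ [a, d₁] hdn
  intro t hta
  have hta' : polar Q a t = 0 := by rw [pc]; exact hta
  have hea : polar Q a e = 0 := by rw [pc]; exact he a (by simp)
  have hed₁ : polar Q d₁ e = 0 := by rw [pc]; exact he d₁ (by simp)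
  have t1 := A4 c h d hd hda' hcd (t - polar Q t d • e) (by rw [pdr, psr, hta', hea]; ring)
    (by rw [pdr, psr, pc Q d e, hed, pc Q d t]; ring)
  have t2 := A4 c₁ hT₁ d₁ hd₁ hd₁a' hcd₁ (polar Q t d • e) (by rw [psr, hea, mul_zero]) (by rw [psr, hed₁, mul_zero])
  have t3 := t1.add_right t2
  rwa [sub_add_cancel] at t3

/-- the special linear group from one transvection with singular centre -/
theorem sl_le_of_tq [Nontrivial ι] (hQ : (polarBilin Q).Nondegenerate) (h2 : (2 : F) ≠ 0) (hN : 6 ≤ Fintype.card ι)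
    (hS : Sie M Q) {a c : ι → F} (ha : Q a = 0) (ha0 : a ≠ 0)
    (hc : c ∉ Submodule.span F {x | x ∈ [a]}) (h : TQ M Q a c) : Cfsg.Geo.specialLinear ι F ≤ M := by
  have hfr : 6 ≤ finrank F (ι → F) := by rw [Module.finrank_fintype_fun_eq_card]; exact hN
  have h1 := tq_all hQ h2 hN hS ha hc h
  -- all singular centres
  have hsing : ∀ a', Q a' = 0 → ∀ t, polar Q t a' = 0 → TQ M Q a' t := by
    intro a' ha' t ht
    by_cases ha'0 : a' = 0
    · rw [ha'0]
      exact ⟨polar_zero_left Q t, 1, M.one_mem, fun x => by simp⟩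
    obtain ⟨g, hg, k, hk, hga⟩ := exists_mem_move_proj hQ (by omega) hS ha ha' ha0 ha'0
    have h3 := (h1 (((g⁻¹ : OGrp Q) : (ι → F) ≃ₗ[F] (ι → F)) (k⁻¹ • t)) (by
      rw [← OGrp_polar g, coe_apply_inv_self, hga, psl, psr, ht, mul_zero, mul_zero])).conj hg
    rw [hga, coe_apply_inv_self] at h3
    have h4 := h3.smul_right
    rwa [smul_smul, mul_inv_cancel₀ hk, one_smul] at h4
  -- all centres
  have hall : ∀ v c, polar Q v c = 0 → TQ M Q v c := by
    intro v c hvc
    by_cases hv : Q v = 0
    · exact hsing v hv c (by rw [pc]; exact hvc)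
    have hvl : v ∉ Submodule.span F {x | x ∈ [c]} := by
      intro hm
      have e : ({x | x ∈ [c]} : Set (ι → F)) = {c} := by ext z; simp
      rw [e] at hm
      obtain ⟨k, rfl⟩ := Submodule.mem_span_singleton.1 hm
      rw [psl, pself] at hvc
      rw [qsmul] at hv
      have hk : k ≠ 0 := by rintro rfl; apply hv; ring
      have hqc : Q c ≠ 0 := by intro h0; apply hv; rw [h0, mul_zero]
      exact mul_ne_zero hk (mul_ne_zero h2 hqc) hvc
    obtain ⟨s, hs, hsc, hsv⟩ := exists_sing_perp_ne hQ h2 hfr hvl (Or.inl hv)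
    -- rescale
    set s' := (Q v / polar Q s v) • s with hs'
    have hs'q : Q s' = 0 := by rw [hs', qsmul, hs, mul_zero]
    have hs'c : polar Q s' c = 0 := by rw [hs', psl, hsc, mul_zero]
    have hs'v : polar Q s' v = Q v := by rw [hs', psl, div_mul_cancel₀ _ hsv]
    have h3 := hsing s' hs'q c (by rw [pc]; exact hs'c)
    have h4 := hsing (v - s') (by rw [qsub, hs'q, pc, hs'v]; ring) c (by rw [pdr, pc, hvc, pc, hs'c, sub_zero])
    have h5 := h3.add_left h4
    rwa [add_sub_cancel] at h5
  refine specialLinear_le_of_hasT M fun v w hw => ?_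
  obtain ⟨c, hcx⟩ := exists_polar_eq hQ (dotLin w)
  have hcx' : ∀ x, polar Q x c = w ⬝ᵥ x := fun x => by rw [pc]; exact hcx x
  obtain ⟨-, g, hg, hgx⟩ := hall v c (by rw [hcx', hw])
  refine ⟨hw, g, hg, ?_⟩
  apply Matrix.ext_of_mulVec_single
  intro i
  rw [hgx, hcx', Matrix.add_mulVec, Matrix.one_mulVec, Matrix.vecMulVec_mulVec]
  simp

/-- the case of a transvection with `c` proportional to the centre -/
theorem sl_le_of_tq_self [Nontrivial ι] (hQ : (polarBilin Q).Nondegenerate) (h2 : (2 : F) ≠ 0) (hN : 6 ≤ Fintype.card ι)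
    (hS : Sie M Q) {a : ι → F} (ha : Q a = 0) (ha0 : a ≠ 0) {k : F} (hk : k ≠ 0)
    (h : TQ M Q a (k • a)) : Cfsg.Geo.specialLinear ι F ≤ M := by
  have hfr : 6 ≤ finrank F (ι → F) := by rw [Module.finrank_fintype_fun_eq_card]; exact hN
  have haa : polar Q a a = 0 := by rw [pself, ha, mul_zero]
  -- an opposite singular vector
  obtain ⟨y, hy, hya⟩ := exists_sep hQ [] (z := a) (by
    intro hm
    have e : ({x | x ∈ ([] : List (ι → F))} : Set (ι → F)) = ∅ := by ext z; simp
    rw [e, Submodule.span_empty, Submodule.mem_bot] at hm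
    exact ha0 hm)
  obtain ⟨b, hb, hbl⟩ := repV hQ [a] (by simp; omega) y 0
  have hba : polar Q b a = 1 := by rw [hbl a (by simp), hya]
  have hab : polar Q a b = 1 := by rw [pc]; exact hba
  have hbb : polar Q b b = 0 := by rw [pself, hb, mul_zero]
  have hb0 : b ≠ 0 := by rintro rfl; rw [polar_zero_left] at hba; exact one_ne_zero hba.symm
  obtain ⟨g, hg, m, hm, hgb⟩ := exists_mem_move_proj hQ (by omega) hS ha hb ha0 hb0
  obtain ⟨l, hl, hTb⟩ : ∃ l : F, l ≠ 0 ∧ TQ M Q b (l • b) := by
    refine ⟨m * k * m, mul_ne_zero (mul_ne_zero hm hk) hm, ?_⟩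
    have := h.conj hg
    rw [map_smul, hgb] at this
    have h3 := this.smul_right
    rwa [smul_smul, smul_smul] at h3
  -- conjugate the first by the second
  have huw : TQ M Q (a + l • b) (k • (a - l • b)) := by
    obtain ⟨-, t, ht, htx⟩ := h
    obtain ⟨-, s, hs, hsx⟩ := hTb
    refine ⟨?_, s * t * s⁻¹, M.mul_mem (M.mul_mem hs ht) (M.inv_mem hs), fun x => ?_⟩
    · rw [psr, pdr, pal, pal, psl, psl, psr, psr, haa, hba, hab, hbb]; ring
    · obtain ⟨y, rfl⟩ : ∃ y, x = (s : Matrix ι ι F) *ᵥ y := ⟨_, (gl_mulVec_inv s x).symm⟩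
      rw [gl_mul_mulVec, gl_mul_mulVec, gl_inv_mulVec, htx, Matrix.mulVec_add, Matrix.mulVec_smul, hsx y, hsx a]
      simp only [psr, pdr, pal, psl, hab, hba, haa, hbb]
      module
  -- a singular vector orthogonal to both
  have hX := Symp.finrank_span_list_le (K := F) [a, b]
  have h4 := finrank_perp hQ (Submodule.span F {x | x ∈ [a, b]})
  simp only [List.length_cons, List.length_nil] at hX
  obtain ⟨d, hd1, hd0, hd⟩ := exists_sing_mem Q (perp Q (Submodule.span F {x | x ∈ [a, b]})) (by omega)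
  have hda : polar Q d a = 0 := by rw [pc]; exact hd1 a (Submodule.subset_span (by simp))
  have hdb : polar Q d b = 0 := by rw [pc]; exact hd1 b (Submodule.subset_span (by simp))
  -- `e` orthogonal to `d`, `w` but not `u`
  have hun : a + l • b ∉ Submodule.span F {x | x ∈ [d, k • (a - l • b)]} := by
    intro hm
    have e : ({x | x ∈ [d, k • (a - l • b)]} : Set (ι → F)) = {d, k • (a - l • b)} := by ext z; simp
    rw [e] at hm
    obtain ⟨α, β, hab'⟩ := Submodule.mem_span_pair.1 hm
    have e1 := congrArg (fun z => polar Q z a) hab'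
    have e2 := congrArg (fun z => polar Q z b) hab'
    simp only [pal, psl, pdl, hda, hdb, haa, hab, hba, hbb] at e1 e2
    have e3 : l * (2 : F) = 0 := by linear_combination (-l) * e2 - e1
    exact (mul_ne_zero hl h2) e3
  obtain ⟨e, he, heu⟩ := exists_sep hQ [d, k • (a - l • b)] hun
  have hed := he d (by simp)
  have hew := he _ (by simp : k • (a - l • b) ∈ [d, k • (a - l • b)])
  obtain ⟨h1', h2', h3'⟩ := hS d e hd (by rw [pc]; exact hed)
  have h5 := huw.conj h3'
  have hud : polar Q (a + l • b) d = 0 := by rw [pal, psl, pc Q a d, pc Q b d, hda, hdb]; ring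
  have hwd : polar Q (k • (a - l • b)) d = 0 := by rw [psl, pdl, psl, pc Q a d, pc Q b d, hda, hdb]; ring
  rw [eich_apply, eich_apply, pc Q _ e, heu, hud, pc Q (k • (a - l • b)) e, hew, hwd] at h5
  simp only [mul_zero, one_smul, zero_smul, add_zero, sub_zero] at h5
  have h6 := h5.sub_left huw
  rw [add_sub_cancel_left] at h6
  refine sl_le_of_tq hQ h2 hN hS hd hd0 ?_ h6
  intro hm
  have e : ({x | x ∈ [d]} : Set (ι → F)) = {d} := by ext z; simp
  rw [e] at hm
  obtain ⟨α, hα⟩ := Submodule.mem_span_singleton.1 hm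
  have e1 := congrArg (fun z => polar Q z b) hα
  simp only [psl, pdl, hdb, hab, hbb] at e1
  apply hk
  linear_combination -e1

/-- any transvection with singular centre will do -/
theorem sl_le_of_tq' [Nontrivial ι] (hQ : (polarBilin Q).Nondegenerate) (h2 : (2 : F) ≠ 0) (hN : 6 ≤ Fintype.card ι)
    (hS : Sie M Q) {a c : ι → F} (ha : Q a = 0) (ha0 : a ≠ 0) (hc : c ≠ 0) (h : TQ M Q a c) :
    Cfsg.Geo.specialLinear ι F ≤ M := by
  by_cases hm : c ∈ Submodule.span F {x | x ∈ [a]}
  · have e : ({x | x ∈ [a]} : Set (ι → F)) = {a} := by ext z; simp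
    rw [e] at hm
    obtain ⟨k, rfl⟩ := Submodule.mem_span_singleton.1 hm
    exact sl_le_of_tq_self hQ h2 hN hS ha ha0 (by rintro rfl; exact hc (zero_smul _ _)) h
  · exact sl_le_of_tq hQ h2 hN hS ha ha0 hm h

end fin

variable [Finite F]

/-- two forms agreeing at a common singular vector -/
theorem sl_le_of_two [Nontrivial ι] (hQ : (polarBilin Q).Nondegenerate) (h2 : (2 : F) ≠ 0) (hN : 6 ≤ Fintype.card ι)
    (hS : Sie M Q) (Q' : QuadraticForm F (ι → F)) (hS' : Sie M Q') {a : ι → F} (ha0 : a ≠ 0) (ha : Q a = 0)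
    (hP : ∀ x, polar Q' x a = polar Q x a) (hne : ¬ ∀ x, Q' x = Q x) : Cfsg.Geo.specialLinear ι F ≤ M := by
  have hfr : 6 ≤ finrank F (ι → F) := by rw [Module.finrank_fintype_fun_eq_card]; exact hN
  have key : ∀ a b : ι → F, a ≠ 0 → Q a = 0 → (∀ x, polar Q' x a = polar Q x a) → polar Q b a = 0 →
      (∃ x, polar Q' x b ≠ polar Q x b) → Cfsg.Geo.specialLinear ι F ≤ M := by
    intro a b ha0 ha hP hba hx
    have ha' : Q' a = 0 := by
      have h1 := hP a
      rw [pself, pself, ha] at h1
      exact (mul_eq_zero.1 (h1.trans (mul_zero 2))).resolve_left h2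
    have haa : polar Q a a = 0 := by rw [pself, ha, mul_zero]
    have hab : polar Q a b = 0 := by rw [pc]; exact hba
    have hb'a : polar Q' b a = 0 := by rw [hP]; exact hba
    have ha'b : polar Q' a b = 0 := by rw [pc]; exact hb'a
    obtain ⟨g, hg, hgx⟩ := hS.elt ha hab
    obtain ⟨g', hg', hgx'⟩ := hS'.elt ha' (b := -b) (by rw [polar_neg_right, ha'b, neg_zero])
    obtain ⟨e, he⟩ := exists_polar_eq hQ ((polarBilin Q').flip b)
    have he' : ∀ x, polar Q x e = polar Q' x b := fun x => by rw [pc]; exact he x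
    have hc : ∀ x, polar Q x (b - e + (Q' b - Q b) • a) = polar Q x b - polar Q' x b + (Q' b - Q b) * polar Q x a := by
      intro x
      rw [par, pdr, psr, he']
    refine sl_le_of_tq' hQ h2 hN hS ha ha0 (c := b - e + (Q' b - Q b) • a) ?_ ?_
    · intro h0
      have h3 : ∀ x, polar Q x b - polar Q' x b + (Q' b - Q b) * polar Q x a = 0 := by
        intro x; rw [← hc, h0, polar_zero_right]
      have h4 := h3 b
      rw [pself, pself, hba] at h4
      have h5 : (2 : F) * (Q b - Q' b) = 0 := by linear_combination h4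
      have h6 := (mul_eq_zero.1 h5).resolve_left h2
      obtain ⟨x, hx⟩ := hx
      apply hx
      have h7 := h3 x
      linear_combination -h7 - (polar Q x a) * h6
    · refine ⟨?_, g' * g, M.mul_mem hg' hg, fun x => ?_⟩
      · rw [hc, hab, ha'b, haa]; ring
      · rw [gl_mul_mulVec, hgx, hgx', hc, QuadraticMap.map_neg]
        simp only [polar_neg_right, pal, pdl, psl, hP, haa, hba, ha'b, pself Q' b]
        module
  by_cases hb : ∃ b, polar Q b a = 0 ∧ ∃ x, polar Q' x b ≠ polar Q x b
  · obtain ⟨b, hba, hx⟩ := hb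
    exact key a b ha0 ha hP hba hx
  · push Not at hb
    -- another singular vector
    obtain ⟨C, hC⟩ := Submodule.exists_isCompl (Submodule.span F {a})
    have h5 := Submodule.finrank_add_eq_of_isCompl hC
    rw [finrank_span_singleton ha0] at h5
    have h6 := Submodule.finrank_sup_add_finrank_inf_eq (perp Q (Submodule.span F {a})) C
    have h7 := Submodule.finrank_le (perp Q (Submodule.span F {a}) ⊔ C)
    have h4 := finrank_perp hQ (Submodule.span F {a})
    rw [finrank_span_singleton ha0] at h4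
    obtain ⟨d, ⟨hd1, hd2⟩, hd0, hd⟩ := exists_sing_mem Q (perp Q (Submodule.span F {a}) ⊓ C) (by omega)
    have hda : polar Q d a = 0 := mem_perp_one.1 hd1
    have had : a ∉ Submodule.span F {x | x ∈ [d]} := by
      intro hm
      have e : ({x | x ∈ [d]} : Set (ι → F)) = {d} := by ext z; simp
      rw [e] at hm
      obtain ⟨α, hα⟩ := Submodule.mem_span_singleton.1 hm
      have := hC.disjoint
      rw [Submodule.disjoint_def] at this
      exact ha0 (this a (Submodule.mem_span_singleton_self a) (by rw [← hα]; exact C.smul_mem _ hd2))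
    obtain ⟨z, hz, hza⟩ := exists_sep hQ [d] had
    refine key d z hd0 hd (hb d hda) (hz d (by simp)) ?_
    by_contra hcon
    push Not at hcon
    apply hne
    have hpol : ∀ x y, polar Q' y x = polar Q y x := by
      intro x y
      have h1 := hb (x - polar Q x a • z) (by rw [pdl, psl, hza, mul_one, sub_self]) y
      rw [pdr, pdr, psr, psr, hcon y] at h1
      linear_combination h1
    intro x
    have h1 := hpol x x
    rw [pself, pself] at h1
    exact mul_left_cancel₀ h2 h1

/-- two non-proportional forms -/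
theorem sl_le_of_not_prop [Nontrivial ι] (hQ : (polarBilin Q).Nondegenerate) (h2 : (2 : F) ≠ 0) (hN : 6 ≤ Fintype.card ι)
    (hS : Sie M Q) (Q' : QuadraticForm F (ι → F)) (hQ' : (polarBilin Q').Nondegenerate) (hS' : Sie M Q')
    (hne : ¬ ∃ c : F, ∀ x, Q' x = c * Q x) : Cfsg.Geo.specialLinear ι F ≤ M := by
  have hfr : 6 ≤ finrank F (ι → F) := by rw [Module.finrank_fintype_fun_eq_card]; exact hN
  obtain ⟨a, ha0, ha, ha'⟩ := exists_common_sing (by omega) Q Q'
  by_cases hc : ∃ c : F, ∀ x, polar Q' x a = c * polar Q x a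
  · obtain ⟨c, hc⟩ := hc
    have hc0 : c ≠ 0 := by
      rintro rfl
      apply ha0
      refine hQ'.1 a fun x => ?_
      rw [pbil, pc, hc, zero_mul]
    refine sl_le_of_two hQ h2 (by omega) hS (c⁻¹ • Q') (hS'.smul (inv_ne_zero hc0)) ha0 ha (fun x => ?_) (fun h => hne ⟨c, fun x => ?_⟩)
    · have : polar (c⁻¹ • Q') x a = c⁻¹ * polar Q' x a := by
        simp only [QuadraticMap.polar, _root_.smul_apply, smul_eq_mul]; ring
      rw [this, hc, ← mul_assoc, inv_mul_cancel₀ hc0, one_mul]
    · rw [← h x]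
      have : (c⁻¹ • Q') x = c⁻¹ * Q' x := by simp
      rw [this, ← mul_assoc, mul_inv_cancel₀ hc0, one_mul]
  · have hs1 : ∀ z : ι → F, ({x | x ∈ [z]} : Set (ι → F)) = {z} := by intro z; ext; simp
    have haa : polar Q a a = 0 := by rw [pself, ha, mul_zero]
    have haa' : polar Q' a a = 0 := by rw [pself, ha', mul_zero]
    -- a vector orthogonal to `a` for `Q` but not for `Q'`
    obtain ⟨x₁, hx₁, hx₁'⟩ : ∃ x₁, polar Q x₁ a = 0 ∧ polar Q' x₁ a ≠ 0 := by
      by_contra hcon
      push Not at hcon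
      obtain ⟨z, hz⟩ := exists_polar_ne hQ ha0
      apply hc
      refine ⟨polar Q' z a / polar Q z a, fun x => ?_⟩
      have h11 := hcon (x - (polar Q x a / polar Q z a) • z) (by
        rw [pdl, psl, div_mul_cancel₀ _ hz, sub_self])
      rw [pdl, psl] at h11
      rw [sub_eq_zero.1 h11]
      field_simp
    by_contra hSL
    -- the key equation
    have key : ∀ b x, polar Q b a = 0 → polar Q' b a = 0 → polar Q x a = 0 → polar Q' x a ≠ 0 →
        polar Q x b = polar Q' x a * Q b := by
      intro b x hb hb' hx hx'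
      obtain ⟨g, hg, hgx⟩ := hS'.elt ha' (b := b) (by rw [pc]; exact hb')
      let Q'' : QuadraticForm F (ι → F) := Q.comp (Matrix.mulVecLin (g : Matrix ι ι F))
      have hQ'' : ∀ x, Q'' x = Q ((g : Matrix ι ι F) *ᵥ x) := fun x => rfl
      have hS'' : Sie M Q'' := by
        refine hS.conj (M.inv_mem hg) fun x => ?_
        rw [hQ'', gl_mulVec_inv]
      have hP'' : ∀ x y, polar Q'' x y = polar Q ((g : Matrix ι ι F) *ᵥ x) ((g : Matrix ι ι F) *ᵥ y) := by
        intro x y
        simp only [QuadraticMap.polar, hQ'', Matrix.mulVec_add]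
      have hab' : polar Q' a b = 0 := by rw [pc]; exact hb'
      have hab : polar Q a b = 0 := by rw [pc]; exact hb
      by_contra hne'
      apply hSL
      refine sl_le_of_two hQ h2 hN hS Q'' hS'' ha0 ha (fun y => ?_) (fun h => ?_)
      · rw [hP'', hgx y, hgx a, hab', haa']
        simp only [mul_zero, zero_smul, add_zero, sub_zero]
        rw [pdl, pdl, pal, psl, psl, psl, haa, hb]; ring
      · have h1 := h x
        rw [hQ'', hgx] at h1
        simp only [qadd, qsub, qsmul, ha, pal, pdl, pdr, psl, psr, hx, haa, hb, hab, pc Q b a] at h1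
        apply hne'
        have h3 : polar Q' x a * (polar Q x b - polar Q' x a * Q b) = 0 := by linear_combination -h1
        exact sub_eq_zero.1 ((mul_eq_zero.1 h3).resolve_left hx')
    -- so every such `b` is singular and orthogonal to `x`
    have key2 : ∀ b x, polar Q b a = 0 → polar Q' b a = 0 → polar Q x a = 0 → polar Q' x a ≠ 0 → polar Q x b = 0 := by
      intro b x hb hb' hx hx'
      have h1 := key b x hb hb' hx hx'
      have h3 := key ((-1 : F) • b) x (by rw [psl, hb, mul_zero]) (by rw [psl, hb', mul_zero]) hx hx'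
      rw [psr, qsmul] at h3
      have h4 : (2 : F) * polar Q x b = 0 := by linear_combination h1 - h3
      exact (mul_eq_zero.1 h4).resolve_left h2
    -- the perp of `H` is the line of `a`
    have key3 : ∀ b, polar Q b a = 0 → polar Q' b a = 0 → b ∈ Submodule.span F {x | x ∈ [a]} := by
      intro b hb hb'
      by_contra hbn
      obtain ⟨y, hy, hyb⟩ := exists_sep hQ [a] hbn
      have hya := hy a (by simp)
      by_cases h : polar Q' y a = 0
      · have h1 := key2 b (y + x₁) hb hb' (by rw [pal, hya, hx₁, add_zero]) (by rw [pal, h, zero_add]; exact hx₁')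
        have h3 := key2 b x₁ hb hb' hx₁ hx₁'
        rw [pal, hyb, h3, add_zero] at h1
        exact one_ne_zero h1
      · have := key2 b y hb hb' hya h
        rw [hyb] at this
        exact one_ne_zero this
    have k1 := finrank_perp hQ (Submodule.span F {a})
    have k2 := finrank_perp hQ' (Submodule.span F {a})
    rw [finrank_span_singleton ha0] at k1 k2
    have k4 := Submodule.finrank_sup_add_finrank_inf_eq (perp Q (Submodule.span F {a})) (perp Q' (Submodule.span F {a}))
    have k5 := Submodule.finrank_le (perp Q (Submodule.span F {a}) ⊔ perp Q' (Submodule.span F {a}))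
    have k6 : perp Q (Submodule.span F {a}) ⊓ perp Q' (Submodule.span F {a}) ≤ Submodule.span F {a} := by
      rintro b ⟨hb1, hb2⟩
      have := key3 b (mem_perp_one.1 hb1) (mem_perp_one.1 hb2)
      rwa [hs1] at this
    have k7 := Submodule.finrank_mono k6
    rw [finrank_span_singleton ha0] at k7
    omega

/-- **Maximality of the orthogonal similarity group in `SL_n(q)`**, `q` odd. -/
theorem similarity_maximal (hQ : (polarBilin Q).Nondegenerate) (h2 : (2 : F) ≠ 0) (hN : 6 ≤ Fintype.card ι) :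
    Cfsg.Geo.IsMaximalIn (Cfsg.Geo.specialLinear ι F) (Cfsg.Geo.quadSimilarityGroup ⇑Q ⊓ Cfsg.Geo.specialLinear ι F) := by
  have hfr : 6 ≤ finrank F (ι → F) := by rw [Module.finrank_fintype_fun_eq_card]; exact hN
  have hnt : Nontrivial ι := Fintype.one_lt_card_iff_nontrivial.1 (by omega)
  constructor
  · refine lt_of_le_of_ne inf_le_right ?_
    intro heq
    -- a transvection which is not a similarity
    obtain ⟨a, ha0, ha⟩ := exists_sing Q (by omega)
    obtain ⟨C, hC⟩ := Submodule.exists_isCompl (Submodule.span F {a})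
    have h5 := Submodule.finrank_add_eq_of_isCompl hC
    rw [finrank_span_singleton ha0] at h5
    have h6 := Submodule.finrank_sup_add_finrank_inf_eq (perp Q (Submodule.span F {a})) C
    have h7 := Submodule.finrank_le (perp Q (Submodule.span F {a}) ⊔ C)
    have h4 := finrank_perp hQ (Submodule.span F {a})
    rw [finrank_span_singleton ha0] at h4
    obtain ⟨c, ⟨hc1, hc2⟩, hc0, hc⟩ := exists_sing_mem Q (perp Q (Submodule.span F {a}) ⊓ C) (by omega)
    have hca : polar Q c a = 0 := mem_perp_one.1 hc1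
    have hacl : c ∉ Submodule.span F {x | x ∈ [a]} := by
      intro hm
      have e : ({x | x ∈ [a]} : Set (ι → F)) = {a} := by ext z; simp
      rw [e] at hm
      have := hC.disjoint
      rw [Submodule.disjoint_def] at this
      exact hc0 (this c hm hc2)
    have hcal : a ∉ Submodule.span F {x | x ∈ [c]} := by
      intro hm
      have e : ({x | x ∈ [c]} : Set (ι → F)) = {c} := by ext z; simp
      rw [e] at hm
      obtain ⟨α, hα⟩ := Submodule.mem_span_singleton.1 hm
      have := hC.disjoint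
      rw [Submodule.disjoint_def] at this
      exact ha0 (this a (Submodule.mem_span_singleton_self a) (by rw [← hα]; exact C.smul_mem _ hc2))
    -- the row vector
    let w : ι → F := (dotProductEquiv F ι).symm ((polarBilin Q).flip c)
    have hw : ∀ x, w ⬝ᵥ x = polar Q x c := by
      intro x
      have h := congrArg (fun ψ => ψ x) ((dotProductEquiv F ι).apply_symm_apply ((polarBilin Q).flip c))
      exact h
    have hwa : w ⬝ᵥ a = 0 := by rw [hw, pc]; exact hca
    have hmem : tvec a w hwa ∈ Cfsg.Geo.quadSimilarityGroup ⇑Q ⊓ Cfsg.Geo.specialLinear ι F := by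
      rw [heq]; exact tvec_det a w hwa
    obtain ⟨⟨k, hk⟩, -⟩ := hmem
    have hk' : ∀ v, Q v + polar Q v c * polar Q v a = k * Q v := by
      intro v
      have := hk v
      rw [tvec_mulVec, hw, qadd, qsmul, psr, ha] at this
      linear_combination this
    obtain ⟨y₁, hy₁, hy₁c⟩ := exists_sep hQ [a] hacl
    obtain ⟨y₂, hy₂, hy₂a⟩ := exists_sep hQ [c] hcal
    have hy₁a := hy₁ a (by simp)
    have hy₂c := hy₂ c (by simp)
    -- `k = 1`
    obtain ⟨s, hs, hsl⟩ := repV hQ [a] (by simp; omega) 0 1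
    have h8 := hk' s
    rw [hsl a (by simp), polar_zero_left, hs] at h8
    have hk1 : (k : F) = 1 := by linear_combination -h8
    have h9 := hk' (y₁ + y₂)
    rw [hk1, pal, pal, hy₁a, hy₂c, hy₁c, hy₂a] at h9
    exact one_ne_zero (by linear_combination h9 : (1 : F) = 0)
  · intro M hHM hMI
    by_cases hMH : M = Cfsg.Geo.quadSimilarityGroup ⇑Q ⊓ Cfsg.Geo.specialLinear ι F
    · exact Or.inl hMH
    right
    refine le_antisymm hMI ?_
    have hS : Sie M Q := by
      intro a b ha hab
      refine ⟨ha, hab, hHM ⟨⟨1, fun v => ?_⟩, ?_⟩⟩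
      · rw [emGL_mulVec, OGrp_q]; simp
      · have h1 := eich_mem_commutator5 hQ (by omega) ha hab
        have h2 : (Matrix.GeneralLinearGroup.det.comp (emGL Q)) (eich Q a b ha hab) = 1 := by
          have h3 := Abelianization.commutator_subset_ker (Matrix.GeneralLinearGroup.det.comp (emGL Q)) h1
          exact h3
        exact h2
    obtain ⟨g, hgM, hg⟩ : ∃ g ∈ M, g ∉ Cfsg.Geo.quadSimilarityGroup ⇑Q := by
      by_contra hcon
      push Not at hcon
      exact hMH (le_antisymm (fun g hg => ⟨hcon g hg, hMI hg⟩) hHM)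
    let Q' : QuadraticForm F (ι → F) := Q.comp (Matrix.mulVecLin (g : Matrix ι ι F))
    have hQ'v : ∀ x, Q' x = Q ((g : Matrix ι ι F) *ᵥ x) := fun x => rfl
    have hP' : ∀ x y, polar Q' x y = polar Q ((g : Matrix ι ι F) *ᵥ x) ((g : Matrix ι ι F) *ᵥ y) := by
      intro x y
      simp only [QuadraticMap.polar, hQ'v, Matrix.mulVec_add]
    have hQ' : (polarBilin Q').Nondegenerate := by
      have key : ∀ x, (∀ y, polar Q' x y = 0) → x = 0 := by
        intro x hx
        have : (g : Matrix ι ι F) *ᵥ x = 0 := by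
          refine hQ.1 _ fun y => ?_
          rw [pbil]
          have := hx (((g⁻¹ : GL ι F) : Matrix ι ι F) *ᵥ y)
          rwa [hP', gl_mulVec_inv] at this
        exact gl_mulVec_injective g (this.trans (by simp))
      refine ⟨fun x hx => key x hx, fun x hx => key x fun y => ?_⟩
      rw [pc]; exact hx y
    refine sl_le_of_not_prop hQ h2 hN hS Q' hQ' (hS.conj (M.inv_mem hgM) fun x => ?_) ?_
    · rw [hQ'v, gl_mulVec_inv]
    · rintro ⟨c, hc⟩
      apply hg
      have hc0 : c ≠ 0 := by
        rintro rfl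
        obtain ⟨s, hs, -⟩ := repV hQ [] (by simp; omega) 0 1
        have h3 := hc (((g⁻¹ : GL ι F) : Matrix ι ι F) *ᵥ s)
        rw [hQ'v, gl_mulVec_inv, hs, zero_mul] at h3
        exact one_ne_zero h3
      exact ⟨Units.mk0 c hc0, fun v => by rw [← hQ'v, hc]; rfl⟩

end Cfsg.Agent.H94.QS6
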