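import Mathlib
import Cfsg.Agent.TenMax.OrthCase

set_option autoImplicit false
set_option linter.unusedSectionVars false
set_option linter.unusedVariables false

/-!
Frames of spaces of dimension four and of minus type; vanishing of equivariant trilinear maps.
-/

namespace Cfsg.Agent.H94.T34

open Module Cfsg.Agent.TenMax

variable {F : Type*} [Field F] {κ : Type} [Fintype κ] [DecidableEq κ]

/-- Witt index one -/
def Mi (W : SF (RingEquiv.refl F) κ) : Prop :=
  ∀ b c, b ≠ 0 → W.f b b = 0 → W.f c b = 0 → W.f c c = 0 → ∃ t : F, c = t • b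

/-- a frame of a four-dimensional space -/
structure Fr (W : SF (RingEquiv.refl F) κ) (b b' c c' : κ → F) : Prop where
  bb : W.f b b = 0
  bb' : W.f b' b' = 0
  h : W.f b b' = 1
  cb : W.f c b = 0
  cb' : W.f c b' = 0
  c'b : W.f c' b = 0
  c'b' : W.f c' b' = 0
  cc' : W.f c c' = 0
  cc : W.f c c ≠ 0
  c'c' : W.f c' c' ≠ 0
  exp : ∀ y, y = W.f y b' • b + W.f y b • b' + (W.f y c / W.f c c) • c + (W.f y c' / W.f c' c') • c'

variable {W : SF (RingEquiv.refl F) κ}

theorem f_sub_left (u v w : κ → F) : W.f (u - v) w = W.f u w - W.f v w := W.sesq.sub_left u v w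

theorem f_neg_left (u v : κ → F) : W.f (-u) v = - W.f u v := W.sesq.neg_left u v

/-- building frames -/
theorem Fr.mk' (he : W.e = 1) (h4 : Fintype.card κ = 4) {b b' c c' : κ → F}
    (hbb : W.f b b = 0) (hbb' : W.f b' b' = 0) (h : W.f b b' = 1) (cb : W.f c b = 0) (cb' : W.f c b' = 0)
    (c'b : W.f c' b = 0) (c'b' : W.f c' b' = 0) (cc' : W.f c c' = 0) (cc : W.f c c ≠ 0) (c'c' : W.f c' c' ≠ 0) :
    Fr W b b' c c' := by
  refine ⟨hbb, hbb', h, cb, cb', c'b, c'b', cc', cc, c'c', fun y => ?_⟩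
  have s := fun u v => SF.symm1 (X := W) he u v
  let φ : (Fin 4 → F) →ₗ[F] (κ → F) :=
    { toFun := fun t => t 0 • b + t 1 • b' + t 2 • c + t 3 • c'
      map_add' := fun t t' => by simp only [Pi.add_apply]; module
      map_smul' := fun r t => by simp only [Pi.smul_apply, smul_eq_mul, RingHom.id_apply]; module }
  have hφ : ∀ t, φ t = t 0 • b + t 1 • b' + t 2 • c + t 3 • c' := fun t => rfl
  have p0 : ∀ t, W.f (φ t) b' = t 0 := fun t => by
    rw [hφ]; simp only [W.sesq.add_left, W.sesq.smul_left, hbb', h, cb', c'b']; ring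
  have p1 : ∀ t, W.f (φ t) b = t 1 := fun t => by
    rw [hφ]; simp only [W.sesq.add_left, W.sesq.smul_left, hbb, cb, c'b, s b' b, h]; ring
  have p2 : ∀ t, W.f (φ t) c = t 2 * W.f c c := fun t => by
    rw [hφ]; simp only [W.sesq.add_left, W.sesq.smul_left, s b c, s b' c, s c' c, cb, cb', cc']; ring
  have p3 : ∀ t, W.f (φ t) c' = t 3 * W.f c' c' := fun t => by
    rw [hφ]; simp only [W.sesq.add_left, W.sesq.smul_left, s b c', s b' c', c'b, c'b', cc']; ring
  have hinj : Function.Injective φ := by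
    rw [← LinearMap.ker_eq_bot, LinearMap.ker_eq_bot']
    intro t ht
    have q0 := p0 t
    have q1 := p1 t
    have q2 := p2 t
    have q3 := p3 t
    rw [ht, W.zero_left] at q0 q1 q2 q3
    funext i
    fin_cases i
    · exact q0.symm
    · exact q1.symm
    · exact (mul_eq_zero.1 q2.symm).resolve_right cc
    · exact (mul_eq_zero.1 q3.symm).resolve_right c'c'
  have hsurj : Function.Surjective φ :=
    (LinearMap.injective_iff_surjective_of_finrank_eq_finrank (by
      rw [finrank_fin_fun, finrank_fintype_fun_eq_card, h4])).1 hinj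
  obtain ⟨t, rfl⟩ := hsurj y
  rw [p0, p1, p2, p3, mul_div_assoc, mul_div_assoc, div_self cc, div_self c'c', mul_one, mul_one, ← hφ]

theorem exists_pl (l : List (κ → F)) (hl : l.length < Fintype.card κ) : ∃ x ∈ W.pl l, x ≠ 0 := by
  have h1 := W.finrank_pl l
  have h4 : W.pl l ≠ ⊥ := by
    intro h; rw [h, finrank_bot] at h1; omega
  obtain ⟨z, hz, hz0⟩ := Submodule.exists_mem_ne_zero_of_ne_bot h4
  exact ⟨z, hz, hz0⟩

/-- nonsingularity from the Witt index -/
theorem Mi.nonsing (hM : Mi W) {b b' c : κ → F} (hb : b ≠ 0) (hbb : W.f b b = 0) (h : W.f b b' ≠ 0) (cb : W.f c b = 0)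
    (cb' : W.f c b' = 0) (hc : c ≠ 0) : W.f c c ≠ 0 := by
  intro h0
  obtain ⟨t, rfl⟩ := hM b c hb hbb cb h0
  rw [W.sesq.smul_left] at cb'
  rcases mul_eq_zero.1 cb' with h1 | h1
  · rw [h1, zero_smul] at hc; exact hc rfl
  · exact h h1

theorem ne_zero_of_f {b b' : κ → F} (h : W.f b b' ≠ 0) : b ≠ 0 := by
  rintro rfl; exact h (W.zero_left _)

/-- completing a hyperbolic pair and an orthogonal vector -/
theorem Mi.frame3 (hM : Mi W) (he : W.e = 1) (h4 : Fintype.card κ = 4) {b b' c : κ → F}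
    (hbb : W.f b b = 0) (hbb' : W.f b' b' = 0) (h : W.f b b' = 1) (cb : W.f c b = 0) (cb' : W.f c b' = 0) (hc : c ≠ 0) :
    ∃ c', Fr W b b' c c' := by
  have hb : b ≠ 0 := ne_zero_of_f (b' := b') (by rw [h]; exact one_ne_zero)
  have hne : W.f b b' ≠ 0 := by rw [h]; exact one_ne_zero
  obtain ⟨c', hc', hc'0⟩ := exists_pl (W := W) [b, b', c] (by simp [h4])
  have h1 : W.f c' b = 0 := hc' b (by simp)
  have h2 : W.f c' b' = 0 := hc' b' (by simp)
  have h3 : W.f c' c = 0 := hc' c (by simp)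
  exact ⟨c', Fr.mk' he h4 hbb hbb' h cb cb' h1 h2 (W.zero_symm h3) (hM.nonsing hb hbb hne cb cb' hc)
    (hM.nonsing hb hbb hne h1 h2 hc'0)⟩

theorem Mi.frame2 (hM : Mi W) (he : W.e = 1) (h4 : Fintype.card κ = 4) {b b' : κ → F}
    (hbb : W.f b b = 0) (hbb' : W.f b' b' = 0) (h : W.f b b' = 1) : ∃ c c', Fr W b b' c c' := by
  obtain ⟨c, hc, hc0⟩ := exists_pl (W := W) [b, b'] (by simp [h4])
  obtain ⟨c', h'⟩ := hM.frame3 he h4 hbb hbb' h (hc b (by simp)) (hc b' (by simp)) hc0
  exact ⟨c, c', h'⟩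

/-- partners -/
theorem exists_partner (he : W.e = 1) (h2 : (2 : F) ≠ 0) {L : Submodule F (κ → F)} {b : κ → F} (hbL : b ∉ L)
    (hbb : W.f b b = 0) (hL : ∀ l ∈ L, W.f b l = 0) : ∃ b', W.f b' b' = 0 ∧ W.f b b' = 1 ∧ ∀ l ∈ L, W.f b' l = 0 := by
  obtain ⟨x, h1, h3⟩ := W.exists_perp hbL
  have hbx : W.f b x = 1 := by rw [SF.symm1 he, h3]
  refine ⟨x - (W.f x x / 2) • b, ?_, ?_, fun l hl => ?_⟩
  · rw [f_sub_left, W.sub_right, W.sub_right, W.sesq.smul_left, W.sesq.smul_left, SF.smul_r, SF.smul_r, h3, hbx, hbb]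
    field_simp
    ring
  · rw [W.sub_right, SF.smul_r, hbb, hbx]; ring
  · rw [f_sub_left, W.sesq.smul_left, h1 l hl, hL l hl]; ring

theorem Mi.frame1 (hM : Mi W) (he : W.e = 1) (h2 : (2 : F) ≠ 0) (h4 : Fintype.card κ = 4) {b : κ → F} (hb : b ≠ 0)
    (hbb : W.f b b = 0) : ∃ b' c c', Fr W b b' c c' := by
  obtain ⟨b', h1, h3, -⟩ := exists_partner (W := W) he h2 (L := ⊥) (b := b) (by simpa using hb) hbb (by
    intro l hl
    rw [(Submodule.mem_bot F).1 hl, W.zero_right])
  obtain ⟨c, c', h⟩ := hM.frame2 he h4 hbb h1 h3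
  exact ⟨b', c, c', h⟩

/-- frame with given `b` and orthogonal nonsingular `c` -/
theorem Mi.frame_bc (hM : Mi W) (he : W.e = 1) (h2 : (2 : F) ≠ 0) (h4 : Fintype.card κ = 4) {b c : κ → F} (hb : b ≠ 0)
    (hbb : W.f b b = 0) (hcb : W.f c b = 0) (hcc : W.f c c ≠ 0) : ∃ b' c', Fr W b b' c c' := by
  have hc0 : c ≠ 0 := ne_zero_of_f hcc
  have hbL : b ∉ Submodule.span F {c} := by
    intro h
    obtain ⟨t, rfl⟩ := Submodule.mem_span_singleton.1 h
    rw [SF.smul_r] at hcb
    rcases mul_eq_zero.1 hcb with h3 | h3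
    · rw [h3, zero_smul] at hb; exact hb rfl
    · exact hcc h3
  obtain ⟨b', h1, h3, h5⟩ := exists_partner (W := W) he h2 hbL hbb (by
    intro l hl
    obtain ⟨t, rfl⟩ := Submodule.mem_span_singleton.1 hl
    rw [SF.smul_r, W.zero_symm hcb, mul_zero])
  obtain ⟨c', h⟩ := hM.frame3 he h4 hbb h1 h3 hcb (W.zero_symm (h5 c (Submodule.mem_span_singleton_self c))) hc0
  exact ⟨b', c', h⟩

/-- frame with a given nonsingular vector -/
theorem Mi.frame_c [Finite F] (hM : Mi W) (he : W.e = 1) (h2 : (2 : F) ≠ 0) (h4 : Fintype.card κ = 4) {c : κ → F}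
    (hcc : W.f c c ≠ 0) : ∃ b b' c', Fr W b b' c c' := by
  have h1 := W.finrank_pl [c]
  obtain ⟨b, hb, hb0, hbb⟩ := W.exists_iso_mem (U := W.pl [c]) (by
    rw [List.length_cons, List.length_nil] at h1; omega)
  have hbc : W.f b c = 0 := hb c (by simp)
  obtain ⟨b', c', h⟩ := hM.frame_bc he h2 h4 hb0 hbb (W.zero_symm hbc) hcc
  exact ⟨b, b', c', h⟩

/-- swapping the hyperbolic pair -/
theorem Fr.swap (he : W.e = 1) (h4 : Fintype.card κ = 4) {b b' c c' : κ → F} (h : Fr W b b' c c') : Fr W b' b c c' :=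
  Fr.mk' he h4 h.bb' h.bb (by rw [SF.symm1 he]; exact h.h) h.cb' h.cb h.c'b' h.c'b h.cc' h.cc h.c'c'

theorem Fr.swap' (he : W.e = 1) (h4 : Fintype.card κ = 4) {b b' c c' : κ → F} (h : Fr W b b' c c') : Fr W b b' c' c :=
  Fr.mk' he h4 h.bb h.bb' h.h h.c'b h.c'b' h.cb h.cb' (W.zero_symm h.cc') h.c'c' h.cc

/-- Siegel element -/
def E (W : SF (RingEquiv.refl F) κ) (w z y : κ → F) : κ → F :=
  y + W.f y z • w - W.f y w • z - (W.f z z / 2 * W.f y w) • w

section vanish

variable [Finite F] (D : (κ → F) →ₗ[F] (κ → F) →ₗ[F] (κ → F) →ₗ[F] (κ → F))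

/-- the vanishing theorem -/
theorem vanish4 (he : W.e = 1) (h2 : (2 : F) ≠ 0) (h4 : Fintype.card κ = 4) (hM : Mi W)
    (A1 : ∀ w z, w ≠ 0 → W.f w w = 0 → W.f z w = 0 → W.f z z ≠ 0 → ∀ y₁ y₂ y₃, W.f y₁ w = 0 → W.f y₁ z = 0 →
      W.f y₂ w = 0 → W.f y₂ z = 0 → W.f y₃ w = 0 → W.f y₃ z = 0 → D y₁ y₂ y₃ = 0)
    (A2 : ∀ w z, w ≠ 0 → W.f w w = 0 → W.f z w = 0 → W.f z z ≠ 0 → ∀ y, W.f y w = 0 → W.f y z = 0 →
      D y w z = D y z w)
    (A3 : ∀ w z, W.f w w = 0 → W.f z w = 0 → ∀ y₁ y₂ y₃, D (E W w z y₁) (E W w z y₂) (E W w z y₃) = E W w z (D y₁ y₂ y₃)) :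
    D = 0 := by
  have s := fun u v => SF.symm1 (X := W) he u v
  have hne : ∀ {b b' c c'}, Fr W b b' c c' → b ≠ 0 := fun h => ne_zero_of_f (b' := _) (by rw [h.h]; exact one_ne_zero)
  -- the third singular vector
  have hb3 : ∀ {b b' c c'}, Fr W b b' c c' → W.f (b + c - (W.f c c / 2) • b') (b + c - (W.f c c / 2) • b') = 0 := by
    intro b b' c c' h
    simp only [W.sub_right, f_sub_left, W.sesq.add_left, W.sesq.add_right, W.sesq.smul_left, SF.smul_r, h.bb, h.bb', h.h, h.cb,
      h.cb', s b' b, s b c, s b' c]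
    field_simp
    ring
  -- step 1
  have V1 : ∀ c, W.f c c ≠ 0 → ∀ y, D y c c = 0 := by
    intro c hcc y
    obtain ⟨b, b', c', h⟩ := hM.frame_c he h2 h4 hcc
    have key : ∀ {b b' c'}, Fr W b b' c c' → D b c c = 0 ∧ D c c c = 0 := by
      intro b b' c' h
      have h5 := A1 b c' (hne h) h.bb h.c'b h.c'c'
      have h6 : W.f b c' = 0 := W.zero_symm h.c'b
      exact ⟨h5 b c c h.bb h6 h.cb h.cc' h.cb h.cc', h5 c c c h.cb h.cc' h.cb h.cc' h.cb h.cc'⟩
    have k1 := (key h).1
    have k2 := (key h).2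
    have k3 := (key (h.swap he h4)).1
    have k4 : D c' c c = 0 := by
      -- the vector `b + c' - ..` is singular and orthogonal to `c`
      have h' := h.swap' he h4
      have h7 := hb3 h'
      set b₃ := b + c' - (W.f c' c' / 2) • b' with hb₃
      have h8 : W.f b₃ c = 0 := by
        rw [hb₃]
        simp only [f_sub_left, W.sesq.add_left, W.sesq.smul_left, s b c, s b' c, h.cb, h.cb', s c' c, h.cc']; ring
      have h9 : b₃ ≠ 0 := ne_zero_of_f (W := W) (b' := b') (by
        rw [hb₃]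
        simp only [f_sub_left, W.sesq.add_left, W.sesq.smul_left, h.bb', h.h, h.c'b']
        simp)
      obtain ⟨d, d', h10⟩ := hM.frame_bc he h2 h4 h9 h7 (W.zero_symm h8) hcc
      have k5 := (key h10).1
      rw [hb₃, map_sub, map_add, map_smul] at k5
      simp only [LinearMap.sub_apply, LinearMap.add_apply, LinearMap.smul_apply, k1, k3, smul_zero, zero_add, sub_zero] at k5
      exact k5
    rw [h.exp y]
    simp only [map_add, map_smul, LinearMap.add_apply, LinearMap.smul_apply, k1, k2, k3, k4, smul_zero, add_zero]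
  -- step 2
  have V2 : ∀ b, ∀ y, D y b b = 0 := by
    intro b y
    by_cases hbb : W.f b b = 0
    swap
    · exact V1 b hbb y
    by_cases hb : b = 0
    · rw [hb]; simp
    obtain ⟨b', c, c', h⟩ := hM.frame1 he h2 h4 hb hbb
    have k1 := V1 (b + c) (by
      simp only [W.sesq.add_left, W.sesq.add_right, h.bb, h.cb, s b c]; simpa using h.cc) y
    have k2 := V1 (b - c) (by
      simp only [f_sub_left, W.sub_right, h.bb, h.cb, s b c]; simpa using h.cc) y
    have k3 := V1 c h.cc y
    simp only [map_add, map_sub, LinearMap.add_apply, LinearMap.sub_apply, k3] at k1 k2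
    have k4 : (2 : F) • D y b b = 0 := by
      rw [two_smul]
      have := congrArg₂ (· + ·) k1 k2
      simp only [add_zero] at this
      rw [← this]; abel
    exact (smul_eq_zero.1 k4).resolve_left h2
  have anti : ∀ y b c, D y c b = - D y b c := by
    intro y b c
    have k1 := V2 (b + c) y
    simp only [map_add, LinearMap.add_apply, V2, zero_add, add_zero] at k1
    exact eq_neg_of_add_eq_zero_left k1
  -- step 3
  have V3 : ∀ {b b' c c'}, Fr W b b' c c' → D b b c = 0 ∧ D c b c = 0 ∧ D c' b c = 0 := by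
    intro b b' c c' h
    have hb := hne h
    have hbc : W.f b c = 0 := W.zero_symm h.cb
    have hbc' : W.f b c' = 0 := W.zero_symm h.c'b
    have hc'c : W.f c' c = 0 := W.zero_symm h.cc'
    have key : ∀ y, W.f y b = 0 → W.f y c = 0 → D y b c = 0 := by
      intro y hy hy'
      have k1 := A2 b c hb h.bb h.cb h.cc y hy hy'
      rw [anti y b c] at k1
      have k2 : (2 : F) • D y b c = 0 := by
        rw [two_smul]; nth_rw 1 [k1]; rw [neg_add_cancel]
      exact (smul_eq_zero.1 k2).resolve_left h2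
    refine ⟨key b h.bb hbc, ?_, key c' h.c'b hc'c⟩
    exact A1 b c' hb h.bb h.c'b h.c'c' c b c h.cb h.cc' h.bb hbc' h.cb h.cc'
  -- step 4
  have V4 : ∀ {b b' c c'}, Fr W b b' c c' → D b' b c = 0 := by
    intro b b' c c' h
    have hbc : W.f b c = 0 := W.zero_symm h.cb
    have hbc' : W.f b c' = 0 := W.zero_symm h.c'b
    have hb'c : W.f b' c = 0 := W.zero_symm h.cb'
    have hb'c' : W.f b' c' = 0 := W.zero_symm h.c'b'
    have hb'b : W.f b' b = 1 := by rw [s]; exact h.h
    have hc'c : W.f c' c = 0 := W.zero_symm h.cc'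
    set v := D b' b c with hv
    have hbne := hne h
    have hcne : c ≠ 0 := ne_zero_of_f h.cc
    have hc'ne : c' ≠ 0 := ne_zero_of_f h.c'c'
    obtain ⟨k31, k32, k33⟩ := V3 h
    -- first invariance
    have I1 : ∀ z, W.f z b = 0 → W.f z b' = 0 → D z b c = 0 → E W b z v = v := by
      intro z hzb hzb' hz
      rw [hv, ← A3 b z h.bb hzb b' b c]
      have e1 : E W b z b = b := by
        simp only [E, W.zero_symm hzb, h.bb]; simp
      have e2 : E W b z b' = b' - z - (W.f z z / 2) • b := by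
        simp only [E, W.zero_symm hzb', hb'b]; simp
      have e3 : E W b z c = c + W.f c z • b := by
        simp only [E, h.cb]; simp
      rw [e1, e2, e3]
      simp only [map_sub, map_add, map_smul, LinearMap.sub_apply, LinearMap.smul_apply, V2, smul_zero, add_zero, hz, k31, sub_zero]
    have I1c := I1 c h.cb h.cb' k32
    have I1c' := I1 c' h.c'b h.c'b' k33
    -- so `v` is a multiple of `b`
    have q : ∀ z, W.f z b = 0 → W.f z b' = 0 → W.f z z ≠ 0 → E W b z v = v → W.f v b = 0 ∧ W.f v z = 0 := by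
      intro z hzb hzb' hzz hE
      have h5 : W.f v z • b - W.f v b • z - (W.f z z / 2 * W.f v b) • b = 0 := by
        have h6 : E W b z v - v = 0 := by rw [hE, sub_self]
        rw [← h6]; simp only [E]; abel
      have h7 := congrArg (fun y => W.f y z) h5
      simp only [f_sub_left, W.sesq.smul_left, W.zero_left, W.zero_symm hzb, mul_zero, zero_sub, sub_zero, neg_eq_zero] at h7
      have h8 : W.f v b = 0 := (mul_eq_zero.1 h7).resolve_right hzz
      rw [h8, zero_smul, mul_zero, zero_smul, sub_zero, sub_zero] at h5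
      exact ⟨h8, (smul_eq_zero.1 h5).resolve_right hbne⟩
    obtain ⟨q1, q2⟩ := q c h.cb h.cb' h.cc I1c
    obtain ⟨-, q3⟩ := q c' h.c'b h.c'b' h.c'c' I1c'
    have hvb : v = W.f v b' • b := by
      conv_lhs => rw [h.exp v, q1, q2, q3]
      simp
    set r := W.f v b' with hr
    -- second invariance
    have hswap := V3 (h.swap he h4)
    have hd : ∀ t : F, t ≠ 0 → (W.f c c) • D b' b b' = - r • c - (t * W.f c c / 2 * r) • b' := by
      intro t ht
      have h6 := A3 b' (t • c) h.bb' (by rw [W.sesq.smul_left, h.cb', mul_zero]) b' b c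
      have e1 : E W b' (t • c) b' = b' := by
        simp only [E, h.bb', SF.smul_r, hb'c]; simp
      have e2 : E W b' (t • c) b = b - t • c - (t * t * W.f c c / 2) • b' := by
        simp only [E, SF.smul_r, hbc, h.h, W.sesq.smul_left]
        simp only [mul_zero, zero_smul, add_zero, one_smul, mul_one]
        congr 2; ring
      have e3 : E W b' (t • c) c = c + (t * W.f c c) • b' := by
        simp only [E, SF.smul_r, h.cb', W.sesq.smul_left]; simp
      have e4 : E W b' (t • c) v = r • (b - t • c - (t * t * W.f c c / 2) • b') := by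
        rw [hvb]
        simp only [E, SF.smul_r, W.sesq.smul_left, hbc, h.h]
        module
      rw [e1, e2, e3, ← hv, e4] at h6
      simp only [map_sub, map_add, map_smul, LinearMap.sub_apply, LinearMap.smul_apply, V2, smul_zero, add_zero, sub_zero,
        hswap.1, anti b' b' c, neg_zero, ← hv] at h6
      have h7 : (t * W.f c c) • D b' b b' = (-(t * r)) • c - (t * t * W.f c c / 2 * r) • b' := by
        have h8 : v + (t * W.f c c) • D b' b b' = r • (b - t • c - (t * t * W.f c c / 2) • b') := by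
          rw [← h6]
        have h9 : (t * W.f c c) • D b' b b' = r • (b - t • c - (t * t * W.f c c / 2) • b') - v := by rw [← h8]; abel
        rw [h9]
        conv_lhs => rw [hvb]
        module
      have h10 : t • (W.f c c • D b' b b') = t • (- r • c - (t * W.f c c / 2 * r) • b') := by
        rw [smul_smul, h7]; module
      exact smul_right_injective _ ht h10
    have h11 := hd 1 one_ne_zero
    have h12 := hd (-1) (neg_ne_zero.2 one_ne_zero)
    rw [h11] at h12
    have h13 := congrArg (fun y => W.f y b) h12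
    simp only [f_sub_left, W.sesq.smul_left, h.cb, hb'b] at h13
    have h14 : W.f c c * r = 0 := by
      have h15 : (1 : F) * W.f c c / 2 * r = -1 * W.f c c / 2 * r := by linear_combination -h13
      have h16 : W.f c c * r = 0 := by
        field_simp at h15
        have : 2 * (W.f c c * r) = 0 := by linear_combination h15
        exact (mul_eq_zero.1 this).resolve_left h2
      exact h16
    have h17 : r = 0 := (mul_eq_zero.1 h14).resolve_left h.cc
    rw [hvb, h17, zero_smul]
  -- step 5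
  have V5 : ∀ b c, W.f b b = 0 → W.f c b = 0 → ∀ y, D y b c = 0 := by
    intro b c hbb hcb y
    by_cases hb : b = 0
    · rw [hb]; simp
    by_cases hcc : W.f c c = 0
    · obtain ⟨t, rfl⟩ := hM b c hb hbb hcb hcc
      rw [map_smul, V2, smul_zero]
    obtain ⟨b', c', h⟩ := hM.frame_bc he h2 h4 hb hbb hcb hcc
    obtain ⟨k1, k3, k4⟩ := V3 h
    have k2 := V4 h
    rw [h.exp y]
    simp only [map_add, map_smul, LinearMap.add_apply, LinearMap.smul_apply, k1, k2, k3, k4, smul_zero, add_zero]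
  -- step 6
  have V6 : ∀ {b b' c c'}, Fr W b b' c c' → ∀ y, D y b b' = 0 := by
    intro b b' c c' h y
    have hb'b : W.f b' b = 1 := by rw [s]; exact h.h
    have h3 := hb3 h
    set n := W.f c c with hn
    set b₃ := b + c - (n / 2) • b' with hb₃
    have f1 : W.f b₃ b = -(n / 2) := by
      rw [hb₃]; simp only [f_sub_left, W.sesq.add_left, W.sesq.smul_left, h.bb, h.cb, hb'b]; ring
    have f2 : W.f b₃ b' = 1 := by
      rw [hb₃]; simp only [f_sub_left, W.sesq.add_left, W.sesq.smul_left, h.h, h.cb', h.bb']; ring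
    -- `D y b₃` vanishes on `b₃^⊥`
    have k1 := V5 b₃ (b + (n / 2) • b') h3 (by
      rw [W.sesq.add_left, W.sesq.smul_left, s b b₃, s b' b₃, f1, f2]; ring) y
    have k2 := V5 b c h.bb h.cb y
    have k3 := V5 b' c h.bb' h.cb' y
    have k2' : D y c b = 0 := by rw [anti, k2, neg_zero]
    have k3' : D y c b' = 0 := by rw [anti, k3, neg_zero]
    rw [hb₃] at k1
    simp only [map_add, map_sub, map_smul, LinearMap.add_apply, LinearMap.sub_apply, LinearMap.smul_apply, V2, k2', k3',
      anti y b b', smul_zero, add_zero, zero_add, sub_zero] at k1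
    have hn2 : n / 2 + n / 2 = n := by field_simp; ring
    have k4 : n • D y b b' = 0 := by
      rw [← k1, zero_sub, smul_neg, neg_neg, ← add_smul, hn2]
    exact (smul_eq_zero.1 k4).resolve_left h.cc
  -- conclusion
  have V7 : ∀ {b b' c c'}, Fr W b b' c c' → ∀ y z, D y b z = 0 := by
    intro b b' c c' h y z
    rw [h.exp z]
    simp only [map_add, map_smul, V2, V6 h, V5 b c h.bb h.cb, V5 b c' h.bb h.c'b, smul_zero, add_zero]
  obtain ⟨b, hb, hbb⟩ : ∃ b, b ≠ 0 ∧ W.f b b = 0 := by
    obtain ⟨b, -, h1, h3⟩ := W.exists_iso_mem (U := ⊤) (by rw [finrank_top, finrank_fintype_fun_eq_card]; omega)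
    exact ⟨b, h1, h3⟩
  obtain ⟨b', c, c', h⟩ := hM.frame1 he h2 h4 hb hbb
  have V8 : ∀ x, x ≠ 0 → W.f x x = 0 → ∀ y z, D y x z = 0 := by
    intro x hx hxx y z
    obtain ⟨x', d, d', h'⟩ := hM.frame1 he h2 h4 hx hxx
    exact V7 h' y z
  have V9 : ∀ {b b' c c'}, Fr W b b' c c' → ∀ y z, D y c z = 0 := by
    intro b b' c c' h y z
    have f2 : W.f (b + c - (W.f c c / 2) • b') b' = 1 := by
      simp only [f_sub_left, W.sesq.add_left, W.sesq.smul_left, h.h, h.cb', h.bb']; ring
    have k1 := V8 _ (ne_zero_of_f (b' := b') (by rw [f2]; exact one_ne_zero)) (hb3 h) y z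
    have k2 := V7 h y z
    have k3 := V7 (h.swap he h4) y z
    simp only [map_add, map_sub, map_smul, LinearMap.add_apply, LinearMap.sub_apply, LinearMap.smul_apply, k2, k3, smul_zero,
      zero_add, sub_zero] at k1
    exact k1
  apply LinearMap.ext; intro y
  apply LinearMap.ext; intro x
  apply LinearMap.ext; intro z
  rw [h.exp x]
  simp only [map_add, map_smul, LinearMap.add_apply, LinearMap.smul_apply, V7 h, V7 (h.swap he h4), V9 h, V9 (h.swap' he h4),
    smul_zero, add_zero, LinearMap.zero_apply]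

end vanish

end Cfsg.Agent.H94.T34
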