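import Mathlib
import Cfsg.Agent.H94.T34a

set_option autoImplicit false
set_option linter.unusedSectionVars false
set_option linter.unusedVariables false

/-!
The trace step for a second factor of dimension four and of minus type.
-/

namespace Cfsg.Agent.H94.T34

open Module Cfsg.Geo Cfsg.Agent.Asch Matrix Cfsg.Agent.TenMax
open scoped Matrix MatrixGroups Kronecker

/-- sums over free orbits of the additive group of the field -/
theorem sum_zero_of_free_add {F ι M : Type*} [Field F] [Fintype F] [AddCommMonoid M] (π : F → ι → ι)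
    (h0 : ∀ i, π 0 i = i) (hadd : ∀ μ ν i, π (μ + ν) i = π μ (π ν i)) (f : ι → M) : ∀ (s : Finset ι),
    (∀ μ, ∀ i ∈ s, π μ i ∈ s) → (∀ μ, μ ≠ 0 → ∀ i ∈ s, π μ i ≠ i) → (∀ i ∈ s, ∑ μ : F, f (π μ i) = 0) →
    ∑ i ∈ s, f i = 0 := by
  classical
  intro s
  induction h : s.card using Nat.strong_induction_on generalizing s with
  | _ n ih =>
    intro hs hfree hf
    rcases s.eq_empty_or_nonempty with rfl | ⟨i, hi⟩
    · exact Finset.sum_empty
    set o : Finset ι := Finset.univ.image (fun μ : F => π μ i) with ho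
    have hos : o ⊆ s := by
      intro j hj
      obtain ⟨μ, -, rfl⟩ := Finset.mem_image.1 hj
      exact hs μ i hi
    have hinj : Function.Injective (fun μ : F => π μ i) := by
      intro μ ν hμν
      by_contra hne
      have h1 : π (ν - μ) i = i := by
        have h3 : π (-μ) (π μ i) = i := by rw [← hadd, neg_add_cancel, h0]
        have h5 : π (-μ) (π ν i) = π (ν - μ) i := by rw [← hadd]; congr 1; ring
        have h6 : π μ i = π ν i := hμν
        rw [← h5, ← h6, h3]
      exact hfree (ν - μ) (sub_ne_zero.2 (Ne.symm hne)) i hi h1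
    have hio : i ∈ o := Finset.mem_image.2 ⟨0, Finset.mem_univ _, h0 i⟩
    have hsum : ∑ j ∈ o, f j = 0 := by
      rw [ho, Finset.sum_image (fun a _ b _ hab => hinj hab)]
      exact hf i hi
    have hcl : ∀ μ, ∀ j ∈ s \ o, π μ j ∈ s \ o := by
      intro μ j hj
      rw [Finset.mem_sdiff] at hj ⊢
      refine ⟨hs μ j hj.1, fun h1 => hj.2 ?_⟩
      obtain ⟨ν, -, hν⟩ := Finset.mem_image.1 h1
      refine Finset.mem_image.2 ⟨-μ + ν, Finset.mem_univ _, ?_⟩
      have h3 : π (-μ) (π μ j) = j := by rw [← hadd, neg_add_cancel, h0]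
      rw [hadd, show π ν i = π μ j from hν, h3]
    have hcard : (s \ o).card < n := by
      rw [← h]
      apply Finset.card_lt_card
      rw [Finset.ssubset_iff_of_subset Finset.sdiff_subset]
      exact ⟨i, hi, fun h1 => (Finset.mem_sdiff.1 h1).2 hio⟩
    have h3 := ih _ hcard (s \ o) rfl hcl (fun μ hμ j hj => hfree μ hμ j (Finset.mem_sdiff.1 hj).1)
      (fun j hj => hf j (Finset.mem_sdiff.1 hj).1)
    rw [← Finset.sum_sdiff hos, h3, hsum, add_zero]

section sums

variable {F : Type*} [Field F] [Fintype F]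

theorem sum_id_zero (hq : 5 ≤ Fintype.card F) : ∑ μ : F, μ = 0 := by
  have := FiniteField.sum_pow_lt_card_sub_one F 1 (by omega)
  simpa using this

theorem sum_sq_zero (hq : 5 ≤ Fintype.card F) : ∑ μ : F, μ * μ = 0 := by
  have := FiniteField.sum_pow_lt_card_sub_one F 2 (by omega)
  simpa [pow_two] using this

theorem sum_quad {V : Type*} [AddCommGroup V] [Module F V] (hq : 5 ≤ Fintype.card F) (u v w : V) :
    ∑ μ : F, (u + μ • v + (μ * μ) • w) = 0 := by
  rw [Finset.sum_add_distrib, Finset.sum_add_distrib, ← Finset.sum_smul, ← Finset.sum_smul, sum_id_zero hq, sum_sq_zero hq,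
    Finset.sum_const, Finset.card_univ, ← Nat.cast_smul_eq_nsmul F, FiniteField.cast_card_eq_zero]
  simp

end sums

variable {F : Type*} [Field F] {κ : Type} [Fintype κ] [DecidableEq κ]

/-- the trace argument with a group isomorphic to the additive group of the field -/
theorem trace_add [Fintype F] {K : Subgroup (GL κ F)} {t : Tr3 F κ} (x : F → GL κ F) (hxK : ∀ μ, x μ ∈ K)
    (hx0 : x 0 = 1) (hxadd : ∀ μ ν, x (μ + ν) = x μ * x ν) (hxt : ∀ μ, act (x μ) t = t)
    (hxs : ∀ v, ∑ μ : F, (x μ : Matrix κ κ F) *ᵥ v = 0)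
    (hfus : ∀ μ, μ ≠ 0 → ∀ g ∈ K, act (x μ) (act g t) = act g t → act g t = t) (Φ : Tr3 F κ →+ (κ → F))
    (hΦ : ∀ s ∈ orb K t, ∀ μ, Φ (act (x μ) s) = (x μ : Matrix κ κ F) *ᵥ Φ s) : Φ (∑ s ∈ orb K t, s) = Φ t := by
  classical
  rw [← Finset.add_sum_erase _ _ (self_mem_orb (K := K) (t := t)), map_add, map_sum]
  suffices h : ∑ s ∈ (orb K t).erase t, Φ s = 0 by rw [h, add_zero]
  apply sum_zero_of_free_add (F := F) (fun μ => act (x μ)) (fun i => by rw [hx0, act_one])
    (fun μ ν i => by rw [hxadd, act_mul])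
  · intro μ s hs
    rw [Finset.mem_erase] at hs ⊢
    exact ⟨fun h => hs.1 (act_inj (x μ) (h.trans (hxt μ).symm)), act_mem_orb (hxK μ) hs.2⟩
  · intro μ hμ s hs h
    rw [Finset.mem_erase] at hs
    obtain ⟨g, hg, rfl⟩ := mem_orb.1 hs.2
    exact hs.1 (hfus μ hμ g hg h)
  · intro s hs
    rw [Finset.sum_congr rfl fun μ _ => hΦ s (Finset.mem_erase.1 hs).2 μ]
    exact hxs _

/-- evaluation -/
def ev (a b c : κ → F) : Tr3 F κ →+ (κ → F) where
  toFun s := s a b c
  map_zero' := rfl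
  map_add' _ _ := rfl

theorem ev_apply (a b c : κ → F) (s : Tr3 F κ) : ev a b c s = s a b c := rfl

/-- Siegel elements as linear maps -/
def EL (W : SF (RingEquiv.refl F) κ) (w z : κ → F) : (κ → F) →ₗ[F] (κ → F) where
  toFun := E W w z
  map_add' x y := by
    simp only [E, W.sesq.add_left]; module
  map_smul' c x := by
    simp only [E, W.sesq.smul_left, RingHom.id_apply]; module

theorem E_E (he : True) {W : SF (RingEquiv.refl F) κ} (h2 : (2 : F) ≠ 0) {w z : κ → F} (hw : W.f w w = 0) (hz : W.f z w = 0) (μ ν : F)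
    (y : κ → F) : E W w (μ • z) (E W w (ν • z) y) = E W w ((μ + ν) • z) y := by
  have hwz := W.zero_symm hz
  simp only [E, W.sesq.add_left, f_sub_left, W.sesq.smul_left, SF.smul_r, hw, hz, hwz]
  have : ∀ a : F, a / 2 = a * (2 : F)⁻¹ := fun a => div_eq_mul_inv a 2
  have h3 : (2 : F)⁻¹ + (2 : F)⁻¹ = 1 := by field_simp; norm_num
  funext i
  simp only [Pi.add_apply, Pi.sub_apply, Pi.smul_apply, smul_eq_mul, this]
  linear_combination (μ * ν * W.f z z * W.f y w * w i) * h3

section main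

variable {a : ℕ} {T : TData (RingEquiv.refl F) (Fin a) (Fin 4)}

theorem sg_E (he : T.W.e = 1) (w z : Fin 4 → F) (u : Fin a → F) (y : Fin 4 → F) :
    T.sg w (tR z) ((-(T.W.f z z / 2)) • 1) (tz u y) = tz u (E T.W w z y) := by
  rw [sg_tz, he]
  congr 1
  simp only [E]
  module

theorem sieg_cond (he : T.W.e = 1) (h2 : (2 : F) ≠ 0) (z : Fin 4 → F) :
    -(T.W.f z z / 2) + T.W.e * -(T.W.f z z / 2) + T.W.e * T.W.f z z = 0 := by
  rw [he]; field_simp; ring

theorem ext_gl {g h : GL (Fin a × Fin 4) F} (hgh : ∀ (u : Fin a → F) (y : Fin 4 → F),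
    (g : Matrix (Fin a × Fin 4) (Fin a × Fin 4) F) *ᵥ tz u y = (h : Matrix (Fin a × Fin 4) (Fin a × Fin 4) F) *ᵥ tz u y) :
    g = h := by
  apply GeoMax.gl_ext
  intro v
  have : toLin' (g : Matrix (Fin a × Fin 4) (Fin a × Fin 4) F) = toLin' (h : Matrix (Fin a × Fin 4) (Fin a × Fin 4) F) := by
    apply ext_tR
    intro y
    apply LinearMap.ext; intro u
    show toLin' _ (tz u y) = toLin' _ (tz u y)
    rw [toLin'_apply, toLin'_apply]
    exact hgh u y
  rw [← toLin'_apply, this, toLin'_apply]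

theorem eq_zero_of_cL {v : Fin a × Fin 4 → F} (h : ∀ φ, cL φ v = 0) : v = 0 := by
  funext ⟨i, j⟩
  have := congrFun (h (LinearMap.proj i)) j
  exact this

/-- the dichotomy step: all elements preserve the decomposition -/
theorem le_kron4 [Fintype F] (h2 : (2 : F) ≠ 0) (hq : 5 ≤ Fintype.card F) (ha : 1 ≤ a) (hab : a < 4) (heX : T.X.e = 1) (he : T.W.e = 1)
    (hM : Mi T.W) {K : Subgroup (GL (Fin a × Fin 4) F)} (hK : TGrp T K)
    (hline : ∀ g ∈ K, ∀ w w' : Fin 4 → F, w ≠ 0 → T.W.f w w = 0 → w' ≠ 0 →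
      (LinearMap.range (tR w : (Fin a → F) →ₗ[F] (Fin a × Fin 4 → F))).map (toLin' (g : Matrix (Fin a × Fin 4) (Fin a × Fin 4) F)) =
        LinearMap.range (tR w') → g ∈ kroneckerSubgroup a 4 F) : K ≤ kroneckerSubgroup a 4 F := by
  classical
  have hne : ∃ w, w ≠ 0 ∧ T.W.f w w = 0 := by
    obtain ⟨w, -, h1, h3⟩ := T.W.exists_iso_mem (U := ⊤) (by rw [finrank_top, finrank_fin_fun]; omega)
    exact ⟨w, h1, h3⟩
  have hα : Nonempty (Fin a) := ⟨⟨0, by omega⟩⟩
  have hK' : ∀ g ∈ K, act g (tt T) = tt T → g ∈ kroneckerSubgroup a 4 F := by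
    intro g hg hgt
    obtain ⟨w, hw0, hw⟩ := hne
    obtain ⟨w', hw'0, h⟩ := range_of_act_tt hgt hw0 hα
    exact hline g hg w w' hw0 hw hw'0 h
  have hact := fun g hg hg' => act_eq_of_kron (T := T) hK (g := g) hg hg'
  -- the Siegel elements
  have hx : ∀ w z : Fin 4 → F, T.W.f w w = 0 → T.W.f z w = 0 → ∃ x ∈ K, ∀ u y,
      (x : Matrix (Fin a × Fin 4) (Fin a × Fin 4) F) *ᵥ tz u y = tz u (E T.W w z y) := by
    intro w z hw hz
    obtain ⟨x, hx, hxe⟩ := hK.sieg w z (-(T.W.f z z / 2)) hw hz (sieg_cond he h2 z)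
    refine ⟨x, hx, fun u y => ?_⟩
    rw [← toLin'_apply, hxe, sg_E he]
  have hxk : ∀ (w z : Fin 4 → F) (x : GL (Fin a × Fin 4) F), (∀ u y,
      (x : Matrix (Fin a × Fin 4) (Fin a × Fin 4) F) *ᵥ tz u y = tz u (E T.W w z y)) → x ∈ kroneckerSubgroup a 4 F := by
    intro w z x hx
    apply mem_kron_of_tR ha (by norm_num) (A := 1) (h := E T.W w z)
    intro y
    apply LinearMap.ext; intro u
    show toLin' (x : Matrix (Fin a × Fin 4) (Fin a × Fin 4) F) (tz u y) = _
    rw [toLin'_apply, hx]; rfl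
  have hfus : ∀ w z : Fin 4 → F, w ≠ 0 → T.W.f w w = 0 → T.W.f z w = 0 → T.W.f z z ≠ 0 → ∀ x ∈ K, (∀ u y,
      (x : Matrix (Fin a × Fin 4) (Fin a × Fin 4) F) *ᵥ tz u y = tz u (E T.W w z y)) → ∀ g ∈ K,
      act x (act g (tt T)) = act g (tt T) → act g (tt T) = tt T := by
    intro w z hw0 hw hz hzz x hx hxe g hg h
    have h8 : act (g⁻¹ * x * g) (tt T) = tt T := by
      rw [act_mul, act_mul, h, ← act_mul, inv_mul_cancel, act_one]
    have hgi := K.inv_mem hg
    have h9 : g⁻¹ * x * (g⁻¹)⁻¹ ∈ kroneckerSubgroup a 4 F := by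
      rw [inv_inv]
      exact hK' _ (K.mul_mem (K.mul_mem hgi hx) hg) h8
    have hxs : toLin' (x : Matrix (Fin a × Fin 4) (Fin a × Fin 4) F) = T.sg w (tR z) ((-(T.W.f z z / 2)) • 1) := by
      apply ext_tR
      intro y
      apply LinearMap.ext; intro u
      show toLin' _ (tz u y) = T.sg w (tR z) _ (tz u y)
      rw [toLin'_apply, hxe, sg_E he]
    obtain ⟨A, B, hB, hAB⟩ := kron_data h9
    have hs : Short T w z (-(T.W.f z z / 2)) := ⟨hw0, hw, hz, hzz, sieg_cond he h2 z⟩
    have e1 : toLin' ((g⁻¹ : GL (Fin a × Fin 4) F) : Matrix (Fin a × Fin 4) (Fin a × Fin 4) F) *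
        toLin' (((g⁻¹)⁻¹ : GL (Fin a × Fin 4) F) : Matrix (Fin a × Fin 4) (Fin a × Fin 4) F) = 1 := by
      rw [Module.End.mul_eq_comp, ← toLin'_mul, ← Units.val_mul, mul_inv_cancel, Units.val_one, toLin'_one]; rfl
    obtain ⟨w', hw'0, h10⟩ := fusion_short heX h2 (by rw [Fintype.card_fin]; exact ha)
      (by rw [Fintype.card_fin, Fintype.card_fin]; exact hab) hs e1
      (mul_eq_one_comm.1 e1) (hK.iso _ (Has.toLin hgi)) (by rw [← hxs]; exact hK.iso _ (Has.toLin hx)) hB (A := A) (by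
        intro u z'
        rw [← hAB, ← hxs, Units.val_mul, Units.val_mul, toLin'_mul, toLin'_mul]
        rfl)
    have h11 := hline _ hgi w w' hw0 hw hw'0 h10
    have h12 := hact _ hgi h11
    conv_lhs => rw [← h12]
    rw [← act_mul, mul_inv_cancel, act_one]
  set S := ∑ s ∈ orb K (tt T), s with hSd
  have hTri : Tri S := Tri.sum fun s hs => by
    obtain ⟨g, -, rfl⟩ := mem_orb.1 hs
    exact tri_tt.act g
  have hTs : ∀ s ∈ orb K (tt T), Tri s := fun s hs => by
    obtain ⟨g, -, rfl⟩ := mem_orb.1 hs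
    exact tri_tt.act g
  -- the trace argument for one pair
  have htr : ∀ w z : Fin 4 → F, w ≠ 0 → T.W.f w w = 0 → T.W.f z w = 0 → T.W.f z z ≠ 0 →
      ∃ x : F → GL (Fin a × Fin 4) F, (∀ μ u y, (x μ : Matrix (Fin a × Fin 4) (Fin a × Fin 4) F) *ᵥ tz u y = tz u (E T.W w (μ • z) y)) ∧
      (∀ μ, (x μ)⁻¹ = x (-μ)) ∧
      ∀ Φ : Tr3 F (Fin a × Fin 4) →+ (Fin a × Fin 4 → F), (∀ s, Tri s → ∀ μ, Φ (act (x μ) s) =
        (x μ : Matrix (Fin a × Fin 4) (Fin a × Fin 4) F) *ᵥ Φ s) → Φ S = Φ (tt T) := by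
    intro w z hw0 hw hz hzz
    have hx' : ∀ μ : F, ∃ x ∈ K, ∀ u y,
        (x : Matrix (Fin a × Fin 4) (Fin a × Fin 4) F) *ᵥ tz u y = tz u (E T.W w (μ • z) y) := fun μ =>
      hx w (μ • z) hw (by rw [T.W.sesq.smul_left, hz, mul_zero])
    choose x hxK hxe using hx'
    have hx0 : x 0 = 1 := by
      apply ext_gl
      intro u y
      rw [hxe, Units.val_one, one_mulVec]
      congr 1
      simp [E, T.W.zero_right, T.W.zero_left]
    have hxadd : ∀ μ ν, x (μ + ν) = x μ * x ν := by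
      intro μ ν
      apply ext_gl
      intro u y
      rw [hxe, Units.val_mul, ← mulVec_mulVec, hxe, hxe, E_E trivial h2 hw hz]
    refine ⟨x, hxe, fun μ => ?_, fun Φ hΦ => ?_⟩
    · rw [inv_eq_iff_mul_eq_one, ← hxadd, add_neg_cancel, hx0]
    · refine trace_add x hxK hx0 hxadd (fun μ => hact _ (hxK μ) (hxk _ _ _ (hxe μ))) ?_ ?_ Φ (fun s hs μ => hΦ s (hTs s hs) μ)
      · intro v
        have hv : ∀ μ, (x μ : Matrix (Fin a × Fin 4) (Fin a × Fin 4) F) *ᵥ v = v + μ • (tR w (T.ct z v) - tR z (T.ct w v)) +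
            (μ * μ) • (-(T.W.f z z / 2) • tR w (T.ct w v)) := by
          intro μ
          have h5 : toLin' (x μ : Matrix (Fin a × Fin 4) (Fin a × Fin 4) F) = T.sg w (tR (μ • z)) ((-(T.W.f (μ • z) (μ • z) / 2)) • 1) := by
            apply ext_tR
            intro y
            apply LinearMap.ext; intro u
            show toLin' _ (tz u y) = T.sg w (tR (μ • z)) _ (tz u y)
            rw [toLin'_apply, hxe, sg_E he]
          rw [← toLin'_apply, h5, sg_tR_vec, he, ct_smul, tR_smul, T.W.sesq.smul_left, SF.smul_r]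
          simp only [LinearMap.smul_apply, RingEquiv.refl_apply, map_smul]
          module
        rw [Finset.sum_congr rfl fun μ _ => hv μ]
        exact sum_quad hq _ _ _
      · intro μ hμ g hg h
        refine hfus w (μ • z) hw0 hw (by rw [T.W.sesq.smul_left, hz, mul_zero]) ?_ (x μ) (hxK μ) (hxe μ) g hg h
        rw [T.W.sesq.smul_left, SF.smul_r]
        exact mul_ne_zero hμ (mul_ne_zero hμ hzz)
  set δ : Tr3 F (Fin a × Fin 4) := fun p q r => S p q r - tt T p q r with hδ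
  have hδT : Tri δ := hTri.sub tri_tt
  have hfixE : ∀ w z y : Fin 4 → F, T.W.f y w = 0 → T.W.f y z = 0 → ∀ μ : F, E T.W w (μ • z) y = y := by
    intro w z y h1 h3 μ
    simp only [E, SF.smul_r, h1, h3]; simp
  have hzero : ∀ (u₁ u₂ u₃ : Fin a → F) (y₁ y₂ y₃ : Fin 4 → F), δ (tz u₁ y₁) (tz u₂ y₂) (tz u₃ y₃) = 0 := by
    intro u₁ u₂ u₃ y₁ y₂ y₃
    apply eq_zero_of_cL
    intro φ
    let D : (Fin 4 → F) →ₗ[F] (Fin 4 → F) →ₗ[F] (Fin 4 → F) →ₗ[F] (Fin 4 → F) :=
      { toFun := fun y₁ =>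
          { toFun := fun y₂ =>
              { toFun := fun y₃ => cL φ (δ (tz u₁ y₁) (tz u₂ y₂) (tz u₃ y₃))
                map_add' := fun y y' => by rw [tz_add_right, (hδT.l3 _ _).map_add, map_add]
                map_smul' := fun c y => by rw [tz_smul_right, (hδT.l3 _ _).map_smul, map_smul]; rfl }
            map_add' := fun y y' => by
              apply LinearMap.ext; intro y₃
              show cL φ (δ (tz u₁ y₁) (tz u₂ (y + y')) (tz u₃ y₃)) = cL φ _ + cL φ _
              rw [tz_add_right, (hδT.l2 _ _).map_add, map_add]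
            map_smul' := fun c y => by
              apply LinearMap.ext; intro y₃
              show cL φ (δ (tz u₁ y₁) (tz u₂ (c • y)) (tz u₃ y₃)) = c • cL φ _
              rw [tz_smul_right, (hδT.l2 _ _).map_smul, map_smul] }
        map_add' := fun y y' => by
          apply LinearMap.ext; intro y₂
          apply LinearMap.ext; intro y₃
          show cL φ (δ (tz u₁ (y + y')) (tz u₂ y₂) (tz u₃ y₃)) = cL φ _ + cL φ _
          rw [tz_add_right, (hδT.l1 _ _).map_add, map_add]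
        map_smul' := fun c y => by
          apply LinearMap.ext; intro y₂
          apply LinearMap.ext; intro y₃
          show cL φ (δ (tz u₁ (c • y)) (tz u₂ y₂) (tz u₃ y₃)) = c • cL φ _
          rw [tz_smul_right, (hδT.l1 _ _).map_smul, map_smul] }
    have hD : ∀ y₁ y₂ y₃, D y₁ y₂ y₃ = cL φ (δ (tz u₁ y₁) (tz u₂ y₂) (tz u₃ y₃)) := fun _ _ _ => rfl
    have hD0 : D = 0 := by
      apply vanish4 D he h2 (by rw [Fintype.card_fin]) hM
      · -- A1
        intro w z hw0 hw hz hzz y₁ y₂ y₃ h1 h3 h4 h5 h6 h7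
        obtain ⟨x, hxe, hxi, htr'⟩ := htr w z hw0 hw hz hzz
        have hfix : ∀ (u : Fin a → F) (y : Fin 4 → F), T.W.f y w = 0 → T.W.f y z = 0 → ∀ μ,
            (((x μ)⁻¹ : GL (Fin a × Fin 4) F) : Matrix (Fin a × Fin 4) (Fin a × Fin 4) F) *ᵥ tz u y = tz u y := by
          intro u y h h' μ
          rw [hxi, hxe, hfixE w z y h h']
        have h8 := htr' (ev (tz u₁ y₁) (tz u₂ y₂) (tz u₃ y₃)) (by
          intro s hs μ
          simp only [ev_apply, act]
          rw [hfix _ _ h1 h3, hfix _ _ h4 h5, hfix _ _ h6 h7])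
        rw [ev_apply, ev_apply] at h8
        rw [hD, hδ]
        simp only [h8, sub_self, map_zero]
      · -- A2
        intro w z hw0 hw hz hzz y h1 h3
        obtain ⟨x, hxe, hxi, htr'⟩ := htr w z hw0 hw hz hzz
        have hwz := T.W.zero_symm hz
        have hfix : ∀ (u : Fin a → F) (y : Fin 4 → F), T.W.f y w = 0 → T.W.f y z = 0 → ∀ μ,
            (((x μ)⁻¹ : GL (Fin a × Fin 4) F) : Matrix (Fin a × Fin 4) (Fin a × Fin 4) F) *ᵥ tz u y = tz u y := by
          intro u y h h' μ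
          rw [hxi, hxe, hfixE w z y h h']
        have hz' : ∀ (u : Fin a → F) (μ : F),
            (((x μ)⁻¹ : GL (Fin a × Fin 4) F) : Matrix (Fin a × Fin 4) (Fin a × Fin 4) F) *ᵥ tz u z =
              tz u z + (-(μ * T.W.f z z)) • tz u w := by
          intro u μ
          rw [hxi, hxe, ← tz_smul_right, ← tz_add_right]
          congr 1
          simp only [E, SF.smul_r, hz]
          simp
        have h8 := htr' (ev (tz u₁ y) (tz u₂ w) (tz u₃ z) - ev (tz u₁ y) (tz u₂ z) (tz u₃ w)) (by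
          intro s hs μ
          simp only [AddMonoidHom.sub_apply, ev_apply, act]
          rw [hfix _ _ h1 h3, hfix _ _ hw hwz, hfix _ _ hw hwz, hz', hz', (hs.l3 _ _).map_add, (hs.l3 _ _).map_smul,
            (hs.l2 _ _).map_add, (hs.l2 _ _).map_smul, ← mulVec_sub]
          congr 1
          abel)
        simp only [AddMonoidHom.sub_apply, ev_apply] at h8
        rw [hD, hD, hδ]
        simp only
        rw [← sub_eq_zero, ← map_sub]
        have h9 : S (tz u₁ y) (tz u₂ w) (tz u₃ z) - tt T (tz u₁ y) (tz u₂ w) (tz u₃ z) -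
            (S (tz u₁ y) (tz u₂ z) (tz u₃ w) - tt T (tz u₁ y) (tz u₂ z) (tz u₃ w)) = 0 := by
          rw [sub_sub_sub_comm, h8, sub_self]
        rw [h9, map_zero]
      · -- A3
        intro w z hw hz y₁ y₂ y₃
        obtain ⟨x, hxK, hxe⟩ := hx w z hw hz
        have hS1 : act x S = S := act_orb_sum hxK
        have hS2 : act x (tt T) = tt T := hact _ hxK (hxk _ _ _ hxe)
        have hinv : ∀ v, ((x⁻¹ : GL (Fin a × Fin 4) F) : Matrix (Fin a × Fin 4) (Fin a × Fin 4) F) *ᵥ
            ((x : Matrix (Fin a × Fin 4) (Fin a × Fin 4) F) *ᵥ v) = v := by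
          intro v
          rw [mulVec_mulVec, ← Units.val_mul, inv_mul_cancel, Units.val_one, one_mulVec]
        have hkey : ∀ s : Tr3 F (Fin a × Fin 4), act x s = s → s (tz u₁ (E T.W w z y₁)) (tz u₂ (E T.W w z y₂)) (tz u₃ (E T.W w z y₃)) =
            (x : Matrix (Fin a × Fin 4) (Fin a × Fin 4) F) *ᵥ s (tz u₁ y₁) (tz u₂ y₂) (tz u₃ y₃) := by
          intro s hs
          rw [← hxe, ← hxe, ← hxe]
          conv_lhs => rw [← hs]
          simp only [act, hinv]
        rw [hD, hD, hδ]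
        simp only
        rw [hkey S hS1, hkey _ hS2, ← mulVec_sub]
        have hc : cL φ ∘ₗ toLin' (x : Matrix (Fin a × Fin 4) (Fin a × Fin 4) F) = EL T.W w z ∘ₗ cL φ := by
          apply ext_tR
          intro y
          apply LinearMap.ext; intro u
          show cL φ (toLin' _ (tz u y)) = EL T.W w z (cL φ (tz u y))
          rw [toLin'_apply, hxe, cL_tz, cL_tz, map_smul]
          rfl
        exact LinearMap.congr_fun hc _
    rw [← hD, hD0]
    rfl
  have hSt : S = tt T := tri_ext hTri tri_tt fun u u' u'' w w' w'' => sub_eq_zero.1 (hzero u u' u'' w w' w'')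
  intro g hg
  apply hK' g hg
  rw [← hSt]
  exact act_orb_sum hg

end main

end Cfsg.Agent.H94.T34
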