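import Mathlib
import Cfsg.Agent.H94.T34c
import Cfsg.Agent.H94.SmallOrt2

set_option autoImplicit false
set_option linter.unusedSectionVars false
set_option linter.unusedVariables false

/-!
Frames of three-dimensional spaces; skew coefficients.
-/

namespace Cfsg.Agent.H94.T34

open Module Cfsg.Geo Cfsg.Agent.Asch Matrix Cfsg.Agent.TenMax
open scoped Matrix MatrixGroups Kronecker

section three

variable {F : Type*} [Field F] {κ : Type} [Fintype κ] [DecidableEq κ]

/-- a frame of a three-dimensional space -/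
structure Fr3 (X : SF (RingEquiv.refl F) κ) (a a' c : κ → F) : Prop where
  aa : X.f a a = 0
  aa' : X.f a' a' = 0
  h : X.f a a' = 1
  ca : X.f c a = 0
  ca' : X.f c a' = 0
  cc : X.f c c ≠ 0
  exp : ∀ y, y = X.f y a' • a + X.f y a • a' + (X.f y c / X.f c c) • c

variable {X : SF (RingEquiv.refl F) κ}

theorem Fr3.mk' (he : X.e = 1) (h3 : Fintype.card κ = 3) {a a' c : κ → F} (aa : X.f a a = 0) (aa' : X.f a' a' = 0)
    (h : X.f a a' = 1) (ca : X.f c a = 0) (ca' : X.f c a' = 0) (cc : X.f c c ≠ 0) : Fr3 X a a' c := by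
  refine ⟨aa, aa', h, ca, ca', cc, fun y => ?_⟩
  have s := fun u v => SF.symm1 (X := X) he u v
  let φ : (Fin 3 → F) →ₗ[F] (κ → F) :=
    { toFun := fun t => t 0 • a + t 1 • a' + t 2 • c
      map_add' := fun t t' => by simp only [Pi.add_apply]; module
      map_smul' := fun r t => by simp only [Pi.smul_apply, smul_eq_mul, RingHom.id_apply]; module }
  have hφ : ∀ t, φ t = t 0 • a + t 1 • a' + t 2 • c := fun t => rfl
  have p0 : ∀ t, X.f (φ t) a' = t 0 := fun t => by
    rw [hφ]; simp only [X.sesq.add_left, X.sesq.smul_left, aa', h, ca']; ring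
  have p1 : ∀ t, X.f (φ t) a = t 1 := fun t => by
    rw [hφ]; simp only [X.sesq.add_left, X.sesq.smul_left, aa, ca, s a' a, h]; ring
  have p2 : ∀ t, X.f (φ t) c = t 2 * X.f c c := fun t => by
    rw [hφ]; simp only [X.sesq.add_left, X.sesq.smul_left, s a c, s a' c, ca, ca']; ring
  have hinj : Function.Injective φ := by
    rw [← LinearMap.ker_eq_bot, LinearMap.ker_eq_bot']
    intro t ht
    have q0 := p0 t
    have q1 := p1 t
    have q2 := p2 t
    rw [ht, X.zero_left] at q0 q1 q2
    funext i
    fin_cases i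
    · exact q0.symm
    · exact q1.symm
    · exact (mul_eq_zero.1 q2.symm).resolve_right cc
  have hsurj : Function.Surjective φ :=
    (LinearMap.injective_iff_surjective_of_finrank_eq_finrank (by
      rw [finrank_fin_fun, finrank_fintype_fun_eq_card, h3])).1 hinj
  obtain ⟨t, rfl⟩ := hsurj y
  rw [p0, p1, p2, mul_div_assoc, div_self cc, mul_one, ← hφ]

theorem exists_fr3 [Finite F] (he : X.e = 1) (h2 : (2 : F) ≠ 0) (h3 : Fintype.card κ = 3) : ∃ a a' c, Fr3 X a a' c := by
  obtain ⟨a, -, ha, haa⟩ := X.exists_iso_mem (U := ⊤) (by rw [finrank_top, finrank_fintype_fun_eq_card]; omega)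
  obtain ⟨a', h1, h4, -⟩ := exists_partner (W := X) he h2 (L := ⊥) (b := a) (by simpa using ha) haa (by
    intro l hl
    rw [(Submodule.mem_bot F).1 hl, X.zero_right])
  obtain ⟨c, h5, h6, h7⟩ := exists_nonsing he h2 haa h1 (by rw [h4]; exact one_ne_zero) (by omega)
  exact ⟨a, a', c, Fr3.mk' he h3 haa h1 h4 h5 h6 h7⟩

theorem Fr3.swap (he : X.e = 1) (h3 : Fintype.card κ = 3) {a a' c : κ → F} (h : Fr3 X a a' c) : Fr3 X a' a c :=
  Fr3.mk' he h3 h.aa' h.aa (by rw [SF.symm1 he]; exact h.h) h.ca' h.ca h.cc

/-- another frame -/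
theorem Fr3.third (he : X.e = 1) (h2 : (2 : F) ≠ 0) (h3 : Fintype.card κ = 3) {a a' c : κ → F} (h : Fr3 X a a' c) (t : F) :
    Fr3 X (a + t • c - (t * t * X.f c c / 2) • a') a' (c - (t * X.f c c) • a') := by
  have s := fun u v => SF.symm1 (X := X) he u v
  apply Fr3.mk' he h3 _ h.aa'
  · simp only [f_sub_left, X.sesq.add_left, X.sesq.smul_left, h.h, h.ca', h.aa']; ring
  · simp only [f_sub_left, X.sub_right, X.sesq.add_left, X.sesq.add_right, X.sesq.smul_left, SF.smul_r, h.aa, h.aa', h.h, s a' a,
      h.ca, h.ca', s a c, s a' c]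
    field_simp
    ring
  · simp only [f_sub_left, X.sesq.smul_left, h.ca', h.aa']; ring
  · simp only [f_sub_left, X.sub_right, X.sesq.smul_left, SF.smul_r, h.aa', h.ca', s a' c]
    simpa using h.cc
  · simp only [f_sub_left, X.sub_right, X.sesq.add_left, X.sesq.add_right, X.sesq.smul_left, SF.smul_r, h.aa, h.aa', h.h, s a' a,
      h.ca, h.ca', s a c, s a' c]
    field_simp
    ring

/-- wedge -/
def wd (X : SF (RingEquiv.refl F) κ) (x y : κ → F) : Module.End F (κ → F) := X.ro x y - X.ro y x

theorem wd_apply (x y v : κ → F) : wd X x y v = X.f v y • x - X.f v x • y := rfl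

theorem wd_add_left (x x' y : κ → F) : wd X (x + x') y = wd X x y + wd X x' y := by
  apply LinearMap.ext; intro v
  simp only [wd_apply, LinearMap.add_apply, X.sesq.add_right]; module

theorem wd_add_right (x y y' : κ → F) : wd X x (y + y') = wd X x y + wd X x y' := by
  apply LinearMap.ext; intro v
  simp only [wd_apply, LinearMap.add_apply, X.sesq.add_right]; module

theorem wd_smul_left (t : F) (x y : κ → F) : wd X (t • x) y = t • wd X x y := by
  apply LinearMap.ext; intro v
  simp only [wd_apply, LinearMap.smul_apply, SF.smul_r]; module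

theorem wd_smul_right (t : F) (x y : κ → F) : wd X x (t • y) = t • wd X x y := by
  apply LinearMap.ext; intro v
  simp only [wd_apply, LinearMap.smul_apply, SF.smul_r]; module

theorem wd_self (x : κ → F) : wd X x x = 0 := by
  apply LinearMap.ext; intro v
  simp only [wd_apply, LinearMap.zero_apply]; module

theorem wd_swap (x y : κ → F) : wd X y x = - wd X x y := by
  apply LinearMap.ext; intro v
  simp only [wd_apply, LinearMap.neg_apply]; module

theorem dag_EL (he : X.e = 1) (h2 : (2 : F) ≠ 0) {a c : κ → F} : dag X X (EL X a c) = EL X a (-c) := by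
  have s := fun u v => SF.symm1 (X := X) he u v
  symm
  apply dag_unique
  intro y x
  show X.f (E X a (-c) y) x = X.f y (E X a c x)
  simp only [E, f_sub_left, X.sub_right, X.sesq.add_left, X.sesq.add_right, X.sesq.smul_left, SF.smul_r, X.neg_right,
    X.sesq.neg_left, f_neg_left, s x a, s x c]
  ring

theorem EL_eq (a c : κ → F) (t : F) : EL X a (t • c) = 1 + t • wd X a c + (t * t) • (-(X.f c c / 2) • X.ro a a) := by
  apply LinearMap.ext; intro y
  show E X a (t • c) y = y + t • (X.f y c • a - X.f y a • c) + (t * t) • (-(X.f c c / 2) • (X.f y a • a))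
  simp only [E, X.sesq.smul_left, SF.smul_r]
  module

/-- even part of the conjugation -/
theorem even_conj (a c : κ → F) (t : F) (A : Module.End F (κ → F)) :
    EL X a (t • c) * A * EL X a (-(t • c)) + EL X a (-(t • c)) * A * EL X a (t • c) =
      (2 : F) • A + (2 * (t * t)) • (-(X.f c c / 2) • (X.ro a a * A + A * X.ro a a) - wd X a c * A * wd X a c) +
        (2 * (t * t * (t * t))) • ((X.f c c / 2 * (X.f c c / 2)) • (X.ro a a * A * X.ro a a)) := by
  rw [← neg_smul, EL_eq, EL_eq]
  set N := wd X a c
  set m := X.ro a a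
  set k := X.f c c / 2
  simp only [mul_add, add_mul, one_mul, mul_one, smul_mul_assoc, mul_smul_comm, smul_smul, smul_add, smul_sub, mul_assoc]
  module

/-- symmetric maps vanishing on singular vectors are scalar -/
theorem scalar_of_conic [Fintype F] (he : X.e = 1) (h2 : (2 : F) ≠ 0) (h3 : Fintype.card κ = 3) (hq : 5 ≤ Fintype.card F)
    {A : Module.End F (κ → F)} (hA : dag X X A = A) (h0 : ∀ a, X.f a a = 0 → X.f (A a) a = 0) : ∃ r : F, A = r • 1 := by
  obtain ⟨a, a', c, h⟩ := exists_fr3 (X := X) he h2 h3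
  have s := fun u v => SF.symm1 (X := X) he u v
  have hsy : ∀ x y, X.f (A x) y = X.f x (A y) := fun x y => by rw [← X.star_spec', hA]
  have hn := h.cc
  set n := X.f c c with hnd
  have key : ∀ t : F, 2 * t * X.f (A a) c + t * t * (X.f (A c) c - n * X.f (A a) a') - n * (t * t * t) * X.f (A c) a' = 0 := by
    intro t
    have h1 := h0 _ (h.third he h2 h3 t).aa
    have e1 := h0 a h.aa
    have e2 := h0 a' h.aa'
    simp only [map_add, map_sub, map_smul, f_sub_left, X.sub_right, X.sesq.add_left, X.sesq.add_right, X.sesq.smul_left,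
      SF.smul_r, e1, e2] at h1
    rw [hsy c a, s c (A a), hsy a' a, s a' (A a), hsy a' c, s a' (A c)] at h1
    rw [← hnd] at h1
    have h5 : (2 : F)⁻¹ * 2 = 1 := inv_mul_cancel₀ h2
    have : ∀ x : F, x / 2 = x * (2 : F)⁻¹ := fun x => div_eq_mul_inv x 2
    simp only [this] at h1
    linear_combination h1 + (t * t * n * X.f (A a) a' + t * t * t * n * X.f (A c) a') * h5
  have k1 := key 1
  have k2 := key (-1)
  obtain ⟨t, ht0, ht1, htm⟩ : ∃ t : F, t ≠ 0 ∧ t ≠ 1 ∧ t ≠ -1 := by
    classical
    by_contra hcon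
    push Not at hcon
    have : (Finset.univ : Finset F) ⊆ {0, 1, -1} := by
      intro t _
      simp only [Finset.mem_insert, Finset.mem_singleton]
      by_cases h5 : t = 0
      · left; exact h5
      · by_cases h6 : t = 1
        · right; left; exact h6
        · right; right; exact hcon t h5 h6
    have h7 := Finset.card_le_card this
    rw [Finset.card_univ] at h7
    have h8 := Finset.card_le_three (a := (0 : F)) (b := 1) (c := -1)
    omega
  have k3 := key t
  have x2 : X.f (A c) c - n * X.f (A a) a' = 0 := by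
    have : 2 * (X.f (A c) c - n * X.f (A a) a') = 0 := by linear_combination k1 + k2
    exact (mul_eq_zero.1 this).resolve_left h2
  have x3 : X.f (A c) a' = 0 := by
    have e1 : 2 * X.f (A a) c = n * X.f (A c) a' := by linear_combination k1 - x2
    have e2 : t * (n * X.f (A c) a' * (1 - t * t)) = 0 := by
      linear_combination k3 - t * e1 - t * t * x2
    have e3 : 1 - t * t ≠ 0 := by
      intro h5
      have : (t - 1) * (t + 1) = 0 := by linear_combination -h5
      rcases mul_eq_zero.1 this with h6 | h6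
      · exact ht1 (sub_eq_zero.1 h6)
      · exact htm (eq_neg_of_add_eq_zero_left h6)
    have e4 := (mul_eq_zero.1 ((mul_eq_zero.1 e2).resolve_left ht0)).resolve_right e3
    exact (mul_eq_zero.1 e4).resolve_left hn
  have x1 : X.f (A a) c = 0 := by
    have e1 : 2 * X.f (A a) c = n * X.f (A c) a' := by linear_combination k1 - x2
    rw [x3, mul_zero] at e1
    exact (mul_eq_zero.1 e1).resolve_left h2
  set r := X.f (A a) a' with hr
  have Aa : A a = r • a := by
    rw [h.exp (A a), h0 a h.aa, x1, ← hr]; simp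
  have Aa' : A a' = r • a' := by
    rw [h.exp (A a'), h0 a' h.aa', hsy a' a, s a' (A a), hsy a' c, s a' (A c), x3, ← hr]; simp
  have Ac : A c = r • c := by
    rw [h.exp (A c), x3, hsy c a, s c (A a), x1, ← hnd]
    have : X.f (A c) c = n * r := by linear_combination x2
    rw [this]
    have e5 : n * r / n = r := by field_simp
    rw [e5]; simp
  refine ⟨r, ?_⟩
  apply LinearMap.ext
  intro y
  rw [h.exp y]
  simp only [map_add, map_smul, Aa, Aa', Ac, LinearMap.smul_apply, Module.End.one_apply]

end three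

end Cfsg.Agent.H94.T34
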