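import Mathlib
import Cfsg.Agent.H94.T34d
import Cfsg.Agent.TenMax.AsmO

set_option autoImplicit false
set_option linter.unusedSectionVars false
set_option linter.unusedVariables false

/-!
The line step for a second factor of dimension three.
-/

namespace Cfsg.Agent.H94.T33

open Module Cfsg.Geo Cfsg.Agent.Asch Matrix Cfsg.Agent.TenMax Cfsg.Agent.H94.T34
open scoped Matrix MatrixGroups Kronecker

variable {F : Type*} [Field F] {a : ℕ} {T : TData (RingEquiv.refl F) (Fin a) (Fin 3)} {K : Subgroup (GL (Fin a × Fin 3) F)}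

/-- Witt index one in dimension three -/
theorem mi3 {κ : Type} [Fintype κ] [DecidableEq κ] {W : SF (RingEquiv.refl F) κ} [Finite F] (he : W.e = 1) (h2 : (2 : F) ≠ 0)
    (h3 : Fintype.card κ = 3) : Mi W := by
  intro b c hb hbb hcb hcc
  obtain ⟨b', k1, k2, -⟩ := exists_partner (W := W) he h2 (L := ⊥) (b := b) (by simpa using hb) hbb (by
    intro l hl
    rw [(Submodule.mem_bot F).1 hl, W.zero_right])
  obtain ⟨e, k3, k4, k5⟩ := exists_nonsing he h2 hbb k1 (by rw [k2]; exact one_ne_zero) (by omega)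
  have hf : Fr3 W b b' e := Fr3.mk' he h3 hbb k1 k2 k3 k4 k5
  have h5 := hf.exp c
  rw [hcb, zero_smul, add_zero] at h5
  have h6 : W.f c e = 0 := by
    have h7 := hcc
    rw [h5] at h7
    simp only [W.sesq.add_left, W.sesq.add_right, W.sesq.smul_left, SF.smul_r, hbb, k3, W.zero_symm k3, mul_zero, add_zero, zero_add] at h7
    have h8 : W.f c e * W.f c e = 0 := by
      field_simp at h7
      rw [mul_zero] at h7
      rw [← pow_two]; exact h7
    exact mul_self_eq_zero.1 h8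
  exact ⟨W.f c b', by rw [h6, zero_div, zero_smul, add_zero] at h5; exact h5⟩

/-- frame with a given singular vector -/
theorem frame1 {κ : Type} [Fintype κ] [DecidableEq κ] {W : SF (RingEquiv.refl F) κ} [Finite F] (he : W.e = 1) (h2 : (2 : F) ≠ 0)
    (h3 : Fintype.card κ = 3) {b : κ → F} (hb : b ≠ 0) (hbb : W.f b b = 0) : ∃ b' c, Fr3 W b b' c := by
  obtain ⟨b', k1, k2, -⟩ := exists_partner (W := W) he h2 (L := ⊥) (b := b) (by simpa using hb) hbb (by
    intro l hl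
    rw [(Submodule.mem_bot F).1 hl, W.zero_right])
  obtain ⟨e, k3, k4, k5⟩ := exists_nonsing he h2 hbb k1 (by rw [k2]; exact one_ne_zero) (by omega)
  exact ⟨b', e, Fr3.mk' he h3 hbb k1 k2 k3 k4 k5⟩

theorem sg_E (he : T.W.e = 1) (w z : Fin 3 → F) (u : Fin a → F) (y : Fin 3 → F) :
    T.sg w (tR z) ((-(T.W.f z z / 2)) • 1) (tz u y) = tz u (E T.W w z y) := by
  rw [sg_tz, he]
  congr 1
  simp only [E]
  module

theorem sieg_cond (he : T.W.e = 1) (h2 : (2 : F) ≠ 0) (z : Fin 3 → F) :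
    -(T.W.f z z / 2) + T.W.e * -(T.W.f z z / 2) + T.W.e * T.W.f z z = 0 := by
  rw [he]; field_simp; ring

theorem ext_gl {g h : GL (Fin a × Fin 3) F} (hgh : ∀ (u : Fin a → F) (y : Fin 3 → F),
    (g : Matrix (Fin a × Fin 3) (Fin a × Fin 3) F) *ᵥ tz u y = (h : Matrix (Fin a × Fin 3) (Fin a × Fin 3) F) *ᵥ tz u y) :
    g = h := by
  apply GeoMax.gl_ext
  intro v
  have : toLin' (g : Matrix (Fin a × Fin 3) (Fin a × Fin 3) F) = toLin' (h : Matrix (Fin a × Fin 3) (Fin a × Fin 3) F) := by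
    apply ext_tR
    intro y
    apply LinearMap.ext; intro u
    show toLin' _ (tz u y) = toLin' _ (tz u y)
    rw [toLin'_apply, toLin'_apply]
    exact hgh u y
  rw [← toLin'_apply, this, toLin'_apply]

theorem eq_zero_of_cL {v : Fin a × Fin 3 → F} (h : ∀ φ, cL φ v = 0) : v = 0 := by
  funext ⟨i, j⟩
  have := congrFun (h (LinearMap.proj i)) j
  exact this

/-- only pure Siegel elements occur -/
def NN (T : TData (RingEquiv.refl F) (Fin a) (Fin 3)) (K : Subgroup (GL (Fin a × Fin 3) F)) : Prop :=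
  ∀ b, b ≠ 0 → T.W.f b b = 0 → ∀ (Z : (Fin a → F) →ₗ[F] (Fin a × Fin 3 → F)) (S : Module.End F (Fin a → F)), T.O (tR b) Z →
    Has K (T.sg b Z S) → ∃ (z : Fin 3 → F) (c : F), T.W.f z b = 0 ∧ T.sg b Z S = T.sg b (tR z) (c • 1)

theorem sg_coeff (he : T.W.e = 1) {b z : Fin 3 → F} (hb : b ≠ 0) {Z : (Fin a → F) →ₗ[F] (Fin a × Fin 3 → F)}
    {S : Module.End F (Fin a → F)} {c : F} (h : T.sg b Z S = T.sg b (tR z) (c • 1)) :
    ∃ A : Module.End F (Fin a → F), Z = tR z + tR b ∘ₗ A := by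
  obtain ⟨y, -, hy⟩ := T.W.exists_perp (L := ⊥) (c := b) (by simpa using hb)
  have hct : ∀ u, T.ct b (tR y u) = u := fun u => by
    have := LinearMap.congr_fun (T.ct_tR b y) u
    rw [hy, one_smul] at this
    exact this
  refine ⟨T.ad Z ∘ₗ tR y + S - T.ct z ∘ₗ tR y - c • 1, ?_⟩
  apply LinearMap.ext
  intro u
  have h1 := LinearMap.congr_fun h (tR y u)
  rw [sg_vec, sg_vec, he, hct, T.ad_tR] at h1
  simp only [LinearMap.add_apply, LinearMap.sub_apply, LinearMap.comp_apply, map_add, map_sub, LinearMap.smul_apply,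
    Module.End.one_apply] at h1 ⊢
  have h3 := add_left_cancel h1
  rw [one_smul, one_smul] at h3
  have h4 : Z u = tR b (T.ad Z (tR y u)) + tR b (S u) - (tR b (T.ad Z (tR y u)) - Z u + tR b (S u)) := by abel
  rw [h4, h3]
  abel

/-- maps are determined on a frame -/
theorem ext_frame {M : Type*} [AddCommGroup M] [Module F M] {w v c : Fin 3 → F} (h : Fr3 T.W w v c)
    {S₁ S₂ : (Fin a × Fin 3 → F) →ₗ[F] M} (h1 : S₁ ∘ₗ tR w = S₂ ∘ₗ tR w) (h3 : S₁ ∘ₗ tR v = S₂ ∘ₗ tR v)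
    (h4 : S₁ ∘ₗ tR c = S₂ ∘ₗ tR c) : S₁ = S₂ := by
  apply ext_tR
  intro y
  rw [h.exp y]
  simp only [tR_add, tR_smul, LinearMap.comp_add, LinearMap.comp_smul, h1, h3, h4]

/-- the nilpotent part of a Siegel operator -/
theorem sg_cube (he : T.W.e = 1) {b : Fin 3 → F} (hb : T.W.f b b = 0) {Z : (Fin a → F) →ₗ[F] (Fin a × Fin 3 → F)} (hZ : T.O (tR b) Z)
    (S : Module.End F (Fin a → F)) (v : Fin a × Fin 3 → F) :
    T.sg b Z S (T.sg b Z S (T.sg b Z S v - v) - (T.sg b Z S v - v)) - (T.sg b Z S (T.sg b Z S v - v) - (T.sg b Z S v - v)) = 0 := by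
  have k1 : ∀ u, T.ct b (tR b u) = 0 := fun u => LinearMap.congr_fun (TData.ct_tR_zero hb) u
  have k2 : ∀ u, T.ct b (Z u) = 0 := fun u => LinearMap.congr_fun hZ u
  have k3 : ∀ u, T.ad Z (tR b u) = 0 := fun u => LinearMap.congr_fun hZ.symm u
  have h : ∀ v, T.sg b Z S v - v = tR b (T.ad Z v) - Z (T.ct b v) + tR b (S (T.ct b v)) := fun v => by
    rw [sg_vec, he, one_smul]; abel
  rw [h, h, h]
  simp only [map_add, map_sub, map_neg, k1, k2, k3, map_zero, sub_zero, add_zero, zero_add]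

/-- unipotent elements have odd order -/
theorem exists_odd [Finite F] (h2 : (2 : F) ≠ 0) {U : GL (Fin a × Fin 3) F}
    (h3 : ∀ v, toLin' (U : Matrix (Fin a × Fin 3) (Fin a × Fin 3) F) (toLin' (U : Matrix (Fin a × Fin 3) (Fin a × Fin 3) F)
      (toLin' (U : Matrix (Fin a × Fin 3) (Fin a × Fin 3) F) v - v) - (toLin' (U : Matrix (Fin a × Fin 3) (Fin a × Fin 3) F) v - v)) -
      (toLin' (U : Matrix (Fin a × Fin 3) (Fin a × Fin 3) F) (toLin' (U : Matrix (Fin a × Fin 3) (Fin a × Fin 3) F) v - v) -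
      (toLin' (U : Matrix (Fin a × Fin 3) (Fin a × Fin 3) F) v - v)) = 0) :
    ∃ n, Odd n ∧ U ^ n = 1 := by
  obtain ⟨p, hp⟩ := CharP.exists F
  have hpp : p.Prime := CharP.char_is_prime F p
  refine ⟨p, ?_, ?_⟩
  · rcases hpp.eq_two_or_odd' with h | h
    · exfalso; apply h2
      have := CharP.cast_eq_zero F p
      rw [h] at this
      exact_mod_cast this
    · exact h
  · apply toLin'_injective
    rw [TenMax.toLin'_pow, Units.val_one, toLin'_one]
    apply LinearMap.ext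
    intro v
    rw [uni_pow h2 h3 v p, CharP.cast_eq_zero]
    simp

/-- isometries acting trivially on the sections of `U ⊗ w` -/
theorem eq_sg (he : T.W.e = 1) {w v c : Fin 3 → F} (h : Fr3 T.W w v c) {s : Module.End F (Fin a × Fin 3 → F)}
    (hiso : ∀ x y, T.Y.f (s x) (s y) = T.Y.f x y) (h1 : s ∘ₗ tR w = tR w) {A : Module.End F (Fin a → F)}
    (h3 : s ∘ₗ tR c = tR c + tR w ∘ₗ A) :
    ∃ (Z : (Fin a → F) →ₗ[F] (Fin a × Fin 3 → F)) (S : Module.End F (Fin a → F)), T.O (tR w) Z ∧ s = T.sg w Z S := by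
  have hadiso : ∀ Z R : (Fin a → F) →ₗ[F] (Fin a × Fin 3 → F), T.ad (s ∘ₗ Z) ∘ₗ (s ∘ₗ R) = T.ad Z ∘ₗ R := by
    intro Z R
    have := dag_isom (X := T.X) hiso Z
    show dag T.X T.Y (s ∘ₗ Z) ∘ₗ (s ∘ₗ R) = dag T.X T.Y Z ∘ₗ R
    rw [← this]
    rfl
  have hwv : T.ct w ∘ₗ tR v = 1 := by
    rw [T.ct_tR, SF.symm1 he, h.h, one_smul]
  have hsv : T.ct w ∘ₗ (s ∘ₗ tR v) = 1 := by
    have := hadiso (tR w) (tR v)
    rw [h1, T.ad_tR, hwv] at this
    exact this
  set Z : (Fin a → F) →ₗ[F] (Fin a × Fin 3 → F) := tR v - s ∘ₗ tR v with hZ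
  have hO : T.O (tR w) Z := by
    show T.ct w ∘ₗ Z = 0
    rw [hZ, LinearMap.comp_sub, hwv, hsv, sub_self]
  have hcw : T.ct w ∘ₗ tR w = 0 := TData.ct_tR_zero h.aa
  have key : ∀ (z : Fin 3 → F) (B : Module.End F (Fin a → F)), T.W.f z w = 0 → T.W.f z v = 0 → s ∘ₗ tR z = tR z + tR w ∘ₗ B →
      T.ad Z ∘ₗ tR z = B := by
    intro z B hzw hzv hz
    have e1 : T.ad (s ∘ₗ tR v) ∘ₗ (s ∘ₗ tR z) = 0 := by
      rw [hadiso, T.ad_tR, T.ct_tR, hzv, zero_smul]
    rw [hz, LinearMap.comp_add, ← LinearMap.comp_assoc] at e1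
    have e2 : T.ad (s ∘ₗ tR v) ∘ₗ tR w = 1 := by
      have := hadiso (tR v) (tR w)
      rw [h1, T.ad_tR, T.ct_tR, h.h, one_smul] at this
      exact this
    have e2' : (T.ad (s ∘ₗ tR v) ∘ₗ tR w) ∘ₗ B = B := by rw [e2]; rfl
    rw [e2'] at e1
    rw [hZ, T.ad_sub, LinearMap.sub_comp, T.ad_tR, T.ct_tR, hzv, zero_smul, zero_sub]
    exact neg_eq_of_add_eq_zero_right e1
  refine ⟨Z, -(T.ad Z ∘ₗ tR v), hO, ?_⟩
  apply ext_frame h
  · rw [h1, T.sg_apply, hcw]
    have : T.ad Z ∘ₗ tR w = 0 := hO.symm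
    rw [this]
    simp
  · rw [T.sg_apply, hwv, he, one_smul]
    have e1 : Z ∘ₗ (1 : Module.End F (Fin a → F)) = Z := rfl
    have e2 : tR w ∘ₗ ((-(T.ad Z ∘ₗ tR v)) ∘ₗ (1 : Module.End F (Fin a → F))) = -(tR w ∘ₗ (T.ad Z ∘ₗ tR v)) := by
      rw [LinearMap.neg_comp, LinearMap.comp_neg]; rfl
    rw [e1, e2]
    have e3 : s ∘ₗ tR v = tR v - Z := by rw [hZ]; abel
    rw [e3]; abel
  · rw [h3, T.sg_apply, TData.ct_tR_zero h.ca, key c A h.ca h.ca' h3]
    simp

theorem kron_of_sg (ha : 1 ≤ a) {g : GL (Fin a × Fin 3) F} {w z : Fin 3 → F} {c : F}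
    (h : toLin' (g : Matrix (Fin a × Fin 3) (Fin a × Fin 3) F) = T.sg w (tR z) (c • 1)) : g ∈ kroneckerSubgroup a 3 F := by
  apply mem_kron_of_tR ha (by norm_num) (A := 1)
    (h := fun y => y + (T.W.f y z • w - T.W.e • (T.W.f y w • z) + c • (T.W.f y w • w)))
  intro y
  apply LinearMap.ext; intro u
  show toLin' (g : Matrix (Fin a × Fin 3) (Fin a × Fin 3) F) (tz u y) = _
  rw [h, sg_tz]
  rfl

/-- the line step -/
theorem line3 [Finite F] (h2 : (2 : F) ≠ 0) (ha : 1 ≤ a) (heX : T.X.e = 1) (he : T.W.e = 1) (hM : Mi T.W)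
    (hK : TGrp T K) (hN : NN T K) {Om : Subgroup (GL (Fin a × Fin 3) F)} (hKO : K ≤ Om)
    (hpure : ∀ g ∈ kroneckerSubgroup a 3 F, g ∈ Om → g ∈ K)
    (hodd : ∀ g : GL (Fin a × Fin 3) F, (∀ x y, T.Y.f (toLin' (g : Matrix (Fin a × Fin 3) (Fin a × Fin 3) F) x)
      (toLin' (g : Matrix (Fin a × Fin 3) (Fin a × Fin 3) F) y) = T.Y.f x y) → (∃ n, Odd n ∧ g ^ n = 1) → g ∈ Om)
    {g : GL (Fin a × Fin 3) F} (hg : g ∈ K) {w w' : Fin 3 → F} (hw0 : w ≠ 0) (hw : T.W.f w w = 0) (hw'0 : w' ≠ 0)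
    (h : (LinearMap.range (tR w : (Fin a → F) →ₗ[F] (Fin a × Fin 3 → F))).map (toLin' (g : Matrix (Fin a × Fin 3) (Fin a × Fin 3) F)) =
        LinearMap.range (tR w')) : g ∈ kroneckerSubgroup a 3 F := by
  have hα : Nonempty (Fin a) := ⟨⟨0, by omega⟩⟩
  set s := toLin' (g : Matrix (Fin a × Fin 3) (Fin a × Fin 3) F) with hs
  have hgs : Has K s := ⟨g, hg, rfl⟩
  have hiso := hK.iso s hgs
  have hsinj : Function.Injective s := fun x y hxy => GeoMax.gl_mulVec_injective g hxy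
  -- the map `a₀`
  obtain ⟨L, hL⟩ := (tR w' : (Fin a → F) →ₗ[F] (Fin a × Fin 3 → F)).exists_leftInverse_of_injective
    (LinearMap.ker_eq_bot.2 (tR_inj hw'0))
  set a₀ : Module.End F (Fin a → F) := L ∘ₗ s ∘ₗ tR w with ha₀
  have hsw : s ∘ₗ tR w = tR w' ∘ₗ a₀ := by
    apply LinearMap.ext; intro u
    have h1 : s (tR w u) ∈ LinearMap.range (tR w' : (Fin a → F) →ₗ[F] (Fin a × Fin 3 → F)) := by
      rw [← h]; exact Submodule.mem_map_of_mem ⟨u, rfl⟩
    obtain ⟨v, hv⟩ := h1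
    have h3 : L (tR w' v) = v := LinearMap.congr_fun hL v
    show s (tR w u) = tR w' (L (s (tR w u)))
    rw [← hv, h3]
  have hswu : ∀ u, s (tz u w) = tz (a₀ u) w' := fun u => LinearMap.congr_fun hsw u
  have ha₀inj : Function.Injective a₀ := by
    intro x y hxy
    apply tR_inj hw0
    apply hsinj
    show s (tz x w) = s (tz y w)
    rw [hswu, hswu, hxy]
  obtain ⟨a₁, ha1, ha2⟩ := end_inv_of_injective ha₀inj
  have ha1' : ∀ u, a₁ (a₀ u) = u := fun u => LinearMap.congr_fun ha1 u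
  have ha2' : ∀ u, a₀ (a₁ u) = u := fun u => LinearMap.congr_fun ha2 u
  obtain ⟨u₀, hu₀⟩ := exists_of_nonempty (F := F) (α := Fin a)
  obtain ⟨u₁, hu₁⟩ := T.X.nd u₀ hu₀
  have hw' : T.W.f w' w' = 0 := by
    have h1 := hiso (tz (a₁ u₀) w) (tz (a₁ u₁) w)
    rw [hswu, hswu, ha2', ha2', T.tp, T.tp, hw, mul_zero] at h1
    exact (mul_eq_zero.1 h1).resolve_left hu₁
  obtain ⟨v, c, hfr⟩ := frame1 he h2 (by rw [Fintype.card_fin]) hw0 hw
  obtain ⟨v', d, hfr'⟩ := frame1 he h2 (by rw [Fintype.card_fin]) hw'0 hw'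
  set p : Module.End F (Fin a → F) := T.st a₁ with hp
  have hstp : T.st a₀ * p = 1 := by rw [hp, ← T.st_mul, ha1, T.st_one]
  -- images of `tR z`
  have hz : ∀ z, T.W.f z w = 0 → ∃ (z' : Fin 3 → F) (A : Module.End F (Fin a → F)), T.W.f z' w' = 0 ∧ T.W.f z' v' = 0 ∧
      ∀ u, s (tz u z) = tz (p u) z' + tz (A u) w' := by
    intro z hzw
    have hsg := hK.sieg w z (-(T.W.f z z / 2)) hw hzw (sieg_cond he h2 z)
    have h1 := hK.has_conj_sg hgs hsw hsg
    have hO : T.O (tR w') ((s ∘ₗ tR z) ∘ₗ T.st a₀) := by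
      have h3 := hK.O_isom hgs (TData.O_tR (T := T) (T.W.zero_symm hzw))
      rw [hsw] at h3
      have h5 := h3.comp_left a₁
      have h6 : (tR w' ∘ₗ a₀) ∘ₗ a₁ = (tR w' : (Fin a → F) →ₗ[F] (Fin a × Fin 3 → F)) := by
        apply LinearMap.ext; intro u
        show tR w' (a₀ (a₁ u)) = tR w' u
        rw [ha2']
      rw [h6] at h5
      exact h5.comp_right _
    obtain ⟨z', c₀, hz'w, hz'⟩ := hN w' hw'0 hw' _ _ hO h1
    obtain ⟨A, hA⟩ := sg_coeff he hw'0 hz'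
    refine ⟨z' - T.W.f z' v' • w', A * p + T.W.f z' v' • p, ?_, ?_, fun u => ?_⟩
    · rw [f_sub_left, T.W.sesq.smul_left, hz'w, hw']; ring
    · rw [f_sub_left, T.W.sesq.smul_left, hfr'.h]; ring
    · have h3 := LinearMap.congr_fun hA (p u)
      have h5 : T.st a₀ (p u) = u := LinearMap.congr_fun hstp u
      have h6 : ((s ∘ₗ tR z) ∘ₗ T.st a₀) (p u) = s (tz u z) := by
        show s (tR z (T.st a₀ (p u))) = _
        rw [h5]; rfl
      rw [h6] at h3
      rw [h3]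
      show tz (p u) z' + tz (A (p u)) w' = tz (p u) (z' - _) + tz (A (p u) + T.W.f z' v' • p u) w'
      rw [tz_sub_right, tz_smul_right, tz_add_left, tz_smul_left]
      abel
  obtain ⟨c₁, A₁, hc₁w, hc₁v, hc₁⟩ := hz c hfr.ca
  have key : ∀ {z z' y y' : Fin 3 → F} {A B : Module.End F (Fin a → F)}, T.W.f z' w' = 0 → T.W.f y' w' = 0 →
      (∀ u, s (tz u z) = tz (p u) z' + tz (A u) w') → (∀ u, s (tz u y) = tz (p u) y' + tz (B u) w') → ∀ u u',
      T.X.f (p u) (p u') * T.W.f z' y' = T.X.f u u' * T.W.f z y := by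
    intro z z' y y' A B h1 h3 h4 h5 u u'
    have e := hiso (tz u z) (tz u' y)
    rw [h4, h5, T.Y.sesq.add_left, T.Y.sesq.add_right, T.Y.sesq.add_right, T.tp, T.tp, T.tp, T.tp, T.tp, h1,
      T.W.zero_symm h3, hw'] at e
    linear_combination e
  have hpsurj : ∀ x, ∃ y, p y = x := fun x => by
    have h1 : p * T.st a₀ = 1 := mul_eq_one_comm.1 hstp
    exact ⟨T.st a₀ x, LinearMap.congr_fun h1 x⟩
  have hcc := key hc₁w hc₁w hc₁ hc₁
  have hc₁c₁ : T.W.f c₁ c₁ ≠ 0 := by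
    intro h0
    have := hcc u₀ u₁
    rw [h0, mul_zero] at this
    exact mul_ne_zero hu₁ hfr.cc this.symm
  set l := T.W.f c c / T.W.f c₁ c₁ with hl
  have hl0 : l ≠ 0 := div_ne_zero hfr.cc hc₁c₁
  have hpf : ∀ u u', T.X.f (p u) (p u') = l * T.X.f u u' := by
    intro u u'
    have := hcc u u'
    rw [hl]
    field_simp
    rw [this]; ring
  have hcl : T.W.f c₁ c₁ = T.W.f c c / l := by rw [hl]; field_simp [hfr.cc]
  have hpa : ∀ u, p u = l • a₀ u := by
    intro u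
    rw [← sub_eq_zero]
    apply T.X.eq_zero
    intro x
    obtain ⟨y, rfl⟩ := hpsurj x
    have h1 : T.X.f (a₀ u) (p y) = T.X.f u y := by
      rw [hp]
      show T.X.f (a₀ u) (dag T.X T.X a₁ y) = _
      rw [T.X.star_spec, ha1']
    rw [f_sub_left, T.X.sesq.smul_left, hpf, h1, sub_self]
  -- the map on the second factor
  have sW := fun x y => SF.symm1 (X := T.W) he x y
  let hB : Module.End F (Fin 3 → F) :=
    { toFun := fun y => (l⁻¹ * T.W.f y v) • w' + T.W.f y w • v' + (T.W.f y c / T.W.f c c) • c₁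
      map_add' := fun x y => by simp only [T.W.sesq.add_left]; module
      map_smul' := fun r x => by simp only [T.W.sesq.smul_left, RingHom.id_apply]; module }
  have hBy : ∀ y, hB y = (l⁻¹ * T.W.f y v) • w' + T.W.f y w • v' + (T.W.f y c / T.W.f c c) • c₁ :=
    fun _ => rfl
  have hv'w' : T.W.f v' w' = 1 := by rw [sW]; exact hfr'.h
  have hvw : T.W.f v w = 1 := by rw [sW]; exact hfr.h
  have hBf : ∀ y y', T.W.f (hB y) (hB y') = l⁻¹ * T.W.f y y' := by
    intro y y'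
    have h1 : T.W.f y y' = T.W.f y v * T.W.f y' w + T.W.f y w * T.W.f y' v + T.W.f y c / T.W.f c c * T.W.f y' c := by
      conv_lhs => rw [hfr.exp y]
      simp only [T.W.sesq.add_left, T.W.sesq.smul_left, sW w y', sW v y', sW c y']
    rw [h1, hBy, hBy]
    simp only [T.W.sesq.add_left, T.W.sesq.add_right, T.W.sesq.smul_left, SF.smul_r, hw', hfr'.h, hv'w', hfr'.aa', hc₁w,
      T.W.zero_symm hc₁w, hc₁v, T.W.zero_symm hc₁v, hcl]
    have q1 := hfr.cc
    field_simp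
    ring
  have hBw : hB w = l⁻¹ • w' := by
    rw [hBy, hfr.h, hw, T.W.zero_symm hfr.ca]; simp
  have hBc : hB c = c₁ := by
    rw [hBy, hfr.ca, hfr.ca', div_self hfr.cc]; simp
  have hBinj : Function.Injective hB := by
    rw [← LinearMap.ker_eq_bot, LinearMap.ker_eq_bot']
    intro y hy
    apply T.W.eq_zero
    intro x
    have h1 := hBf y x
    rw [hy, T.W.zero_left] at h1
    exact (mul_eq_zero.1 h1.symm).resolve_left (inv_ne_zero hl0)
  obtain ⟨hB', hB1, hB2⟩ := end_inv_of_injective hBinj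
  set P : GL (Fin a) F := glOf p (T.st a₀) (mul_eq_one_comm.1 hstp) with hP
  set HB : GL (Fin 3) F := glOf hB hB' hB2 with hHB
  set H : GL (Fin a × Fin 3) F := TMax.kGL P HB with hH
  have hHt : ∀ u y, toLin' (H : Matrix (Fin a × Fin 3) (Fin a × Fin 3) F) (tz u y) = tz (p u) (hB y) := by
    intro u y
    rw [hH, kGL_tz, hP, hHB, toLin'_glOf, toLin'_glOf]
  set sH := toLin' (H : Matrix (Fin a × Fin 3) (Fin a × Fin 3) F) with hsH
  have hHiso : ∀ x y, T.Y.f (sH x) (sH y) = T.Y.f x y := by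
    apply iso_of_pure
    intro u w u' w'
    rw [hHt, hHt, T.tp, T.tp, hpf, hBf]
    field_simp
  have hHinj : Function.Injective sH := fun x y hxy => GeoMax.gl_mulVec_injective H hxy
  set U : GL (Fin a × Fin 3) F := H⁻¹ * g with hU
  set sU := toLin' (U : Matrix (Fin a × Fin 3) (Fin a × Fin 3) F) with hsU
  have hHU : ∀ x, sH (sU x) = s x := by
    intro x
    have : H * U = g := by rw [hU, mul_inv_cancel_left]
    rw [hs, ← this, Units.val_mul, toLin'_mul]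
    rfl
  have hUiso : ∀ x y, T.Y.f (sU x) (sU y) = T.Y.f x y := by
    intro x y
    rw [← hHiso, hHU, hHU, hiso]
  have hUw : sU ∘ₗ tR w = tR w := by
    apply LinearMap.ext; intro u
    apply hHinj
    show sH (sU (tz u w)) = sH (tz u w)
    rw [hHU, hswu, hHt, hBw, hpa, tz_smul_right, tz_smul_left, smul_smul, inv_mul_cancel₀ hl0, one_smul]
  have hUc : ∀ {z z' : Fin 3 → F} {A : Module.End F (Fin a → F)}, hB z = z' → (∀ u, s (tz u z) = tz (p u) z' + tz (A u) w') →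
      sU ∘ₗ tR z = tR z + tR w ∘ₗ (a₁ * A) := by
    intro z z' A h1 h3
    apply LinearMap.ext; intro u
    apply hHinj
    show sH (sU (tz u z)) = sH (tz u z + tz (a₁ (A u)) w)
    rw [hHU, h3, map_add, hHt, hHt, h1, hBw, hpa (a₁ (A u)), ha2', tz_smul_right, tz_smul_left, smul_smul, inv_mul_cancel₀ hl0, one_smul]
  obtain ⟨Z, S, hO, hUsg⟩ := eq_sg he hfr hUiso hUw (hUc hBc hc₁)
  have hUOm : U ∈ Om := by
    apply hodd U hUiso
    apply exists_odd h2
    intro v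
    have := sg_cube he hw hO S v
    rw [← hUsg] at this
    exact this
  have hHOm : H ∈ Om := by
    have : H = g * U⁻¹ := by rw [hU]; group
    rw [this]
    exact Om.mul_mem (hKO hg) (Om.inv_mem hUOm)
  have hHk : H ∈ kroneckerSubgroup a 3 F := kGL_mem _ _
  have hHK := hpure H hHk hHOm
  have hUK : U ∈ K := K.mul_mem (K.inv_mem hHK) hg
  obtain ⟨z, c₀, -, hzz⟩ := hN w hw0 hw Z S hO ⟨U, hUK, hUsg⟩
  have hUk : U ∈ kroneckerSubgroup a 3 F := kron_of_sg ha (hUsg.trans hzz)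
  have : g = H * U := by rw [hU, mul_inv_cancel_left]
  rw [this]
  exact Subgroup.mul_mem _ hHk hUk

end Cfsg.Agent.H94.T33
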