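import Mathlib
import Cfsg.Agent.H94.T33a

set_option autoImplicit false
set_option linter.unusedSectionVars false
set_option linter.unusedVariables false

/-!
Central Siegel elements with skew coefficients.
-/

namespace Cfsg.Agent.H94.T33

open Module Cfsg.Geo Cfsg.Agent.Asch Matrix Cfsg.Agent.TenMax Cfsg.Agent.H94.T34
open scoped Matrix MatrixGroups Kronecker

variable {F : Type*} [Field F] {T : TData (RingEquiv.refl F) (Fin 3) (Fin 3)} {K : Subgroup (GL (Fin 3 × Fin 3) F)}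

/-- Siegel elements of the first factor -/
def LeftS (T : TData (RingEquiv.refl F) (Fin 3) (Fin 3)) (K : Subgroup (GL (Fin 3 × Fin 3) F)) : Prop :=
  ∀ u x : Fin 3 → F, T.X.f u u = 0 → T.X.f x u = 0 → ∃ G, Has K G ∧ ∀ y, G ∘ₗ tR y = tR y ∘ₗ EL T.X u x

section LZ

variable {b : Fin 3 → F}

theorem lz_add (hb : T.W.f b b = 0) {η η' : Module.End F (Fin 3 → F)} (h : Has K (T.sg b 0 η)) (h' : Has K (T.sg b 0 η')) :
    Has K (T.sg b 0 (η + η')) := by
  have := h.mul h'
  rwa [TData.sg_zero_mul hb (O_zero _)] at this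

theorem lz_neg (hb : T.W.f b b = 0) {η : Module.End F (Fin 3 → F)} (h : Has K (T.sg b 0 η)) : Has K (T.sg b 0 (-η)) := by
  apply h.inv
  rw [TData.sg_zero_mul hb (O_zero _), add_neg_cancel, TData.sg_zero]

theorem lz_sub (hb : T.W.f b b = 0) {η η' : Module.End F (Fin 3 → F)} (h : Has K (T.sg b 0 η)) (h' : Has K (T.sg b 0 η')) :
    Has K (T.sg b 0 (η - η')) := by
  rw [sub_eq_add_neg]; exact lz_add hb h (lz_neg hb h')

theorem lz_conj (hK : TGrp T K) {G : Module.End F (Fin 3 × Fin 3 → F)} (hG : Has K G) {g : Module.End F (Fin 3 → F)}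
    (hg : ∀ y, G ∘ₗ tR y = tR y ∘ₗ g) {η : Module.End F (Fin 3 → F)} (h : Has K (T.sg b 0 η)) :
    Has K (T.sg b 0 (g * η * T.st g)) := by
  have := hK.has_conj_sg hG (hg b) h
  rwa [LinearMap.comp_zero, LinearMap.zero_comp] at this

theorem wd_conj (g : Module.End F (Fin 3 → F)) (x y : Fin 3 → F) : g * wd T.X x y * T.st g = wd T.X (g x) (g y) := by
  have h : ∀ x y, g * T.X.ro x y * T.st g = T.X.ro (g x) (g y) := by
    intro x y
    rw [T.X.mul_ro, T.X.ro_mul]
    congr 1
    exact LinearMap.congr_fun (T.st_st g) y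
  unfold wd
  rw [mul_sub, sub_mul, h, h]

/-- skew maps: all wedges -/
theorem lz_all [Finite F] (h2 : (2 : F) ≠ 0) (heX : T.X.e = 1) (hK : TGrp T K) (hL : LeftS T K) (hb : T.W.f b b = 0)
    {η : Module.End F (Fin 3 → F)} (hη0 : η ≠ 0) (hη : T.st η = -η) (h : Has K (T.sg b 0 η)) (x y : Fin 3 → F) :
    Has K (T.sg b 0 (wd T.X x y)) := by
  have s := fun u v => SF.symm1 (X := T.X) heX u v
  have h3 : Fintype.card (Fin 3) = 3 := Fintype.card_fin 3
  have hsk : ∀ x y, T.X.f (η x) y = - T.X.f x (η y) := fun x y => by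
    have h1 : T.X.f (T.st η x) y = T.X.f x (η y) := T.X.star_spec' η x y
    rw [hη] at h1
    rw [← h1, LinearMap.neg_apply, f_neg_left, neg_neg]
  have hself : ∀ x, T.X.f (η x) x = 0 := fun x => by
    have h1 := hsk x x
    rw [s x (η x)] at h1
    have : 2 * T.X.f (η x) x = 0 := by linear_combination h1
    exact (mul_eq_zero.1 this).resolve_left h2
  -- a frame with nonzero coefficient
  obtain ⟨a, a', c, hf, hr⟩ : ∃ a a' c, Fr3 T.X a a' c ∧ T.X.f (η a) c ≠ 0 := by
    by_contra hcon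
    push Not at hcon
    obtain ⟨a, a', c, hf⟩ := exists_fr3 (X := T.X) heX h2 h3
    have k1 := hcon a a' c hf
    have k2 := hcon a' a c (hf.swap heX h3)
    have k3 := hcon _ _ _ (hf.third heX h2 h3 1)
    set k := T.X.f (η a) a' with hk
    have ea : η a = k • a := by
      rw [hf.exp (η a), hself, k1, ← hk]; simp
    have ea' : η a' = (-k) • a' := by
      rw [hf.exp (η a'), hself, k2, hsk a' a, s a' (η a), ← hk]; simp
    have ec : η c = 0 := by
      rw [hf.exp (η c), hself, hsk c a', hsk c a, s c (η a'), s c (η a), k1, k2]; simp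
    have hk0 : k = 0 := by
      rw [map_sub, map_add, map_smul, map_smul, ea, ea', ec] at k3
      simp only [one_mul, one_smul, smul_zero, add_zero, f_sub_left, T.X.sub_right, T.X.sesq.smul_left, SF.smul_r,
        s a c, hf.ca, hf.h, s a' c, hf.ca', hf.aa'] at k3
      have : k * T.X.f c c = 0 := by linear_combination -k3
      exact (mul_eq_zero.1 this).resolve_right hf.cc
    apply hη0
    apply LinearMap.ext
    intro y
    rw [hf.exp y]
    simp only [map_add, map_smul, ea, ea', ec, hk0, neg_zero, zero_smul, smul_zero, add_zero, LinearMap.zero_apply]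
  set n := T.X.f c c with hn
  set r := T.X.f (η a) c with hrd
  have hac : T.X.f a c = 0 := T.X.zero_symm hf.ca
  have ha'c : T.X.f a' c = 0 := T.X.zero_symm hf.ca'
  have ha'a : T.X.f a' a = 1 := by rw [s]; exact hf.h
  set k := T.X.f (η a) a' with hk
  have ea : η a = k • a + (r / n) • c := by
    conv_lhs => rw [hf.exp (η a), hself, ← hrd, ← hk]
    simp
    rfl
  -- the coefficients
  have hC : T.X.ro a a * η * T.X.ro a a = 0 := by
    apply LinearMap.ext; intro v
    show T.X.f (η (T.X.f v a • a)) a • a = 0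
    rw [map_smul, T.X.sesq.smul_left, hself]; simp
  have hB : -(n / 2) • (T.X.ro a a * η + η * T.X.ro a a) - wd T.X a c * η * wd T.X a c = (-(r / 2)) • wd T.X a c := by
    apply LinearMap.ext; intro v
    show -(n / 2) • (T.X.f (η v) a • a + η (T.X.f v a • a)) - wd T.X a c (η (wd T.X a c v)) = (-(r / 2)) • wd T.X a c v
    have e1 : T.X.f (η v) a = -(k * T.X.f v a + r / n * T.X.f v c) := by
      rw [hsk, ea, T.X.sesq.add_right, SF.smul_r, SF.smul_r]
    have e2 : T.X.f (η c) a = -r := by rw [hsk, s c (η a)]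
    have e3 : T.X.f (η c) c = 0 := hself c
    simp only [wd_apply, map_sub, map_smul, f_sub_left, T.X.sesq.smul_left, e1, e2, e3, hself, ← hrd]
    rw [ea]
    have hn0 := hf.cc
    rw [← hn] at hn0
    funext i
    simp only [Pi.add_apply, Pi.sub_apply, Pi.smul_apply, smul_eq_mul]
    field_simp
    ring
  have hev : ∀ t : F, Has K (T.sg b 0 ((t * t * (-r)) • wd T.X a c)) := by
    intro t
    obtain ⟨G, hG, hGy⟩ := hL a (t • c) hf.aa (by rw [T.X.sesq.smul_left, hf.ca, mul_zero])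
    obtain ⟨G', hG', hG'y⟩ := hL a (-(t • c)) hf.aa (by rw [f_neg_left, T.X.sesq.smul_left, hf.ca, mul_zero, neg_zero])
    have m1 := lz_conj hK hG hGy h
    have m2 := lz_conj hK hG' hG'y h
    have e1 : T.st (EL T.X a (t • c)) = EL T.X a (-(t • c)) := dag_EL heX h2
    have e2 : T.st (EL T.X a (-(t • c))) = EL T.X a (t • c) := by
      have := dag_EL (X := T.X) heX h2 (a := a) (c := -(t • c))
      rw [neg_neg] at this
      exact this
    rw [e1] at m1
    rw [e2] at m2
    have m3 := lz_sub hb (lz_sub hb (lz_add hb m1 m2) h) h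
    rw [even_conj, hC, ← hn, hB] at m3
    convert m3 using 2
    rw [smul_zero, smul_zero, add_zero, smul_smul, two_smul]
    have : t * t * -r = 2 * (t * t) * -(r / 2) := by field_simp
    rw [this]; abel
  have hall : ∀ κ : F, Has K (T.sg b 0 (κ • wd T.X a c)) := by
    intro κ
    obtain ⟨t, t', ht⟩ := Cfsg.Agent.H94.SmallOrt.sum_two_squares h2 (κ / (-r))
    have := lz_add hb (hev t) (hev t')
    rw [← add_smul] at this
    convert this using 3
    have hr' : -r ≠ 0 := neg_ne_zero.2 hr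
    rw [← add_mul, ht]
    field_simp
  -- conjugation by the opposite Siegel elements
  have hconj : ∀ t κ : F, Has K (T.sg b 0 (κ • (wd T.X a c + (t * n) • wd T.X a a' + (t * t * (n / 2)) • wd T.X a' c))) := by
    intro t κ
    obtain ⟨G, hG, hGy⟩ := hL a' (t • c) hf.aa' (by rw [T.X.sesq.smul_left, hf.ca', mul_zero])
    have m1 := lz_conj hK hG hGy (hall κ)
    rw [mul_smul_comm, smul_mul_assoc, wd_conj] at m1
    convert m1 using 3
    have e1 : EL T.X a' (t • c) a = a - t • c - (t * t * (n / 2)) • a' := by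
      show E T.X a' (t • c) a = _
      simp only [E, SF.smul_r, T.X.sesq.smul_left, hac, hf.h, ← hn]
      module
    have e2 : EL T.X a' (t • c) c = c + (t * n) • a' := by
      show E T.X a' (t • c) c = _
      simp only [E, SF.smul_r, T.X.sesq.smul_left, hf.ca', ← hn]
      module
    rw [e1, e2]
    have e3 : a - t • c - (t * t * (n / 2)) • a' = a + (-t) • c + (-(t * t * (n / 2))) • a' := by module
    rw [e3]
    simp only [wd_add_left, wd_add_right, wd_smul_left, wd_smul_right, wd_self, wd_swap a' c]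
    have e5 : n = n / 2 + n / 2 := by field_simp; ring
    simp only [smul_zero, add_zero, smul_neg, smul_smul]
    match_scalars <;> first | ring1 | linear_combination (-(t * t)) * e5 | linear_combination ((t * t)) * e5 |
      linear_combination (-(κ * t * t)) * e5 | linear_combination ((κ * t * t)) * e5
  have hP : ∀ κ : F, Has K (T.sg b 0 (κ • wd T.X a a')) := by
    intro κ
    have m1 := lz_sub hb (hconj 1 (κ / (2 * n))) (hconj (-1) (κ / (2 * n)))
    convert m1 using 2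
    have hn0 := hf.cc
    rw [← hn] at hn0
    have : κ = κ / (2 * n) * n + κ / (2 * n) * n := by field_simp; ring
    nth_rewrite 1 [this]
    module
  have hQ : ∀ κ : F, Has K (T.sg b 0 (κ • wd T.X a' c)) := by
    intro κ
    have m1 := lz_sub hb (lz_sub hb (lz_add hb (hconj 1 (κ / n)) (hconj (-1) (κ / n))) (hall (κ / n))) (hall (κ / n))
    convert m1 using 2
    have hn0 := hf.cc
    rw [← hn] at hn0
    have : κ = κ / n * (n / 2) + κ / n * (n / 2) := by field_simp; ring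
    nth_rewrite 1 [this]
    module
  have m := lz_add hb (lz_add hb (hP (T.X.f x a' * T.X.f y a - T.X.f x a * T.X.f y a'))
    (hall (T.X.f x a' * (T.X.f y c / n) - (T.X.f x c / n) * T.X.f y a'))) (hQ (T.X.f x a * (T.X.f y c / n) - (T.X.f x c / n) * T.X.f y a))
  convert m using 2
  conv_lhs => rw [hf.exp x, hf.exp y]
  simp only [wd_add_left, wd_add_right, wd_smul_left, wd_smul_right, wd_self, wd_swap a c, wd_swap a a', wd_swap a' c, ← hn]
  module

end LZ

section fpart

/-- moving the `U ⊗ b` part into the coefficient -/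
theorem sg_shift (he : T.W.e = 1) {b : Fin 3 → F} (Z : (Fin 3 → F) →ₗ[F] (Fin 3 × Fin 3 → F)) (A S : Module.End F (Fin 3 → F)) :
    T.sg b (Z + tR b ∘ₗ A) S = T.sg b Z (S + T.st A - A) := by
  apply LinearMap.ext; intro v
  rw [sg_vec, sg_vec, he, T.ad_add, T.ad_comp, T.ad_tR]
  simp only [LinearMap.add_apply, LinearMap.sub_apply, LinearMap.comp_apply, map_add, map_sub, one_smul]
  abel

theorem mm_shift (he : T.W.e = 1) {b : Fin 3 → F} (hb : T.W.f b b = 0) {Z : (Fin 3 → F) →ₗ[F] (Fin 3 × Fin 3 → F)}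
    {A : Module.End F (Fin 3 → F)} (h : MM T K b (Z + tR b ∘ₗ A)) : MM T K b Z := by
  obtain ⟨hO, S, hS⟩ := h
  rw [sg_shift he] at hS
  refine ⟨?_, _, hS⟩
  have h1 : T.O (tR b) (tR b ∘ₗ A) := (TData.O_tR hb).comp_right A
  have := hO.sub h1
  rwa [add_sub_cancel_right] at this

theorem mm_tR (he : T.W.e = 1) (h2 : (2 : F) ≠ 0) (hK : TGrp T K) {b z : Fin 3 → F} (hb : T.W.f b b = 0) (hz : T.W.f z b = 0) :
    MM T K b (tR z) :=
  ⟨TData.O_tR (T.W.zero_symm hz), _, hK.sieg b z _ hb hz (sieg_cond he h2 z)⟩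

/-- expansion of a map orthogonal to `U ⊗ b` -/
theorem expand (he : T.W.e = 1) {b b' c : Fin 3 → F} (h : Fr3 T.W b b' c) {Z : (Fin 3 → F) →ₗ[F] (Fin 3 × Fin 3 → F)}
    (hO : T.O (tR b) Z) : Z = tR c ∘ₗ ((T.W.f c c)⁻¹ • (T.ct c ∘ₗ Z)) +
      tR b ∘ₗ (T.ct b' ∘ₗ Z) := by
  have sW := fun x y => SF.symm1 (X := T.W) he x y
  have key : ∀ v : Fin 3 × Fin 3 → F, v = tR b (T.ct b' v) + tR b' (T.ct b v) + (T.W.f c c)⁻¹ • tR c (T.ct c v) := by
    intro v
    let R : Module.End F (Fin 3 × Fin 3 → F) := tR b ∘ₗ T.ct b' + tR b' ∘ₗ T.ct b + (T.W.f c c)⁻¹ • (tR c ∘ₗ T.ct c)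
    have : (1 : Module.End F (Fin 3 × Fin 3 → F)) = R := by
      apply ext_tR
      intro y
      apply LinearMap.ext; intro u
      show tz u y = tR b (T.ct b' (tz u y)) + tR b' (T.ct b (tz u y)) + (T.W.f c c)⁻¹ • tR c (T.ct c (tz u y))
      rw [ct_tz, ct_tz, ct_tz]
      conv_lhs => rw [h.exp y]
      simp only [tR_apply, tz_add_right, tz_smul_right, tz_smul_left, map_smul, div_eq_mul_inv]
      module
    exact LinearMap.congr_fun this v
  apply LinearMap.ext; intro u
  have h1 := key (Z u)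
  have h3 : T.ct b (Z u) = 0 := LinearMap.congr_fun hO u
  rw [h3, map_zero, add_zero] at h1
  show Z u = tR c ((T.W.f c c)⁻¹ • T.ct c (Z u)) + tR b (T.ct b' (Z u))
  conv_lhs => rw [h1]
  rw [map_smul]
  abel

theorem st_smul' (r : F) (A : Module.End F (Fin 3 → F)) : T.st (r • A) = r • T.st A := T.st_smul r A

theorem st_sub (A B : Module.End F (Fin 3 → F)) : T.st (A - B) = T.st A - T.st B := by
  have := T.st_add (A - B) B
  rw [sub_add_cancel] at this
  rw [this, add_sub_cancel_right]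

/-- existence of central elements -/
theorem exists_lz [Fintype F] (h2 : (2 : F) ≠ 0) (hq : 5 ≤ Fintype.card F) (heX : T.X.e = 1) (he : T.W.e = 1) (hM : Mi T.W)
    (hK : TGrp T K) (hL : LeftS T K) {b : Fin 3 → F} (hb0 : b ≠ 0) (hb : T.W.f b b = 0)
    {Z : (Fin 3 → F) →ₗ[F] (Fin 3 × Fin 3 → F)} {S : Module.End F (Fin 3 → F)} (hO : T.O (tR b) Z) (hS : Has K (T.sg b Z S))
    (hne : ∀ (z : Fin 3 → F) (c : F), T.W.f z b = 0 → T.sg b Z S ≠ T.sg b (tR z) (c • 1)) :
    ∃ η : Module.End F (Fin 3 → F), η ≠ 0 ∧ T.st η = -η ∧ Has K (T.sg b 0 η) := by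
  have : Nonempty (Fin 3) := ⟨0⟩
  have sW := fun x y => SF.symm1 (X := T.W) he x y
  have sX := fun x y => SF.symm1 (X := T.X) heX x y
  have h3 : Fintype.card (Fin 3) = 3 := Fintype.card_fin 3
  have hm : MM T K b Z := ⟨hO, S, hS⟩
  by_cases hA : ∃ z, T.W.f z b = 0 ∧ T.st (T.ad Z ∘ₗ tR z) ≠ T.ad Z ∘ₗ tR z
  · -- a coefficient which is not symmetric
    obtain ⟨z, hz, hzne⟩ := hA
    have h1 := MM.central hb hm (mm_tR he h2 hK hb hz)
    have h4 : T.ad (tR z) ∘ₗ Z = T.st (T.ad Z ∘ₗ tR z) := by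
      rw [T.ad_pair, he, one_smul]
    rw [he, one_smul, one_smul, h4] at h1
    refine ⟨_, ?_, ?_, h1⟩
    · exact sub_ne_zero.2 hzne
    · rw [st_sub, T.st_st]; abel
  push Not at hA
  obtain ⟨b', c, hf⟩ := frame1 he h2 (by rw [Fintype.card_fin]) hb0 hb
  set σ₁ := T.ad Z ∘ₗ tR c with hσ₁
  have hs1 : T.st σ₁ = σ₁ := hA c hf.ca
  have hct : ∀ z, T.W.f z b = 0 → T.ct z ∘ₗ Z = T.ad Z ∘ₗ tR z := by
    intro z hz
    have h1 := T.ad_pair (tR z) Z
    rw [he, one_smul, T.ad_tR] at h1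
    have h3 := T.ad_pair Z (tR z)
    rw [he, one_smul, T.ad_tR, hA z hz] at h3
    exact h3.symm
  set n := T.W.f c c with hn
  have hexp : Z = tR c ∘ₗ (n⁻¹ • σ₁) + tR b ∘ₗ (T.ct b' ∘ₗ Z) := by
    have := expand he hf hO
    rw [hct c hf.ca] at this
    exact this
  set B := T.ct b' ∘ₗ Z with hB
  by_cases hsc : ∃ r : F, σ₁ = r • 1
  · -- scalar coefficients
    obtain ⟨r₁, hr₁⟩ := hsc
    set z := (n⁻¹ * r₁) • c with hz
    have hzb : T.W.f z b = 0 := by
      rw [hz, T.W.sesq.smul_left, hf.ca]; ring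
    have hZ : Z = tR z + tR b ∘ₗ B := by
      conv_lhs => rw [hexp, hr₁]
      rw [hz, tR_smul]
      apply LinearMap.ext; intro u
      simp only [LinearMap.add_apply, LinearMap.comp_apply, LinearMap.smul_apply, Module.End.one_apply, map_smul, smul_smul]
    set c₀ : F := -(T.W.f z z / 2) with hc₀
    have hsg : T.sg b Z S = T.sg b (tR z) (S + T.st B - B) := by
      conv_lhs => rw [hZ]
      rw [sg_shift he]
    have h5 := hS
    rw [hsg] at h5
    have h6 := hK.sieg b z c₀ hb hzb (sieg_cond he h2 z)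
    have h7 := has_central hb (TData.O_tR (T.W.zero_symm hzb)) h5 h6
    refine ⟨_, ?_, ?_, h7⟩
    · intro h0
      apply hne z c₀ hzb
      rw [hsg, sub_eq_zero.1 h0]
    · have h8 := hK.cond hb hb0 (O_zero _) h7
      rw [he, one_smul, LinearMap.comp_zero, add_zero] at h8
      exact eq_neg_of_add_eq_zero_right h8
  -- a singular vector of the first factor
  obtain ⟨a, haa, ha⟩ : ∃ a, T.X.f a a = 0 ∧ T.X.f (σ₁ a) a ≠ 0 := by
    by_contra hcon
    push Not at hcon
    apply hsc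
    exact scalar_of_conic heX h2 h3 hq hs1 fun a ha => hcon a ha
  have ha0 : a ≠ 0 := by
    rintro rfl
    rw [T.X.zero_right] at ha; exact ha rfl
  obtain ⟨a', h1, h4, -⟩ := exists_partner (W := T.X) heX h2 (L := ⊥) (b := a) (by simpa using ha0) haa (by
    intro l hl
    rw [(Submodule.mem_bot F).1 hl, T.X.zero_right])
  obtain ⟨a₀, h5, h6, h7⟩ := exists_nonsing heX h2 haa h1 (by rw [h4]; exact one_ne_zero) (by omega)
  have hfr : Fr3 T.X a a' a₀ := Fr3.mk' heX h3 haa h1 h4 h5 h6 h7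
  set m := T.X.f a₀ a₀ with hm₀
  -- conjugates
  have hcj : ∀ t : F, MM T K b (tR c ∘ₗ (EL T.X a (t • a₀) * (n⁻¹ • σ₁) * EL T.X a (-(t • a₀)))) := by
    intro t
    obtain ⟨G, hG, hGy⟩ := hL a (t • a₀) haa (by rw [T.X.sesq.smul_left, h5, mul_zero])
    have e1 : T.st (EL T.X a (t • a₀)) = EL T.X a (-(t • a₀)) := dag_EL heX h2
    have k1 := hK.has_conj_sg hG (hGy b) hS
    have k2 : MM T K b ((G ∘ₗ Z) ∘ₗ T.st (EL T.X a (t • a₀))) := by
      refine ⟨?_, _, k1⟩
      apply TData.O.comp_right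
      have k3 := hK.O_isom hG hO
      rw [hGy b] at k3
      have k4 := k3.comp_left (EL T.X a (-(t • a₀)))
      have k5 : (tR b ∘ₗ EL T.X a (t • a₀)) ∘ₗ EL T.X a (-(t • a₀)) = (tR b : (Fin 3 → F) →ₗ[F] (Fin 3 × Fin 3 → F)) := by
        have k6 : EL T.X a (t • a₀) * EL T.X a (-(t • a₀)) = 1 := by
          apply LinearMap.ext; intro y
          show E T.X a (t • a₀) (E T.X a (-(t • a₀)) y) = y
          rw [← neg_smul, E_E trivial h2 haa h5, add_neg_cancel, zero_smul]
          simp [E, T.X.zero_right, T.X.zero_left]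
        rw [LinearMap.comp_assoc]
        have : EL T.X a (t • a₀) ∘ₗ EL T.X a (-(t • a₀)) = LinearMap.id := k6
        rw [this, LinearMap.comp_id]
      rw [k5] at k4
      exact k4
    rw [e1] at k2
    apply mm_shift he hb (A := EL T.X a (t • a₀) * B * EL T.X a (-(t • a₀)))
    convert k2 using 1
    conv_rhs => rw [hexp]
    apply LinearMap.ext; intro u
    have hGu : ∀ y u, G (tR y u) = tR y (EL T.X a (t • a₀) u) := fun y u => LinearMap.congr_fun (hGy y) u
    simp only [LinearMap.add_apply, LinearMap.comp_apply, map_add, hGu, Module.End.mul_apply]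
  have hev : ∀ t : F, MM T K b (tR c ∘ₗ (EL T.X a (t • a₀) * (n⁻¹ • σ₁) * EL T.X a (-(t • a₀)) +
      EL T.X a (-(t • a₀)) * (n⁻¹ • σ₁) * EL T.X a (t • a₀))) := by
    intro t
    have k1 := (hcj t).add hb (hcj (-t))
    rw [neg_smul, neg_neg] at k1
    convert k1 using 1
    rw [LinearMap.comp_add]
  have hm' : MM T K b (tR c ∘ₗ (n⁻¹ • σ₁)) := by
    apply mm_shift he hb (A := B)
    rw [← hexp]; exact hm
  -- a Pythagorean triple
  obtain ⟨x, y, z, hxy, hx, hy⟩ : ∃ x y z : F, x * x + y * y = z * z ∧ x ≠ 0 ∧ y ≠ 0 := by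
    obtain ⟨t, ht0, ht1, htm⟩ : ∃ t : F, t ≠ 0 ∧ t ≠ 1 ∧ t ≠ -1 := by
      classical
      by_contra hcon
      push Not at hcon
      have : (Finset.univ : Finset F) ⊆ {0, 1, -1} := by
        intro t _
        simp only [Finset.mem_insert, Finset.mem_singleton]
        by_cases h5 : t = 0
        · left; exact h5
        · by_cases h6 : t = 1
          · right; left; exact h6
          · right; right; exact hcon t h5 h6
      have h7 := Finset.card_le_card this
      rw [Finset.card_univ] at h7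
      have h8 := Finset.card_le_three (a := (0 : F)) (b := 1) (c := -1)
      omega
    refine ⟨2 * t, t * t - 1, t * t + 1, by ring, mul_ne_zero h2 ht0, fun h => ?_⟩
    have : (t - 1) * (t + 1) = 0 := by linear_combination h
    rcases mul_eq_zero.1 this with h6 | h6
    · exact ht1 (sub_eq_zero.1 h6)
    · exact htm (eq_neg_of_add_eq_zero_left h6)
  have hk := ((((hev x).add hb (hev y)).sub hb (hev z)).sub hb hm').sub hb hm'
  -- the fourth order part
  set κ : F := -(x * x * (y * y) * (m * m)) with hκ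
  have hcomb : ∀ A : Module.End F (Fin 3 → F), (EL T.X a (x • a₀) * A * EL T.X a (-(x • a₀)) + EL T.X a (-(x • a₀)) * A * EL T.X a (x • a₀)) +
      (EL T.X a (y • a₀) * A * EL T.X a (-(y • a₀)) + EL T.X a (-(y • a₀)) * A * EL T.X a (y • a₀)) -
      (EL T.X a (z • a₀) * A * EL T.X a (-(z • a₀)) + EL T.X a (-(z • a₀)) * A * EL T.X a (z • a₀)) - A - A =
      (κ * T.X.f (A a) a) • T.X.ro a a := by
    intro A
    have e1 : T.X.ro a a * A * T.X.ro a a = T.X.f (A a) a • T.X.ro a a := by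
      apply LinearMap.ext; intro v
      show T.X.f (A (T.X.f v a • a)) a • a = T.X.f (A a) a • T.X.f v a • a
      rw [map_smul, T.X.sesq.smul_left, smul_smul, mul_comm]
    rw [even_conj, even_conj, even_conj, e1, ← hm₀]
    set Q₂ := -(m / 2) • (T.X.ro a a * A + A * T.X.ro a a) - wd T.X a a₀ * A * wd T.X a a₀
    set R := T.X.ro a a
    have e2 : z * z * (z * z) = (x * x + y * y) * (x * x + y * y) := by rw [hxy]
    rw [e2, ← hxy, hκ]
    match_scalars <;> field_simp <;> ring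
  set μ₁ := κ * (n⁻¹ * T.X.f (σ₁ a) a) with hμ₁
  set ζ := μ₁ • c with hζ
  have hk' : MM T K b (tR ζ ∘ₗ T.X.ro a a) := by
    convert hk using 1
    have e1 := hcomb (n⁻¹ • σ₁)
    rw [LinearMap.smul_apply, T.X.sesq.smul_left, ← hμ₁] at e1
    rw [hζ, tR_smul, LinearMap.smul_comp, ← LinearMap.comp_smul, ← e1]
    simp only [LinearMap.comp_add, LinearMap.comp_sub]
  have hκ0 : κ ≠ 0 := neg_ne_zero.2 (mul_ne_zero (mul_ne_zero (mul_ne_zero hx hx) (mul_ne_zero hy hy)) (mul_ne_zero h7 h7))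
  have hζb : T.W.f ζ b = 0 := by
    rw [hζ, T.W.sesq.smul_left, hf.ca]; ring
  have hζb' : T.W.f ζ b' = 0 := by
    rw [hζ, T.W.sesq.smul_left, hf.ca']; ring
  have hζ0 : ζ ≠ 0 := by
    intro h0
    have g1 : T.W.f ζ c = 0 := by rw [h0, T.W.zero_left]
    rw [hζ, T.W.sesq.smul_left] at g1
    have g3 : μ₁ = 0 := (mul_eq_zero.1 g1).resolve_right hf.cc
    exact mul_ne_zero hκ0 (mul_ne_zero (inv_ne_zero hf.cc) ha) g3
  have hζζ : T.W.f ζ ζ ≠ 0 := hM.nonsing hb0 hb (by rw [hf.h]; exact one_ne_zero) hζb hζb' hζ0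
  -- a conjugate
  obtain ⟨G, hG, hGy⟩ := hL a' a₀ hfr.aa' hfr.ca'
  set a₃ := EL T.X a' a₀ a with ha₃
  have hk3 : MM T K b (tR ζ ∘ₗ T.X.ro a₃ a₃) := by
    obtain ⟨hO', S', hS'⟩ := hk'
    have k1 := hK.has_conj_sg hG (hGy b) hS'
    have k2 : (G ∘ₗ (tR ζ ∘ₗ T.X.ro a a)) ∘ₗ T.st (EL T.X a' a₀) = tR ζ ∘ₗ T.X.ro a₃ a₃ := by
      have k3 : EL T.X a' a₀ * T.X.ro a a * T.st (EL T.X a' a₀) = T.X.ro a₃ a₃ := by
        rw [T.X.mul_ro, T.X.ro_mul]
        congr 1
        exact LinearMap.congr_fun (T.st_st (EL T.X a' a₀)) a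
      rw [← k3, ← LinearMap.comp_assoc, hGy ζ]
      rfl
    rw [k2] at k1
    exact ⟨O_tR_comp hζb _, _, k1⟩
  have hc := MM.central hb hk' hk3
  have hva₃ : a₃ = a - a₀ - (m / 2) • a' := by
    show E T.X a' a₀ a = _
    simp only [E, T.X.zero_symm h5, h4, ← hm₀]
    simp
  have haa₃ : T.X.f a a₃ = -(m / 2) := by
    rw [hva₃, T.X.sub_right, T.X.sub_right, SF.smul_r, haa, T.X.zero_symm h5, h4]; ring
  have hpair : ∀ x y : Fin 3 → F, T.ad (tR ζ ∘ₗ T.X.ro x x) ∘ₗ (tR ζ ∘ₗ T.X.ro y y) = (T.W.f ζ ζ * T.X.f y x) • T.X.ro x y := by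
    intro x y
    rw [T.ad_comp, T.ad_tR, LinearMap.comp_assoc, ← LinearMap.comp_assoc (T.X.ro y y), T.ct_tR, st_ro heX]
    apply LinearMap.ext; intro v
    simp only [LinearMap.comp_apply, LinearMap.smul_apply, Module.End.one_apply, T.X.ro_apply, map_smul, T.X.sesq.smul_left]
    module
  rw [he, one_smul, one_smul, hpair, hpair, sX a₃ a, haa₃] at hc
  refine ⟨_, ?_, ?_, hc⟩
  · intro h0
    have g1 := congrArg (fun v => T.X.f v a₀) (LinearMap.congr_fun h0 a')
    simp only [LinearMap.sub_apply, LinearMap.smul_apply, T.X.ro_apply, LinearMap.zero_apply, f_sub_left, T.X.sesq.smul_left,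
      T.X.zero_left, T.X.zero_symm h5] at g1
    have g2 : T.X.f a' a = 1 := by rw [sX]; exact h4
    have g3 : T.X.f a₃ a₀ = -m := by
      rw [hva₃, f_sub_left, f_sub_left, T.X.sesq.smul_left, T.X.zero_symm h5, T.X.zero_symm h6, ← hm₀]; ring
    rw [g2, g3, mul_zero, mul_zero, sub_zero, one_mul] at g1
    have g4 : T.W.f ζ ζ * -(m / 2) * -m ≠ 0 := by
      refine mul_ne_zero (mul_ne_zero hζζ (neg_ne_zero.2 (div_ne_zero h7 h2))) (neg_ne_zero.2 h7)
    exact g4 g1
  · rw [st_sub, st_smul', st_smul', st_ro heX, st_ro heX]; abel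

end fpart

end Cfsg.Agent.H94.T33
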