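import Mathlib
import Cfsg.Agent.H94.T34b

set_option autoImplicit false
set_option linter.unusedSectionVars false
set_option linter.unusedVariables false

/-!
Polynomial vectors and sums over orbits of the additive group of a finite field.
-/

namespace Cfsg.Agent.H94.T33

variable {F : Type*} [Field F]

section vp

variable {M N : Type*} [AddCommGroup M] [Module F M] [AddCommGroup N] [Module F N]

/-- polynomial vectors of degree at most `d` -/
def VP (F : Type*) [Field F] (M : Type*) [AddCommGroup M] [Module F M] (d : ℕ) : Submodule F (F → M) :=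
  Submodule.span F {v | ∃ i, i ≤ d ∧ ∃ x : M, v = fun μ => μ ^ i • x}

theorem vp_mk {i d : ℕ} (h : i ≤ d) (x : M) : (fun μ : F => μ ^ i • x) ∈ VP F M d :=
  Submodule.subset_span ⟨i, h, x, rfl⟩

theorem vp_const {d : ℕ} (x : M) : (fun _ : F => x) ∈ VP F M d := by
  have := vp_mk (F := F) (Nat.zero_le d) x
  simpa using this

theorem vp_lin {d : ℕ} (h : 1 ≤ d) (x : M) : (fun μ : F => μ • x) ∈ VP F M d := by
  have := vp_mk (F := F) h x
  simpa using this

theorem vp_sq {d : ℕ} (h : 2 ≤ d) (x : M) : (fun μ : F => (μ * μ) • x) ∈ VP F M d := by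
  have := vp_mk (F := F) h x
  simpa [pow_two] using this

theorem vp_app {d e : ℕ} {φ : F → (M →ₗ[F] N)} (hφ : φ ∈ VP F (M →ₗ[F] N) d) {v : F → M} (hv : v ∈ VP F M e) :
    (fun μ => φ μ (v μ)) ∈ VP F N (d + e) := by
  refine Submodule.span_induction (p := fun φ _ => (fun μ => φ μ (v μ)) ∈ VP F N (d + e)) ?_ ?_ ?_ ?_ hφ
  · rintro _ ⟨i, hi, A, rfl⟩
    refine Submodule.span_induction (p := fun v _ => (fun μ => (μ ^ i • A) (v μ)) ∈ VP F N (d + e)) ?_ ?_ ?_ ?_ hv
    · rintro _ ⟨j, hj, x, rfl⟩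
      have : (fun μ : F => (μ ^ i • A) (μ ^ j • x)) = fun μ => μ ^ (i + j) • A x := by
        funext μ; rw [LinearMap.smul_apply, map_smul, smul_smul, pow_add]
      rw [this]; exact vp_mk (by omega) _
    · have : (fun μ : F => (μ ^ i • A) ((0 : F → M) μ)) = 0 := by funext μ; simp
      rw [this]; exact Submodule.zero_mem _
    · intro x y _ _ hx hy
      have : (fun μ : F => (μ ^ i • A) ((x + y) μ)) = (fun μ => (μ ^ i • A) (x μ)) + fun μ => (μ ^ i • A) (y μ) := by
        funext μ; simp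
      rw [this]; exact Submodule.add_mem _ hx hy
    · intro r x _ hx
      have : (fun μ : F => (μ ^ i • A) ((r • x) μ)) = r • (fun μ => (μ ^ i • A) (x μ)) := by
        funext μ; simp [smul_smul, mul_comm]
      rw [this]; exact Submodule.smul_mem _ _ hx
  · have : (fun μ : F => (0 : F → (M →ₗ[F] N)) μ (v μ)) = 0 := by funext μ; simp
    rw [this]; exact Submodule.zero_mem _
  · intro x y _ _ hx hy
    exact Submodule.add_mem _ hx hy
  · intro r x _ hx
    exact Submodule.smul_mem _ _ hx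

theorem vp_three {v : F → M} (hv : v ∈ VP F M 3) : ∃ g₀ g₁ g₂ g₃ : M, ∀ μ, v μ = g₀ + μ • g₁ + μ ^ 2 • g₂ + μ ^ 3 • g₃ := by
  refine Submodule.span_induction (p := fun v _ => ∃ g₀ g₁ g₂ g₃ : M, ∀ μ, v μ = g₀ + μ • g₁ + μ ^ 2 • g₂ + μ ^ 3 • g₃)
    ?_ ?_ ?_ ?_ hv
  · rintro _ ⟨i, hi, x, rfl⟩
    interval_cases i
    · exact ⟨x, 0, 0, 0, fun μ => by simp⟩
    · exact ⟨0, x, 0, 0, fun μ => by simp⟩
    · exact ⟨0, 0, x, 0, fun μ => by simp⟩
    · exact ⟨0, 0, 0, x, fun μ => by simp⟩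
  · exact ⟨0, 0, 0, 0, fun μ => by simp⟩
  · rintro x y _ _ ⟨a₀, a₁, a₂, a₃, ha⟩ ⟨b₀, b₁, b₂, b₃, hb⟩
    refine ⟨a₀ + b₀, a₁ + b₁, a₂ + b₂, a₃ + b₃, fun μ => ?_⟩
    rw [Pi.add_apply, ha, hb]; module
  · rintro r x _ ⟨a₀, a₁, a₂, a₃, ha⟩
    refine ⟨r • a₀, r • a₁, r • a₂, r • a₃, fun μ => ?_⟩
    rw [Pi.smul_apply, ha]; module

end vp

section orbits

variable {ι M : Type*} [AddCommGroup M] [Module F M]

theorem card_orbit [Fintype F] [DecidableEq ι] (π : F → ι → ι) (h0 : ∀ i, π 0 i = i)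
    (hadd : ∀ μ ν i, π (μ + ν) i = π μ (π ν i)) {i : ι} (hi : ∃ μ, π μ i ≠ i) :
    (((Finset.univ.image (fun μ : F => π μ i)).card : ℕ) : F) = 0 := by
  classical
  set o := Finset.univ.image (fun μ : F => π μ i) with ho
  set D := (Finset.univ.filter (fun μ : F => π μ i = i)).card with hD
  have h1 := Finset.card_eq_sum_card_image (fun μ : F => π μ i) Finset.univ
  have h3 : ∀ j ∈ o, (Finset.univ.filter (fun μ : F => π μ i = j)).card = D := by
    intro j hj
    obtain ⟨ν, -, rfl⟩ := Finset.mem_image.1 hj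
    refine Finset.card_nbij' (fun μ => -ν + μ) (fun μ => ν + μ) ?_ ?_ ?_ ?_
    · intro μ hμ
      simp only [Finset.coe_filter, Finset.mem_univ, true_and, Set.mem_setOf_eq] at hμ ⊢
      rw [hadd, hμ, ← hadd, neg_add_cancel, h0]
    · intro μ hμ
      simp only [Finset.coe_filter, Finset.mem_univ, true_and, Set.mem_setOf_eq] at hμ ⊢
      rw [hadd, hμ]
    · intro μ _
      show ν + (-ν + μ) = μ
      ring
    · intro μ _
      show -ν + (ν + μ) = μ
      ring
  rw [← ho, Finset.sum_congr rfl h3, Finset.sum_const, smul_eq_mul, Finset.card_univ] at h1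
  obtain ⟨p, hp⟩ := CharP.exists F
  obtain ⟨k, hpp, hk⟩ := FiniteField.card F p
  have h5 : o.card ∣ p ^ (k : ℕ) := ⟨D, by rw [← hk, h1]⟩
  obtain ⟨m, -, hm⟩ := (Nat.dvd_prime_pow hpp).1 h5
  have hm0 : m ≠ 0 := by
    rintro rfl
    rw [pow_zero, Finset.card_eq_one] at hm
    obtain ⟨j, hj⟩ := hm
    obtain ⟨μ, hμ⟩ := hi
    apply hμ
    have e1 : π μ i ∈ o := Finset.mem_image.2 ⟨μ, Finset.mem_univ _, rfl⟩
    have e2 : π 0 i ∈ o := Finset.mem_image.2 ⟨0, Finset.mem_univ _, rfl⟩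
    rw [hj, Finset.mem_singleton] at e1 e2
    rw [e1, ← e2, h0]
  rw [CharP.cast_eq_zero_iff F p, hm]
  exact dvd_pow_self p hm0

theorem sum_pow_zero [Fintype F] (hq : 5 ≤ Fintype.card F) {k : ℕ} (hk : k ≤ 3) : ∑ μ : F, μ ^ k = 0 := by
  rcases Nat.eq_zero_or_pos k with rfl | hk0
  · simp
  · exact FiniteField.sum_pow_lt_card_sub_one F k (by omega)

theorem orbit_sum [Fintype F] [DecidableEq ι] (h2 : (2 : F) ≠ 0) (hq : 5 ≤ Fintype.card F) (π : F → ι → ι) (h0 : ∀ i, π 0 i = i)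
    (hadd : ∀ μ ν i, π (μ + ν) i = π μ (π ν i)) (f : ι → M) {i : ι} (hi : ∃ μ, π μ i ≠ i) (hf : (fun μ => f (π μ i)) ∈ VP F M 3) :
    ∑ j ∈ Finset.univ.image (fun μ : F => π μ i), f j = 0 := by
  obtain ⟨g₀, g₁, g₂, g₃, hg⟩ := vp_three hf
  have hg' : ∀ μ, f (π μ i) = g₀ + μ • g₁ + μ ^ 2 • g₂ + μ ^ 3 • g₃ := hg
  by_cases hinj : ∀ d, π d i = i → d = 0
  · have hinj' : Function.Injective (fun μ : F => π μ i) := by
      intro μ ν hμν
      have h1 : π (ν - μ) i = i := by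
        have h3 : π (-μ) (π μ i) = i := by rw [← hadd, neg_add_cancel, h0]
        have h5 : π (-μ) (π ν i) = π (ν - μ) i := by rw [← hadd]; congr 1; ring
        have h6 : π μ i = π ν i := hμν
        rw [← h5, ← h6, h3]
      exact (sub_eq_zero.1 (hinj _ h1)).symm
    rw [Finset.sum_image (fun a _ b _ hab => hinj' hab), Finset.sum_congr rfl fun μ _ => hg' μ]
    rw [Finset.sum_add_distrib, Finset.sum_add_distrib, Finset.sum_add_distrib, ← Finset.sum_smul, ← Finset.sum_smul,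
      ← Finset.sum_smul, sum_pow_zero hq (by norm_num), sum_pow_zero hq (by norm_num)]
    have := sum_pow_zero (F := F) hq (k := 1) (by norm_num)
    simp only [pow_one] at this
    rw [this, Finset.sum_const, Finset.card_univ, ← Nat.cast_smul_eq_nsmul F, FiniteField.cast_card_eq_zero]
    simp
  · push Not at hinj
    obtain ⟨d, hd, hd0⟩ := hinj
    have hd' : π (-d) i = i := by
      conv_lhs => rw [← hd]
      rw [← hadd, neg_add_cancel, h0]
    have hg₂ : g₂ = 0 := by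
      have e1 := hg' d
      have e2 := hg' (-d)
      have e3 := hg' 0
      rw [h0] at e3
      rw [hd] at e1
      rw [hd'] at e2
      have e4 : (2 * (d * d)) • g₂ = 0 := by
        have : (2 * (d * d)) • g₂ = (g₀ + d • g₁ + d ^ 2 • g₂ + d ^ 3 • g₃) + (g₀ + (-d) • g₁ + (-d) ^ 2 • g₂ + (-d) ^ 3 • g₃) -
          (g₀ + (0 : F) • g₁ + (0 : F) ^ 2 • g₂ + (0 : F) ^ 3 • g₃) - (g₀ + (0 : F) • g₁ + (0 : F) ^ 2 • g₂ + (0 : F) ^ 3 • g₃) := by
          module
        rw [this, ← e1, ← e2, ← e3]; abel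
      exact (smul_eq_zero.1 e4).resolve_left (mul_ne_zero h2 (mul_ne_zero hd0 hd0))
    set o := Finset.univ.image (fun μ : F => π μ i) with ho
    have hcard : ∑ j ∈ o, f j = ∑ j ∈ o, (f j - g₀) := by
      rw [Finset.sum_sub_distrib, Finset.sum_const, ← Nat.cast_smul_eq_nsmul F, card_orbit π h0 hadd hi, zero_smul, sub_zero]
    rw [hcard]
    have hν : ∀ j (hj : j ∈ o), ∃ ν : F, π ν i = j := by
      intro j hj
      obtain ⟨ν, -, h⟩ := Finset.mem_image.1 hj
      exact ⟨ν, h⟩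
    choose ν hν using hν
    have hadd0 : ∀ j (hj : j ∈ o), f j - g₀ + (f (π (-(ν j hj)) i) - g₀) = 0 := by
      intro j hj
      have e1 := hg' (ν j hj)
      rw [hν j hj] at e1
      rw [e1, hg' (-(ν j hj)), hg₂]
      module
    refine Finset.sum_involution (fun j hj => π (-(ν j hj)) i) hadd0 ?_ ?_ ?_
    · intro j hj hne h
      apply hne
      have e1 := hadd0 j hj
      rw [h, ← two_smul F] at e1
      exact (smul_eq_zero.1 e1).resolve_left h2
    · intro j hj
      exact Finset.mem_image.2 ⟨_, Finset.mem_univ _, rfl⟩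
    · intro j hj
      have hj' : π (-(ν j hj)) i ∈ o := Finset.mem_image.2 ⟨_, Finset.mem_univ _, rfl⟩
      show π (-(ν (π (-(ν j hj)) i) hj')) i = j
      set ν' := ν (π (-(ν j hj)) i) hj' with hν'
      have e1 : π ν' i = π (-(ν j hj)) i := hν _ hj'
      have e2 := congrArg (π (-ν' + ν j hj)) e1
      rw [← hadd, ← hadd] at e2
      have e3 : -ν' + ν j hj + ν' = ν j hj := by ring
      have e4 : -ν' + ν j hj + -(ν j hj) = -ν' := by ring
      rw [e3, e4, hν j hj] at e2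
      exact e2.symm

/-- sums over orbits of the additive group of the field -/
theorem sum_orbits [Fintype F] (h2 : (2 : F) ≠ 0) (hq : 5 ≤ Fintype.card F) (π : F → ι → ι)
    (h0 : ∀ i, π 0 i = i) (hadd : ∀ μ ν i, π (μ + ν) i = π μ (π ν i)) (f : ι → M) : ∀ (s : Finset ι),
    (∀ μ, ∀ i ∈ s, π μ i ∈ s) → (∀ i ∈ s, ∃ μ, π μ i ≠ i) → (∀ i ∈ s, (fun μ => f (π μ i)) ∈ VP F M 3) →
    ∑ i ∈ s, f i = 0 := by
  classical
  intro s
  induction h : s.card using Nat.strong_induction_on generalizing s with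
  | _ n ih =>
    intro hs hfree hf
    rcases s.eq_empty_or_nonempty with rfl | ⟨i, hi⟩
    · exact Finset.sum_empty
    set o : Finset ι := Finset.univ.image (fun μ : F => π μ i) with ho
    have hos : o ⊆ s := by
      intro j hj
      obtain ⟨μ, -, rfl⟩ := Finset.mem_image.1 hj
      exact hs μ i hi
    have hio : i ∈ o := Finset.mem_image.2 ⟨0, Finset.mem_univ _, h0 i⟩
    have hsum : ∑ j ∈ o, f j = 0 := orbit_sum h2 hq π h0 hadd f (hfree i hi) (hf i hi)
    have hcl : ∀ μ, ∀ j ∈ s \ o, π μ j ∈ s \ o := by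
      intro μ j hj
      rw [Finset.mem_sdiff] at hj ⊢
      refine ⟨hs μ j hj.1, fun h1 => hj.2 ?_⟩
      obtain ⟨ν, -, hν⟩ := Finset.mem_image.1 h1
      refine Finset.mem_image.2 ⟨-μ + ν, Finset.mem_univ _, ?_⟩
      have h3 : π (-μ) (π μ j) = j := by rw [← hadd, neg_add_cancel, h0]
      rw [hadd, show π ν i = π μ j from hν, h3]
    have hcard : (s \ o).card < n := by
      rw [← h]
      apply Finset.card_lt_card
      rw [Finset.ssubset_iff_of_subset Finset.sdiff_subset]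
      exact ⟨i, hi, fun h1 => (Finset.mem_sdiff.1 h1).2 hio⟩
    have h3 := ih _ hcard (s \ o) rfl hcl (fun j hj => hfree j (Finset.mem_sdiff.1 hj).1)
      (fun j hj => hf j (Finset.mem_sdiff.1 hj).1)
    rw [← Finset.sum_sdiff hos, h3, hsum, add_zero]

end orbits

end Cfsg.Agent.H94.T33
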