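import Mathlib
import Cfsg.Agent.H94.T33a

set_option autoImplicit false
set_option linter.unusedSectionVars false
set_option linter.unusedVariables false

/-!
Fusion of unipotent elements of the second factor.
-/

namespace Cfsg.Agent.H94.T33

open Module Cfsg.Geo Cfsg.Agent.Asch Matrix Cfsg.Agent.TenMax Cfsg.Agent.H94.T34
open scoped Matrix MatrixGroups Kronecker

variable {F : Type*} [Field F]

theorem core1 {A A' At B B' Bt : Matrix (Fin 3) (Fin 3) F} {c₀ c₁ c₂ : F} (h0 : c₀ ≠ 0) (h1 : c₁ ≠ 0)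
    (h : ∀ i k j l, At i k * Bt j l = c₀ * ((1 : Matrix (Fin 3) (Fin 3) F) i k * (1 : Matrix (Fin 3) (Fin 3) F) j l) +
      c₁ * (A i k * B j l) + c₂ * (A' i k * B' j l))
    (hli : ∀ x y w : F, x • (1 : Matrix (Fin 3) (Fin 3) F) + y • A + w • A' = 0 → x = 0 ∧ y = 0 ∧ w = 0) :
    ∃ r : F, B = r • 1 := by
  have hb : ∀ j l, Bt j l • At = (c₀ * (1 : Matrix (Fin 3) (Fin 3) F) j l) • (1 : Matrix (Fin 3) (Fin 3) F) + (c₁ * B j l) • A +
      (c₂ * B' j l) • A' := by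
    intro j l; ext i k
    simp only [Matrix.add_apply, Matrix.smul_apply, smul_eq_mul]
    linear_combination h i k j l
  have h00 : Bt 0 0 ≠ 0 := by
    intro h3
    have h5 := hb 0 0
    rw [h3, zero_smul] at h5
    have h4 := (hli _ _ _ h5.symm).1
    rw [Matrix.one_apply_eq, mul_one] at h4
    exact h0 h4
  refine ⟨B 0 0, ?_⟩
  ext j l
  have e : (Bt j l * (c₀ * (1 : Matrix (Fin 3) (Fin 3) F) 0 0) - Bt 0 0 * (c₀ * (1 : Matrix (Fin 3) (Fin 3) F) j l)) •
      (1 : Matrix (Fin 3) (Fin 3) F) + (Bt j l * (c₁ * B 0 0) - Bt 0 0 * (c₁ * B j l)) • A +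
      (Bt j l * (c₂ * B' 0 0) - Bt 0 0 * (c₂ * B' j l)) • A' = 0 := by
    have e1 : Bt j l • (Bt 0 0 • At) = Bt 0 0 • (Bt j l • At) := smul_comm _ _ _
    rw [hb 0 0, hb j l, ← sub_eq_zero] at e1
    rw [← e1]; module
  obtain ⟨k1, k2, -⟩ := hli _ _ _ e
  rw [Matrix.one_apply_eq, mul_one] at k1
  have k1' : Bt j l = Bt 0 0 * (1 : Matrix (Fin 3) (Fin 3) F) j l := by
    apply mul_left_cancel₀ h0; linear_combination k1
  have k2' : Bt j l * B 0 0 = Bt 0 0 * B j l := by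
    apply mul_left_cancel₀ h1; linear_combination k2
  rw [k1'] at k2'
  rw [Matrix.smul_apply, smul_eq_mul]
  apply mul_left_cancel₀ h00
  linear_combination -k2'

theorem dep {A A' : Matrix (Fin 3) (Fin 3) F} (hns : ∀ r : F, A ≠ r • 1)
    (h : ¬ ∀ x y w : F, x • (1 : Matrix (Fin 3) (Fin 3) F) + y • A + w • A' = 0 → x = 0 ∧ y = 0 ∧ w = 0) :
    ∃ α β : F, A' = α • 1 + β • A := by
  push Not at h
  obtain ⟨x, y, w, h1, h3⟩ := h
  have hw : w ≠ 0 := by
    rintro rfl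
    rw [zero_smul, add_zero] at h1
    by_cases hy : y = 0
    · rw [hy, zero_smul, add_zero] at h1
      rcases smul_eq_zero.1 h1 with h4 | h4
      · exact (h3 h4 hy) rfl
      · exact one_ne_zero h4
    · apply hns (-(y⁻¹ * x))
      have h5 : y • A = (-x) • (1 : Matrix (Fin 3) (Fin 3) F) := by
        rw [neg_smul]; exact eq_neg_of_add_eq_zero_right h1
      have h6 : A = y⁻¹ • (y • A) := by rw [smul_smul, inv_mul_cancel₀ hy, one_smul]
      rw [h6, h5, smul_smul, mul_neg]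
  refine ⟨-(w⁻¹ * x), -(w⁻¹ * y), ?_⟩
  have h5 : w • A' = (-x) • (1 : Matrix (Fin 3) (Fin 3) F) + (-y) • A := by
    have := eq_neg_of_add_eq_zero_right h1
    rw [this]; module
  have h6 : A' = w⁻¹ • (w • A') := by rw [smul_smul, inv_mul_cancel₀ hw, one_smul]
  rw [h6, h5, smul_add, smul_smul, smul_smul, mul_neg, mul_neg]

section sim

variable {κ : Type} [Fintype κ] [DecidableEq κ] {X : SF (RingEquiv.refl F) κ}

theorem skew_sq [Finite F] (he : X.e = 1) (h2 : (2 : F) ≠ 0) (h3 : Fintype.card κ = 3) {k : Module.End F (κ → F)}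
    (hk : dag X X k = -k) {r : F} (hr : k * k = r • 1) : k = 0 := by
  have s := fun u v => SF.symm1 (X := X) he u v
  have hM := mi3 (W := X) he h2 h3
  have hsk : ∀ x y, X.f (k x) y = - X.f x (k y) := fun x y => by
    have h1 : X.f (dag X X k x) y = X.f x (k y) := X.star_spec' k x y
    rw [hk] at h1
    rw [← h1, LinearMap.neg_apply, f_neg_left, neg_neg]
  have hself : ∀ x, X.f (k x) x = 0 := fun x => by
    have h1 := hsk x x
    rw [s x (k x)] at h1
    have : 2 * X.f (k x) x = 0 := by linear_combination h1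
    exact (mul_eq_zero.1 this).resolve_left h2
  have hkk : ∀ x, k (k x) = r • x := fun x => LinearMap.congr_fun hr x
  obtain ⟨a, a', c, hf⟩ := exists_fr3 (X := X) he h2 h3
  have hsing : ∀ x, x ≠ 0 → X.f x x = 0 → ∃ t : F, k x = t • x := by
    intro x hx hxx
    apply hM x (k x) hx hxx (hself x)
    rw [hsk, hkk, SF.smul_r, hxx, mul_zero, neg_zero]
  have ha : a ≠ 0 := ne_zero_of_f (W := X) (b' := a') (by rw [hf.h]; exact one_ne_zero)
  have ha' : a' ≠ 0 := ne_zero_of_f (W := X) (b' := a) (by rw [s, hf.h]; exact one_ne_zero)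
  have hc : c ≠ 0 := ne_zero_of_f (W := X) hf.cc
  obtain ⟨t, ht⟩ := hsing a ha hf.aa
  obtain ⟨t', ht'⟩ := hsing a' ha' hf.aa'
  have hkc : k c = 0 := by
    rw [hf.exp (k c), hself, hsk c a', hsk c a, ht, ht', SF.smul_r, SF.smul_r, hf.ca, hf.ca']; simp
  have hr0 : r = 0 := by
    have h1 := hkk c
    rw [hkc, map_zero] at h1
    exact (smul_eq_zero.1 h1.symm).resolve_right hc
  have hz : ∀ {x : κ → F} {t : F}, x ≠ 0 → k x = t • x → t = 0 := by
    intro x t hx hxt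
    have h1 := hkk x
    rw [hxt, map_smul, hxt, smul_smul, hr0, zero_smul] at h1
    exact mul_self_eq_zero.1 ((smul_eq_zero.1 h1).resolve_right hx)
  have t0 := hz ha ht
  have t0' := hz ha' ht'
  rw [t0, zero_smul] at ht
  rw [t0', zero_smul] at ht'
  apply LinearMap.ext
  intro y
  rw [hf.exp y]
  simp only [map_add, map_smul, ht, ht', hkc, smul_zero, add_zero, LinearMap.zero_apply]

theorem sim_sq [Finite F] (he : X.e = 1) (h2 : (2 : F) ≠ 0) (h3 : Fintype.card κ = 3) {A A' : Module.End F (κ → F)}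
    (hAA : A * A' = 1) {m : F} (hsim : ∀ u v, X.f (A u) (A v) = m * X.f u v) {α β : F}
    (hA' : A' = α • 1 + β • A) (hns : ∀ r : F, A ≠ r • 1) : ∃ r : F, A * A = r • 1 := by
  have hAA' : ∀ u, A (A' u) = u := fun u => LinearMap.congr_fun hAA u
  have hst : dag X X A = m • A' := by
    symm
    apply dag_unique
    intro y x
    show X.f (m • A' y) x = X.f y (A x)
    rw [X.sesq.smul_left, ← hsim, hAA']
  have e1 : dag X X A = (m * α) • 1 + (m * β) • A := by rw [hst, hA', smul_add, smul_smul, smul_smul]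
  set a := m * α
  set b := m * β
  have hd : ∀ r : F, dag X X (r • (1 : Module.End F (κ → F))) = r • 1 := fun r => by rw [dag_smul, dag_one]; rfl
  have e2 : A = (a + b * a) • 1 + (b * b) • A := by
    have h5 := dag_dag_end (X := X) A
    rw [e1, dag_add, hd, dag_smul] at h5
    have h6 : (RingEquiv.refl F) b • dag X X A = b • dag X X A := rfl
    rw [h6, e1] at h5
    have h7 : a • (1 : Module.End F (κ → F)) + b • (a • 1 + b • A) = (a + b * a) • 1 + (b * b) • A := by module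
    rw [h7] at h5
    exact h5.symm
  have e3 : (1 - b * b) • A = (a + b * a) • 1 := by
    have : (1 - b * b) • A = A - (b * b) • A := by module
    rw [this]; nth_rw 1 [e2]; abel
  have hbb : 1 - b * b = 0 := by
    by_contra hcon
    apply hns ((1 - b * b)⁻¹ * (a + b * a))
    rw [mul_smul, ← e3, smul_smul, inv_mul_cancel₀ hcon, one_smul]
  have hne : Nonempty κ := Fintype.card_pos_iff.1 (by omega)
  have h1ne : (1 : Module.End F (κ → F)) ≠ 0 := one_ne_zero_end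
  have hab : a + b * a = 0 := by
    rw [hbb, zero_smul] at e3
    exact (smul_eq_zero.1 e3.symm).resolve_right h1ne
  have hb : (1 - b) * (1 + b) = 0 := by linear_combination hbb
  rcases mul_eq_zero.1 hb with hb1 | hb1
  · have hb1' : b = 1 := (sub_eq_zero.1 hb1).symm
    have ha : a = 0 := by
      rw [hb1'] at hab
      have : 2 * a = 0 := by linear_combination hab
      exact (mul_eq_zero.1 this).resolve_left h2
    rw [ha, hb1', zero_smul, zero_add, one_smul, hst] at e1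
    refine ⟨m, ?_⟩
    nth_rw 2 [← e1]
    rw [mul_smul_comm, hAA]
  · exfalso
    have hb1' : b = -1 := by linear_combination hb1
    obtain ⟨s, hs⟩ : ∃ s : F, s + s = a := ⟨a / 2, by field_simp; ring⟩
    rw [← hs, hb1'] at e1
    have hdk : dag X X (A - s • 1) = -(A - s • 1) := by
      rw [dag_sub, hd, e1]
      module
    have hkk : (A - s • 1) * (A - s • 1) = (s * s - m) • (1 : Module.End F (κ → F)) := by
      have h5 : A * dag X X A = m • 1 := by rw [hst, mul_smul_comm, hAA]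
      rw [e1, mul_add, mul_smul_comm, mul_one, mul_smul_comm] at h5
      have h8 : A * A = (s + s) • A - m • 1 := by rw [← h5]; module
      rw [sub_mul, mul_sub, mul_sub, smul_mul_assoc, smul_mul_assoc, one_mul, one_mul, mul_smul_comm, mul_one, h8]
      module
    have := skew_sq he h2 h3 hdk hkk
    exact hns s (sub_eq_zero.1 this)

end sim

section fus

variable {T : TData (RingEquiv.refl F) (Fin 3) (Fin 3)}

theorem sim_of_iso {A B : Module.End F (Fin 3 → F)}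
    (hiso : ∀ u u' w w', T.X.f (A u) (A u') * T.W.f (B w) (B w') = T.X.f u u' * T.W.f w w') :
    (∃ m : F, m ≠ 0 ∧ ∀ u u', T.X.f (A u) (A u') = m * T.X.f u u') ∧ ∃ m : F, m ≠ 0 ∧ ∀ w w', T.W.f (B w) (B w') = m * T.W.f w w' := by
  obtain ⟨u₀, hu₀⟩ := exists_of_nonempty (F := F) (α := Fin 3)
  obtain ⟨u₁, hu₁⟩ := T.X.nd u₀ hu₀
  obtain ⟨w₁, hw₁⟩ := T.W.nd u₀ hu₀
  have h0 := hiso u₀ u₁ u₀ w₁
  have h3 : T.X.f (A u₀) (A u₁) ≠ 0 ∧ T.W.f (B u₀) (B w₁) ≠ 0 := by
    rw [← mul_ne_zero_iff, h0]; exact mul_ne_zero hu₁ hw₁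
  refine ⟨⟨T.W.f u₀ w₁ / T.W.f (B u₀) (B w₁), div_ne_zero hw₁ h3.2, fun u u' => ?_⟩,
    ⟨T.X.f u₀ u₁ / T.X.f (A u₀) (A u₁), div_ne_zero hu₁ h3.1, fun w w' => ?_⟩⟩
  · have := hiso u u' u₀ w₁
    have h5 := h3.2
    field_simp
    linear_combination this
  · have := hiso u₀ u₁ w w'
    have h5 := h3.1
    field_simp
    linear_combination this

theorem inv_scalar (A : GL (Fin 3) F) {r : F} (h : (A : Matrix (Fin 3) (Fin 3) F) = r • 1) :
    ∃ r' : F, r * r' = 1 ∧ ((A⁻¹ : GL (Fin 3) F) : Matrix (Fin 3) (Fin 3) F) = r' • 1 := by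
  have h1 : (A : Matrix (Fin 3) (Fin 3) F) * ((A⁻¹ : GL (Fin 3) F) : Matrix (Fin 3) (Fin 3) F) = 1 := by
    rw [← Units.val_mul, mul_inv_cancel, Units.val_one]
  rw [h, smul_mul_assoc, one_mul] at h1
  have hr : r ≠ 0 := by
    rintro rfl
    rw [zero_smul] at h1
    exact one_ne_zero h1.symm
  exact ⟨r⁻¹, mul_inv_cancel₀ hr, by rw [← h1, smul_smul, inv_mul_cancel₀ hr, one_smul]⟩

theorem exists_t [Fintype F] (hq : 5 ≤ Fintype.card F) : ∃ t : F, t ≠ 0 ∧ t ≠ 1 ∧ t ≠ -1 := by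
  classical
  by_contra hcon
  push Not at hcon
  have : (Finset.univ : Finset F) ⊆ {0, 1, -1} := by
    intro t _
    simp only [Finset.mem_insert, Finset.mem_singleton]
    by_cases h5 : t = 0
    · left; exact h5
    · by_cases h6 : t = 1
      · right; left; exact h6
      · right; right; exact hcon t h5 h6
  have h7 := Finset.card_le_card this
  rw [Finset.card_univ] at h7
  have h8 := Finset.card_le_three (a := (0 : F)) (b := 1) (c := -1)
  omega

/-- tensoring on the left -/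
def tL (u : Fin 3 → F) : (Fin 3 → F) →ₗ[F] (Fin 3 × Fin 3 → F) where
  toFun w := tz u w
  map_add' w w' := tz_add_right u w w'
  map_smul' c w := tz_smul_right c u w

theorem tL_apply (u w : Fin 3 → F) : tL u w = tz u w := rfl

theorem tz_eq_zero' {u z : Fin 3 → F} (h : tz u z = 0) (hu : u ≠ 0) : z = 0 := by
  obtain ⟨i, hi⟩ := Function.ne_iff.1 hu
  funext j
  have := congrFun h (i, j)
  simp only [tz, Pi.zero_apply] at this
  exact (mul_eq_zero.1 this).resolve_left hi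

theorem tL_inj {u : Fin 3 → F} (hu : u ≠ 0) : Function.Injective (tL u) := by
  rw [← LinearMap.ker_eq_bot, LinearMap.ker_eq_bot']
  intro w hw
  exact tz_eq_zero' hw hu

theorem finrank_range_tL {u : Fin 3 → F} (hu : u ≠ 0) : finrank F (LinearMap.range (tL u)) = 3 := by
  rw [LinearMap.finrank_range_of_inj (tL_inj hu), finrank_fin_fun]

/-- fusion -/
theorem fusion33 [Fintype F] (h2 : (2 : F) ≠ 0) (hq : 5 ≤ Fintype.card F) (heX : T.X.e = 1) (he : T.W.e = 1)
    {b c : Fin 3 → F} (hb0 : b ≠ 0) (hb : T.W.f b b = 0) (hcb : T.W.f c b = 0) (hcc : T.W.f c c ≠ 0)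
    {x : F → GL (Fin 3 × Fin 3) F}
    (hx : ∀ μ u y, (x μ : Matrix (Fin 3 × Fin 3) (Fin 3 × Fin 3) F) *ᵥ tz u y = tz u (E T.W b (μ • c) y))
    (hxi : ∀ v v', T.Y.f (toLin' (x 1 : Matrix (Fin 3 × Fin 3) (Fin 3 × Fin 3) F) v)
      (toLin' (x 1 : Matrix (Fin 3 × Fin 3) (Fin 3 × Fin 3) F) v') = T.Y.f v v')
    {g : GL (Fin 3 × Fin 3) F}
    (hg : ∀ v v', T.Y.f (toLin' (g : Matrix (Fin 3 × Fin 3) (Fin 3 × Fin 3) F) v) (toLin' (g : Matrix (Fin 3 × Fin 3) (Fin 3 × Fin 3) F) v') =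
      T.Y.f v v')
    (hk : ∀ μ, g⁻¹ * x μ * g ∈ kroneckerSubgroup 3 3 F) :
    (∃ b₁ : Fin 3 → F, b₁ ≠ 0 ∧ (LinearMap.range (tR b : (Fin 3 → F) →ₗ[F] (Fin 3 × Fin 3 → F))).map
      (toLin' ((g⁻¹ : GL (Fin 3 × Fin 3) F) : Matrix (Fin 3 × Fin 3) (Fin 3 × Fin 3) F)) = LinearMap.range (tR b₁)) ∨
    (∃ a₁ : Fin 3 → F, a₁ ≠ 0 ∧ (LinearMap.range (tR b : (Fin 3 → F) →ₗ[F] (Fin 3 × Fin 3 → F))).map
      (toLin' ((g⁻¹ : GL (Fin 3 × Fin 3) F) : Matrix (Fin 3 × Fin 3) (Fin 3 × Fin 3) F)) = LinearMap.range (tL a₁)) := by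
  have sW := fun x y => SF.symm1 (X := T.W) he x y
  have h3 : Fintype.card (Fin 3) = 3 := Fintype.card_fin 3
  have hbc : T.W.f b c = 0 := T.W.zero_symm hcb
  set n := T.W.f c c with hn
  have hxadd : ∀ μ ν, x (μ + ν) = x μ * x ν := by
    intro μ ν
    apply ext_gl
    intro u y
    rw [hx, Units.val_mul, ← mulVec_mulVec, hx, hx, E_E trivial h2 hb hcb]
  have hx0 : x 0 = 1 := by
    apply ext_gl
    intro u y
    rw [hx, Units.val_one, one_mulVec]
    congr 1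
    simp [E, T.W.zero_right, T.W.zero_left]
  have hxinv : x (-1) = (x 1)⁻¹ := by
    rw [eq_inv_iff_mul_eq_one, ← hxadd, neg_add_cancel, hx0]
  have hx' : ∀ μ u y, toLin' (x μ : Matrix (Fin 3 × Fin 3) (Fin 3 × Fin 3) F) (tz u y) = tz u (E T.W b (μ • c) y) := hx
  have hE1 : ∀ y, E T.W b ((1 : F) • c) y = y + T.W.f y c • b - T.W.f y b • c - (n / 2 * T.W.f y b) • b := fun y => by
    simp only [E, one_smul]; rfl
  have hEm : ∀ y, E T.W b ((-1 : F) • c) y = y - T.W.f y c • b + T.W.f y b • c - (n / 2 * T.W.f y b) • b := fun y => by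
    simp only [E, SF.smul_r, T.W.sesq.smul_left, ← hn]; module
  obtain ⟨A, B, hAB⟩ := hk 1
  have hZm : ((g⁻¹ * x (-1) * g : GL (Fin 3 × Fin 3) F) : Matrix (Fin 3 × Fin 3) (Fin 3 × Fin 3) F) =
      ((A⁻¹ : GL (Fin 3) F) : Matrix (Fin 3) (Fin 3) F) ⊗ₖ ((B⁻¹ : GL (Fin 3) F) : Matrix (Fin 3) (Fin 3) F) := by
    have e0 : g⁻¹ * x (-1) * g = (g⁻¹ * x 1 * g)⁻¹ := by rw [hxinv]; group
    have h1 : ((g⁻¹ * x 1 * g : GL (Fin 3 × Fin 3) F) : Matrix (Fin 3 × Fin 3) (Fin 3 × Fin 3) F) *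
        (((A⁻¹ : GL (Fin 3) F) : Matrix (Fin 3) (Fin 3) F) ⊗ₖ ((B⁻¹ : GL (Fin 3) F) : Matrix (Fin 3) (Fin 3) F)) = 1 := by
      rw [hAB, ← Matrix.mul_kronecker_mul, ← Units.val_mul, ← Units.val_mul, mul_inv_cancel, mul_inv_cancel,
        Units.val_one, Matrix.one_kronecker_one]
    rw [e0]
    calc (((g⁻¹ * x 1 * g)⁻¹ : GL (Fin 3 × Fin 3) F) : Matrix (Fin 3 × Fin 3) (Fin 3 × Fin 3) F)
        = (((g⁻¹ * x 1 * g)⁻¹ : GL (Fin 3 × Fin 3) F) : Matrix (Fin 3 × Fin 3) (Fin 3 × Fin 3) F) *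
          (((g⁻¹ * x 1 * g : GL (Fin 3 × Fin 3) F) : Matrix (Fin 3 × Fin 3) (Fin 3 × Fin 3) F) *
            (((A⁻¹ : GL (Fin 3) F) : Matrix (Fin 3) (Fin 3) F) ⊗ₖ ((B⁻¹ : GL (Fin 3) F) : Matrix (Fin 3) (Fin 3) F))) := by
          rw [h1, mul_one]
      _ = _ := by rw [← mul_assoc, ← Units.val_mul, inv_mul_cancel, Units.val_one, one_mul]
  have hZ : ∀ u y, toLin' ((g⁻¹ * x 1 * g : GL (Fin 3 × Fin 3) F) : Matrix (Fin 3 × Fin 3) (Fin 3 × Fin 3) F) (tz u y) =
      tz (toLin' (A : Matrix (Fin 3) (Fin 3) F) u) (toLin' (B : Matrix (Fin 3) (Fin 3) F) y) := by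
    intro u y
    rw [hAB, toLin'_apply]
    exact AschCases.kron_tp _ _ _ _
  have hZi : ∀ u y, toLin' ((g⁻¹ * x (-1) * g : GL (Fin 3 × Fin 3) F) : Matrix (Fin 3 × Fin 3) (Fin 3 × Fin 3) F) (tz u y) =
      tz (toLin' ((A⁻¹ : GL (Fin 3) F) : Matrix (Fin 3) (Fin 3) F) u) (toLin' ((B⁻¹ : GL (Fin 3) F) : Matrix (Fin 3) (Fin 3) F) y) := by
    intro u y
    rw [hZm, toLin'_apply]
    exact AschCases.kron_tp _ _ _ _
  -- the range
  set G := toLin' (g : Matrix (Fin 3 × Fin 3) (Fin 3 × Fin 3) F) with hGd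
  set G' := toLin' ((g⁻¹ : GL (Fin 3 × Fin 3) F) : Matrix (Fin 3 × Fin 3) (Fin 3 × Fin 3) F) with hG'd
  have hGG' : ∀ v, G (G' v) = v := fun v => by
    rw [hGd, hG'd, toLin'_apply, toLin'_apply, mulVec_mulVec, ← Units.val_mul, mul_inv_cancel, Units.val_one, one_mulVec]
  have hG'G : ∀ v, G' (G v) = v := fun v => by
    rw [hGd, hG'd, toLin'_apply, toLin'_apply, mulVec_mulVec, ← Units.val_mul, inv_mul_cancel, Units.val_one, one_mulVec]
  have hcj : ∀ μ v, toLin' ((g⁻¹ * x μ * g : GL (Fin 3 × Fin 3) F) : Matrix (Fin 3 × Fin 3) (Fin 3 × Fin 3) F) v =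
      G' (toLin' (x μ : Matrix (Fin 3 × Fin 3) (Fin 3 × Fin 3) F) (G v)) := by
    intro μ v
    rw [Units.val_mul, Units.val_mul, toLin'_mul, toLin'_mul]
    rfl
  set M : Module.End F (Fin 3 × Fin 3 → F) := toLin' (x 1 : Matrix (Fin 3 × Fin 3) (Fin 3 × Fin 3) F) +
    toLin' (x (-1) : Matrix (Fin 3 × Fin 3) (Fin 3 × Fin 3) F) - (2 : F) • 1 with hMd
  have hM : ∀ u y, M (tz u y) = (-(n * T.W.f y b)) • tz u b := by
    intro u y
    rw [hMd]
    simp only [LinearMap.add_apply, LinearMap.sub_apply, LinearMap.smul_apply, Module.End.one_apply]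
    rw [hx', hx', hE1, hEm, ← tz_add_right, ← tz_smul_right, ← tz_sub_right, ← tz_smul_right]
    congr 1
    have : n / 2 + n / 2 = n := by field_simp; ring
    nth_rw 3 [← this]
    module
  have hMr : ∀ v, M v ∈ LinearMap.range (tR b : (Fin 3 → F) →ₗ[F] (Fin 3 × Fin 3 → F)) := by
    intro v
    have : M = tR b ∘ₗ ((-n) • T.ct b) := by
      apply ext_tR
      intro y
      apply LinearMap.ext; intro u
      show M (tz u y) = tR b ((-n) • T.ct b (tz u y))
      rw [hM, ct_tz, smul_smul, map_smul, neg_mul]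
      rfl
    rw [this]
    exact ⟨_, rfl⟩
  set D₀ : Module.End F (Fin 3 × Fin 3 → F) :=
    toLin' ((g⁻¹ * x 1 * g : GL (Fin 3 × Fin 3) F) : Matrix (Fin 3 × Fin 3) (Fin 3 × Fin 3) F) +
    toLin' ((g⁻¹ * x (-1) * g : GL (Fin 3 × Fin 3) F) : Matrix (Fin 3 × Fin 3) (Fin 3 × Fin 3) F) - (2 : F) • 1 with hD₀
  have hDM : ∀ v, D₀ v = G' (M (G v)) := by
    intro v
    rw [hD₀, hMd]
    simp only [LinearMap.add_apply, LinearMap.sub_apply, LinearMap.smul_apply, Module.End.one_apply, hcj, map_add, map_sub, map_smul,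
      hG'G]
  have hP : (LinearMap.range (tR b : (Fin 3 → F) →ₗ[F] (Fin 3 × Fin 3 → F))).map G' = LinearMap.range D₀ := by
    apply le_antisymm
    · rintro _ ⟨_, ⟨u, rfl⟩, rfl⟩
      obtain ⟨y, hy⟩ := T.W.nd b hb0
      rw [sW] at hy
      have h5 : M (tz u ((-(n * T.W.f y b))⁻¹ • y)) = tR b u := by
        rw [hM, T.W.sesq.smul_left, tR_apply]
        have : -(n * ((-(n * T.W.f y b))⁻¹ * T.W.f y b)) = 1 := by field_simp
        rw [this, one_smul]
      rw [← h5]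
      refine ⟨G' (tz u ((-(n * T.W.f y b))⁻¹ • y)), ?_⟩
      rw [hDM, hGG']
    · rintro _ ⟨v, rfl⟩
      rw [hDM]
      exact Submodule.mem_map_of_mem (hMr _)
  have hG'inj : Function.Injective G' := fun v v' hvv => by rw [← hGG' v, ← hGG' v', hvv]
  have hfr : finrank F (LinearMap.range D₀) = 3 := by
    rw [← hP, ← LinearEquiv.finrank_eq (Submodule.equivMapOfInjective G' hG'inj _), finrank_range_tR hb0, h3]
  have hD₀ne : D₀ ≠ 0 := by
    intro h0
    rw [h0, LinearMap.range_zero, finrank_bot] at hfr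
    omega
  rw [hP]
  by_cases hAs : ∃ r : F, (A : Matrix (Fin 3) (Fin 3) F) = r • 1
  · left
    obtain ⟨r, hr⟩ := hAs
    obtain ⟨r', hrr', hr'⟩ := inv_scalar A hr
    set D : Module.End F (Fin 3 → F) := r • toLin' (B : Matrix (Fin 3) (Fin 3) F) +
      r' • toLin' ((B⁻¹ : GL (Fin 3) F) : Matrix (Fin 3) (Fin 3) F) - (2 : F) • 1 with hD
    have hDt : ∀ u y, D₀ (tz u y) = tz u (D y) := by
      intro u y
      rw [hD₀, hD]
      simp only [LinearMap.add_apply, LinearMap.sub_apply, LinearMap.smul_apply, Module.End.one_apply]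
      rw [hZ, hZi, hr, hr', map_smul, map_smul, toLin'_one, tz_sub_right, tz_add_right, tz_smul_right, tz_smul_right, tz_smul_right]
      simp only [LinearMap.smul_apply, LinearMap.id_apply, tz_smul_left]
    obtain ⟨y₀, hy₀⟩ : ∃ y₀, D y₀ ≠ 0 := by
      by_contra hcon
      push Not at hcon
      apply hD₀ne
      apply ext_tR
      intro y
      apply LinearMap.ext; intro u
      show D₀ (tz u y) = 0
      rw [hDt, hcon, tz_zero_right]
    refine ⟨D y₀, hy₀, (Submodule.eq_of_le_of_finrank_eq ?_ ?_).symm⟩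
    · rintro _ ⟨u, rfl⟩
      exact ⟨tz u y₀, hDt u y₀⟩
    · rw [finrank_range_tR hy₀, hfr, h3]
  by_cases hBs : ∃ r : F, (B : Matrix (Fin 3) (Fin 3) F) = r • 1
  · right
    obtain ⟨r, hr⟩ := hBs
    obtain ⟨r', hrr', hr'⟩ := inv_scalar B hr
    set D : Module.End F (Fin 3 → F) := r • toLin' (A : Matrix (Fin 3) (Fin 3) F) +
      r' • toLin' ((A⁻¹ : GL (Fin 3) F) : Matrix (Fin 3) (Fin 3) F) - (2 : F) • 1 with hD
    have hDt : ∀ u y, D₀ (tz u y) = tz (D u) y := by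
      intro u y
      rw [hD₀, hD]
      simp only [LinearMap.add_apply, LinearMap.sub_apply, LinearMap.smul_apply, Module.End.one_apply]
      rw [hZ, hZi, hr, hr', map_smul, map_smul, toLin'_one, tz_sub_left, tz_add_left, tz_smul_left, tz_smul_left, tz_smul_left]
      simp only [LinearMap.smul_apply, LinearMap.id_apply, tz_smul_right]
    obtain ⟨u₀, hu₀⟩ : ∃ u₀, D u₀ ≠ 0 := by
      by_contra hcon
      push Not at hcon
      apply hD₀ne
      apply ext_tR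
      intro y
      apply LinearMap.ext; intro u
      show D₀ (tz u y) = 0
      rw [hDt, hcon]
      funext p; simp [tz]
    refine ⟨D u₀, hu₀, (Submodule.eq_of_le_of_finrank_eq ?_ ?_).symm⟩
    · rintro _ ⟨y, rfl⟩
      exact ⟨tz u₀ y, hDt u₀ y⟩
    · rw [finrank_range_tL hu₀, hfr]
  exfalso
  push Not at hAs hBs
  obtain ⟨t, ht0, ht1, htm⟩ := exists_t hq
  have hc0 : (1 : F) - t * t ≠ 0 := by
    intro h
    have : (t - 1) * (t + 1) = 0 := by linear_combination -h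
    rcases mul_eq_zero.1 this with h6 | h6
    · exact ht1 (sub_eq_zero.1 h6)
    · exact htm (eq_neg_of_add_eq_zero_left h6)
  have hc1 : (t * t + t) / 2 ≠ 0 := by
    refine div_ne_zero (fun h => ?_) h2
    have : t * (t + 1) = 0 := by linear_combination h
    rcases mul_eq_zero.1 this with h6 | h6
    · exact ht0 h6
    · exact htm (eq_neg_of_add_eq_zero_left h6)
  have hlin : ∀ w, toLin' (x t : Matrix (Fin 3 × Fin 3) (Fin 3 × Fin 3) F) w = (1 - t * t) • w +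
      ((t * t + t) / 2) • toLin' (x 1 : Matrix (Fin 3 × Fin 3) (Fin 3 × Fin 3) F) w +
      ((t * t - t) / 2) • toLin' (x (-1) : Matrix (Fin 3 × Fin 3) (Fin 3 × Fin 3) F) w := by
    have : toLin' (x t : Matrix (Fin 3 × Fin 3) (Fin 3 × Fin 3) F) = (1 - t * t) • (1 : Module.End F (Fin 3 × Fin 3 → F)) +
      ((t * t + t) / 2) • toLin' (x 1 : Matrix (Fin 3 × Fin 3) (Fin 3 × Fin 3) F) +
      ((t * t - t) / 2) • toLin' (x (-1) : Matrix (Fin 3 × Fin 3) (Fin 3 × Fin 3) F) := by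
      apply ext_tR
      intro y
      apply LinearMap.ext; intro u
      show toLin' (x t : Matrix (Fin 3 × Fin 3) (Fin 3 × Fin 3) F) (tz u y) = (1 - t * t) • tz u y +
        ((t * t + t) / 2) • toLin' (x 1 : Matrix (Fin 3 × Fin 3) (Fin 3 × Fin 3) F) (tz u y) +
        ((t * t - t) / 2) • toLin' (x (-1) : Matrix (Fin 3 × Fin 3) (Fin 3 × Fin 3) F) (tz u y)
      rw [hx', hx', hx', hE1, hEm, ← tz_smul_right, ← tz_smul_right, ← tz_smul_right, ← tz_add_right, ← tz_add_right]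
      congr 1
      have e1 : E T.W b (t • c) y = y + (t * T.W.f y c) • b - T.W.f y b • (t • c) - ((t * t * n) / 2 * T.W.f y b) • b := by
        simp only [E, SF.smul_r, T.W.sesq.smul_left, ← hn, mul_assoc]
      rw [e1]
      obtain ⟨s, hs⟩ : ∃ s : F, 2 * s = 1 := ⟨2⁻¹, mul_inv_cancel₀ h2⟩
      have hdiv : ∀ r : F, r / 2 = r * s := fun r => by
        rw [div_eq_iff h2]; linear_combination (-r) * hs
      simp only [hdiv]
      match_scalars
      · linear_combination (-(t * t)) * hs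
      · linear_combination (-(t * T.W.f y c - t * t * n * s * T.W.f y b)) * hs
      · linear_combination (t * T.W.f y b) * hs
    intro w
    rw [this]; rfl
  obtain ⟨At, Bt, hABt⟩ := hk t
  have hZt : (At : Matrix (Fin 3) (Fin 3) F) ⊗ₖ (Bt : Matrix (Fin 3) (Fin 3) F) = (1 - t * t) • ((1 : Matrix (Fin 3) (Fin 3) F) ⊗ₖ (1 : Matrix (Fin 3) (Fin 3) F)) +
      ((t * t + t) / 2) • ((A : Matrix (Fin 3) (Fin 3) F) ⊗ₖ (B : Matrix (Fin 3) (Fin 3) F)) +
      ((t * t - t) / 2) • (((A⁻¹ : GL (Fin 3) F) : Matrix (Fin 3) (Fin 3) F) ⊗ₖ ((B⁻¹ : GL (Fin 3) F) : Matrix (Fin 3) (Fin 3) F)) := by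
    rw [← hABt, ← hAB, ← hZm, Matrix.one_kronecker_one]
    apply toLin'.injective
    apply LinearMap.ext; intro v
    rw [map_add, map_add, map_smul, map_smul, map_smul, toLin'_one]
    simp only [LinearMap.add_apply, LinearMap.smul_apply, LinearMap.id_apply, hcj, hlin, map_add, map_smul, hG'G]
  have hent : ∀ i k j l, (At : Matrix (Fin 3) (Fin 3) F) i k * (Bt : Matrix (Fin 3) (Fin 3) F) j l =
      (1 - t * t) * ((1 : Matrix (Fin 3) (Fin 3) F) i k * (1 : Matrix (Fin 3) (Fin 3) F) j l) +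
      ((t * t + t) / 2) * ((A : Matrix (Fin 3) (Fin 3) F) i k * (B : Matrix (Fin 3) (Fin 3) F) j l) +
      ((t * t - t) / 2) * (((A⁻¹ : GL (Fin 3) F) : Matrix (Fin 3) (Fin 3) F) i k * ((B⁻¹ : GL (Fin 3) F) : Matrix (Fin 3) (Fin 3) F) j l) := by
    intro i k j l
    exact congrFun (congrFun hZt (i, j)) (k, l)
  obtain ⟨α, β, hA'⟩ := dep hAs (A' := ((A⁻¹ : GL (Fin 3) F) : Matrix (Fin 3) (Fin 3) F)) (fun hli => by
    obtain ⟨r, hr⟩ := core1 hc0 hc1 hent hli
    exact hBs r hr)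
  obtain ⟨α', β', hB'⟩ := dep hBs (A' := ((B⁻¹ : GL (Fin 3) F) : Matrix (Fin 3) (Fin 3) F)) (fun hli => by
    obtain ⟨r, hr⟩ := core1 (At := (Bt : Matrix (Fin 3) (Fin 3) F)) (Bt := (At : Matrix (Fin 3) (Fin 3) F))
      (B := (A : Matrix (Fin 3) (Fin 3) F)) (B' := ((A⁻¹ : GL (Fin 3) F) : Matrix (Fin 3) (Fin 3) F)) (c₂ := (t * t - t) / 2) hc0 hc1 (fun i k j l => by
        linear_combination hent j l i k) hli
    exact hAs r hr)
  have hG'iso : ∀ v v', T.Y.f (G' v) (G' v') = T.Y.f v v' := fun v v' => by rw [← hg, hGG', hGG']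
  obtain ⟨⟨m, hm0, hm⟩, ⟨m', hm'0, hm'⟩⟩ := sim_of_iso (T := T) (A := toLin' (A : Matrix (Fin 3) (Fin 3) F))
    (B := toLin' (B : Matrix (Fin 3) (Fin 3) F)) (fun u u' w w' => by
      rw [← T.tp, ← hZ, ← hZ, hcj, hcj, hG'iso, hxi, hg, T.tp])
  have hmat : ∀ (C : GL (Fin 3) F), toLin' (C : Matrix (Fin 3) (Fin 3) F) * toLin' ((C⁻¹ : GL (Fin 3) F) : Matrix (Fin 3) (Fin 3) F) = 1 := by
    intro C
    rw [Module.End.mul_eq_comp, ← toLin'_mul, ← Units.val_mul, mul_inv_cancel, Units.val_one, toLin'_one]; rfl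
  have hlm : ∀ {C : GL (Fin 3) F} {α β : F}, ((C⁻¹ : GL (Fin 3) F) : Matrix (Fin 3) (Fin 3) F) = α • 1 + β • (C : Matrix (Fin 3) (Fin 3) F) →
      toLin' ((C⁻¹ : GL (Fin 3) F) : Matrix (Fin 3) (Fin 3) F) = α • 1 + β • toLin' (C : Matrix (Fin 3) (Fin 3) F) := by
    intro C α β h
    rw [h, map_add, map_smul, map_smul, toLin'_one]; rfl
  have hlns : ∀ {C : GL (Fin 3) F}, (∀ r : F, (C : Matrix (Fin 3) (Fin 3) F) ≠ r • 1) → ∀ r : F, toLin' (C : Matrix (Fin 3) (Fin 3) F) ≠ r • 1 := by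
    intro C h r h5
    apply h r
    apply toLin'.injective
    rw [h5, map_smul, toLin'_one]; rfl
  obtain ⟨r, hr⟩ := sim_sq heX h2 h3 (hmat A) hm (hlm hA') (hlns hAs)
  obtain ⟨r', hr'⟩ := sim_sq he h2 h3 (hmat B) hm' (hlm hB') (hlns hBs)
  set x₁ := toLin' (x 1 : Matrix (Fin 3 × Fin 3) (Fin 3 × Fin 3) F) with hx₁
  have hZZ : ∀ v, G' (x₁ (x₁ (G v))) = (r * r') • v := by
    have h5 : G' ∘ₗ x₁ ∘ₗ x₁ ∘ₗ G = (r * r') • (1 : Module.End F (Fin 3 × Fin 3 → F)) := by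
      apply ext_tR
      intro y
      apply LinearMap.ext; intro u
      show G' (x₁ (x₁ (G (tz u y)))) = (r * r') • tz u y
      have h6 : x₁ (G (tz u y)) = G (tz (toLin' (A : Matrix (Fin 3) (Fin 3) F) u) (toLin' (B : Matrix (Fin 3) (Fin 3) F) y)) := by
        rw [← hZ, hcj, hGG']
      rw [h6, ← hcj, hZ]
      have h7 : toLin' (A : Matrix (Fin 3) (Fin 3) F) (toLin' (A : Matrix (Fin 3) (Fin 3) F) u) = r • u := LinearMap.congr_fun hr u
      have h8 : toLin' (B : Matrix (Fin 3) (Fin 3) F) (toLin' (B : Matrix (Fin 3) (Fin 3) F) y) = r' • y := LinearMap.congr_fun hr' y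
      rw [h7, h8, tz_smul_left, tz_smul_right, smul_smul]
    intro v
    exact LinearMap.congr_fun h5 v
  have hxx : ∀ v, x₁ (x₁ v) = (r * r') • v := by
    intro v
    have := congrArg G (hZZ (G' v))
    rwa [hGG', hGG', map_smul, hGG'] at this
  obtain ⟨u₀, hu₀⟩ := exists_of_nonempty (F := F) (α := Fin 3)
  have e1 := hxx (tz u₀ b)
  rw [hx₁, hx', hx', hE1, hE1] at e1
  simp only [hbc, hb, zero_smul, mul_zero, add_zero, sub_zero] at e1
  have e2 : r * r' = 1 := by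
    have h5 : (r * r' - 1) • tz u₀ b = 0 := by rw [sub_smul, one_smul, ← e1, sub_self]
    rcases smul_eq_zero.1 h5 with h6 | h6
    · exact sub_eq_zero.1 h6
    · exact absurd (tz_eq_zero h6 hb0) hu₀
  have e3 := hxx (tz u₀ c)
  rw [hx₁, hx', hx', hE1, hE1, e2, one_smul] at e3
  simp only [hbc, hb, hcb, ← hn, T.W.sesq.add_left, T.W.sesq.smul_left, zero_smul, mul_zero, add_zero, sub_zero, f_sub_left] at e3
  have e4 : tz u₀ ((2 * n) • b) = 0 := by
    have : (2 * n) • b = c + n • b + n • b - c := by module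
    rw [this, tz_sub_right, e3, sub_self]
  rw [tz_smul_right] at e4
  rcases smul_eq_zero.1 e4 with h6 | h6
  · exact mul_ne_zero h2 hcc h6
  · exact hu₀ (tz_eq_zero h6 hb0)

end fus

end Cfsg.Agent.H94.T33
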