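import Mathlib
import Cfsg.Agent.H94.T33d
import Cfsg.Agent.H94.T33e

set_option autoImplicit false
set_option linter.unusedSectionVars false
set_option linter.unusedVariables false

/-!
The trace step for the tensor square of a three-dimensional space.
-/

namespace Cfsg.Agent.H94.T33

open Module Cfsg.Geo Cfsg.Agent.Asch Matrix Cfsg.Agent.TenMax Cfsg.Agent.H94.T34
open scoped Matrix MatrixGroups Kronecker

variable {F : Type*} [Field F]

section vpe

variable {W : SF (RingEquiv.refl F) (Fin 3)} {N : Type*} [AddCommGroup N] [Module F N]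

theorem vp_mono {M : Type*} [AddCommGroup M] [Module F M] {d e : ℕ} (h : d ≤ e) : VP F M d ≤ VP F M e := by
  apply Submodule.span_mono
  rintro _ ⟨i, hi, x, rfl⟩
  exact ⟨i, by omega, x, rfl⟩

theorem E_b {b b' c : Fin 3 → F} (hf : Fr3 W b b' c) (μ : F) : E W b (μ • c) b = b := by
  simp only [E, SF.smul_r, hf.aa, W.zero_symm hf.ca]; simp

theorem E_c {b b' c : Fin 3 → F} (hf : Fr3 W b b' c) (μ : F) : E W b (μ • c) c = c + μ • (W.f c c • b) := by
  simp only [E, SF.smul_r, hf.ca]; simp [mul_smul]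

theorem E_b' (he : W.e = 1) {b b' c : Fin 3 → F} (hf : Fr3 W b b' c) (μ : F) :
    E W b (μ • c) b' = b' + μ • (-c) + (μ * μ) • (-((W.f c c / 2) • b)) := by
  have h1 : W.f b' b = 1 := by rw [SF.symm1 he]; exact hf.h
  simp only [E, SF.smul_r, W.sesq.smul_left, W.zero_symm hf.ca', h1]
  match_scalars <;> ring

theorem vp_E (he : W.e = 1) {b b' c : Fin 3 → F} (hf : Fr3 W b b' c) (i : Fin 3) :
    (fun μ : F => E W b (μ • c) ((![b, c, b'] : Fin 3 → Fin 3 → F) i)) ∈ VP F (Fin 3 → F) (i : ℕ) := by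
  fin_cases i
  · show (fun μ : F => E W b (μ • c) b) ∈ VP F (Fin 3 → F) 0
    have : (fun μ : F => E W b (μ • c) b) = fun _ => b := by funext μ; exact E_b hf μ
    rw [this]; exact vp_const _
  · show (fun μ : F => E W b (μ • c) c) ∈ VP F (Fin 3 → F) 1
    have : (fun μ : F => E W b (μ • c) c) = (fun _ => c) + fun μ => μ • (W.f c c • b) := by funext μ; exact E_c hf μ
    rw [this]; exact Submodule.add_mem _ (vp_const _) (vp_lin le_rfl _)
  · show (fun μ : F => E W b (μ • c) b') ∈ VP F (Fin 3 → F) 2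
    have : (fun μ : F => E W b (μ • c) b') = (fun _ => b') + (fun μ => μ • (-c)) + fun μ => (μ * μ) • (-((W.f c c / 2) • b)) := by
      funext μ; exact E_b' he hf μ
    rw [this]; exact Submodule.add_mem _ (Submodule.add_mem _ (vp_const _) (vp_lin (by norm_num) _)) (vp_sq le_rfl _)

theorem vp_pair (he : W.e = 1) {b b' c : Fin 3 → F} (hf : Fr3 W b b' c) (H : (Fin 3 → F) →ₗ[F] (Fin 3 → F) →ₗ[F] N)
    (hH : ∀ y, H y y = 0) (j k : Fin 3) :
    (fun μ : F => H (E W b (μ • c) ((![b, c, b'] : Fin 3 → Fin 3 → F) j)) (E W b (μ • c) ((![b, c, b'] : Fin 3 → Fin 3 → F) k))) ∈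
      VP F N ((j : ℕ) + k - 1) := by
  have anti : ∀ y z, H z y = -H y z := by
    intro y z
    have h1 := hH (y + z)
    simp only [map_add, LinearMap.add_apply, hH, zero_add, add_zero] at h1
    exact eq_neg_of_add_eq_zero_left h1
  have k0 : ∀ (v : Fin 3 → F) (d : ℕ), (fun μ : F => H (E W b (μ • c) v) (E W b (μ • c) v)) ∈ VP F N d := by
    intro v d
    have : (fun μ : F => H (E W b (μ • c) v) (E W b (μ • c) v)) = 0 := by funext μ; exact hH _
    rw [this]; exact Submodule.zero_mem _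
  have k01 : (fun μ : F => H (E W b (μ • c) b) (E W b (μ • c) c)) ∈ VP F N 0 := by
    have : (fun μ : F => H (E W b (μ • c) b) (E W b (μ • c) c)) = fun _ => H b c := by
      funext μ
      rw [E_b hf, E_c hf, map_add, map_smul, map_smul, hH, smul_zero, smul_zero, add_zero]
    rw [this]; exact vp_const _
  have k02 : (fun μ : F => H (E W b (μ • c) b) (E W b (μ • c) b')) ∈ VP F N 1 := by
    have : (fun μ : F => H (E W b (μ • c) b) (E W b (μ • c) b')) = (fun _ => H b b') + fun μ => μ • (-(H b c)) := by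
      funext μ
      rw [E_b hf, E_b' he hf, map_add, map_add, map_smul, map_smul, map_neg, map_neg, map_smul, hH, smul_zero, neg_zero, smul_zero, add_zero]
      rfl
    rw [this]; exact Submodule.add_mem _ (vp_const _) (vp_lin le_rfl _)
  have k12 : (fun μ : F => H (E W b (μ • c) c) (E W b (μ • c) b')) ∈ VP F N 2 := by
    have : (fun μ : F => H (E W b (μ • c) c) (E W b (μ • c) b')) = (fun _ => H c b') + (fun μ => μ • (W.f c c • H b b')) +
        fun μ => (μ * μ) • ((W.f c c / 2 - W.f c c) • H b c) := by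
      funext μ
      rw [E_c hf, E_b' he hf]
      simp only [map_add, map_smul, map_neg, LinearMap.add_apply, LinearMap.smul_apply, hH, anti b c, Pi.add_apply]
      module
    rw [this]; exact Submodule.add_mem _ (Submodule.add_mem _ (vp_const _) (vp_lin (by norm_num) _)) (vp_sq le_rfl _)
  have neg : ∀ {v w : Fin 3 → F} {d : ℕ}, (fun μ : F => H (E W b (μ • c) v) (E W b (μ • c) w)) ∈ VP F N d →
      (fun μ : F => H (E W b (μ • c) w) (E W b (μ • c) v)) ∈ VP F N d := by
    intro v w d h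
    have : (fun μ : F => H (E W b (μ • c) w) (E W b (μ • c) v)) = -(fun μ : F => H (E W b (μ • c) v) (E W b (μ • c) w)) := by
      funext μ; exact anti _ _
    rw [this]; exact Submodule.neg_mem _ h
  fin_cases j <;> fin_cases k
  · exact k0 _ _
  · exact k01
  · exact k02
  · exact neg k01
  · exact k0 _ _
  · exact k12
  · exact neg k02
  · exact neg k12
  · exact k0 _ _

end vpe

/-- exchanging the first two arguments -/
def sw {κ : Type} (s : Tr3 F κ) : Tr3 F κ := fun a b c => s b a c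

theorem tri_sw {κ : Type} [Fintype κ] [DecidableEq κ] {s : Tr3 F κ} (h : Tri s) : Tri (sw s) where
  l1 b c := h.l2 b c
  l2 b c := h.l1 b c
  l3 b c := h.l3 c b

section

variable {κ : Type} [Fintype κ] [DecidableEq κ]

theorem act_sw (g : GL κ F) (s : Tr3 F κ) : act g (sw s) = sw (act g s) := rfl

end

variable {T : TData (RingEquiv.refl F) (Fin 3) (Fin 3)}

/-- an isometry exchanging the factors -/
theorem act_swap {g : GL (Fin 3 × Fin 3) F} {A B : Module.End F (Fin 3 → F)}
    (hg : ∀ u w, toLin' (g : Matrix (Fin 3 × Fin 3) (Fin 3 × Fin 3) F) (tz u w) = tz (B w) (A u))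
    (hiso : ∀ v v', T.Y.f (toLin' (g : Matrix (Fin 3 × Fin 3) (Fin 3 × Fin 3) F) v) (toLin' (g : Matrix (Fin 3 × Fin 3) (Fin 3 × Fin 3) F) v') =
      T.Y.f v v') : act g (tt T) = sw (tt T) := by
  have key : ∀ a b c, tt T ((g : Matrix _ _ F) *ᵥ b) ((g : Matrix _ _ F) *ᵥ a) ((g : Matrix _ _ F) *ᵥ c) =
      (g : Matrix _ _ F) *ᵥ tt T a b c := by
    have h1 : (fun a b c => tt T ((g : Matrix _ _ F) *ᵥ b) ((g : Matrix _ _ F) *ᵥ a) ((g : Matrix _ _ F) *ᵥ c)) =
        fun a b c => (g : Matrix _ _ F) *ᵥ tt T a b c := by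
      apply tri_ext
      · exact ⟨fun b c => ⟨fun x y => by rw [mulVec_add, (tri_tt.l2 _ _).map_add], fun r x => by rw [mulVec_smul, (tri_tt.l2 _ _).map_smul]⟩,
          fun b c => ⟨fun x y => by rw [mulVec_add, (tri_tt.l1 _ _).map_add], fun r x => by rw [mulVec_smul, (tri_tt.l1 _ _).map_smul]⟩,
          fun b c => ⟨fun x y => by rw [mulVec_add, (tri_tt.l3 _ _).map_add], fun r x => by rw [mulVec_smul, (tri_tt.l3 _ _).map_smul]⟩⟩
      · exact ⟨fun b c => ⟨fun x y => by rw [(tri_tt.l1 _ _).map_add, mulVec_add], fun r x => by rw [(tri_tt.l1 _ _).map_smul, mulVec_smul]⟩,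
          fun b c => ⟨fun x y => by rw [(tri_tt.l2 _ _).map_add, mulVec_add], fun r x => by rw [(tri_tt.l2 _ _).map_smul, mulVec_smul]⟩,
          fun b c => ⟨fun x y => by rw [(tri_tt.l3 _ _).map_add, mulVec_add], fun r x => by rw [(tri_tt.l3 _ _).map_smul, mulVec_smul]⟩⟩
      · intro u u' u'' w w' w''
        have h3 := hiso (tz u w') (tz u'' w'')
        rw [hg, hg, T.tp, T.tp] at h3
        have h4 : ∀ u w, (g : Matrix (Fin 3 × Fin 3) (Fin 3 × Fin 3) F) *ᵥ tz u w = tz (B w) (A u) := hg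
        rw [h4, h4, h4, tt_tz, tt_tz, mulVec_smul, h4, mul_comm, h3, mul_comm]
    intro a b c
    exact congrFun (congrFun (congrFun h1 a) b) c
  funext a b c
  show (g : Matrix (Fin 3 × Fin 3) (Fin 3 × Fin 3) F) *ᵥ tt T _ _ _ = tt T b a c
  rw [← key, mulVec_mulVec, mulVec_mulVec, mulVec_mulVec, ← Units.val_mul, mul_inv_cancel, Units.val_one, one_mulVec, one_mulVec,
    one_mulVec]

/-- the two forms of the trilinear map are different -/
theorem tt_ne_sw : tt T ≠ sw (tt T) := by
  intro h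
  obtain ⟨u, hu⟩ := exists_of_nonempty (F := F) (α := Fin 3)
  obtain ⟨w, hw⟩ := T.W.nd u hu
  -- `x''` orthogonal to `u'` but not to `u`
  obtain ⟨u', hu'⟩ : ∃ u', u' ∉ Submodule.span F {u} := by
    by_contra hcon
    push Not at hcon
    have h1 : (⊤ : Submodule F (Fin 3 → F)) ≤ Submodule.span F {u} := fun v _ => hcon v
    have h3 := Submodule.finrank_mono h1
    rw [finrank_top, finrank_fin_fun, finrank_span_singleton hu] at h3
    omega
  obtain ⟨y, h1, h3⟩ := T.X.exists_perp_one hu'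
  have h4 := congrFun (congrFun (congrFun h (tz u' u)) (tz u u)) (tz y w)
  rw [sw, tt_tz, tt_tz] at h4
  have h1' := T.X.zero_symm h1
  have h3' : T.X.f u' y ≠ 0 := T.X.ne_zero_swap (by rw [h3]; exact one_ne_zero)
  rw [h1', mul_zero, zero_smul] at h4
  rcases smul_eq_zero.1 h4 with h5 | h5
  · exact mul_ne_zero hw h3' h5
  · exact hu (tz_eq_zero h5 hu)

end Cfsg.Agent.H94.T33
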