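import Mathlib
import Cfsg.Agent.H94.T33f

set_option autoImplicit false
set_option linter.unusedSectionVars false
set_option linter.unusedVariables false

/-!
The antisymmetric part of the invariant trilinear map.
-/

namespace Cfsg.Agent.H94.T33

open Module Cfsg.Geo Cfsg.Agent.Asch Matrix Cfsg.Agent.TenMax Cfsg.Agent.H94.T34
open scoped Matrix MatrixGroups Kronecker

variable {F : Type*} [Field F] {T : TData (RingEquiv.refl F) (Fin 3) (Fin 3)} {K : Subgroup (GL (Fin 3 × Fin 3) F)}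

/-- the hypotheses of the trace step -/
structure Hyp (T : TData (RingEquiv.refl F) (Fin 3) (Fin 3)) (K : Subgroup (GL (Fin 3 × Fin 3) F)) : Prop where
  hK : TGrp T K
  line : ∀ g ∈ K, ∀ w w' : Fin 3 → F, w ≠ 0 → T.W.f w w = 0 → w' ≠ 0 →
    (LinearMap.range (tR w : (Fin 3 → F) →ₗ[F] (Fin 3 × Fin 3 → F))).map (toLin' (g : Matrix (Fin 3 × Fin 3) (Fin 3 × Fin 3) F)) =
      LinearMap.range (tR w') → g ∈ kroneckerSubgroup 3 3 F
  swap : ∃ h ∈ K, ∃ A B : Module.End F (Fin 3 → F), Function.Injective A ∧ Function.Injective B ∧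
    ∀ u w, toLin' (h : Matrix (Fin 3 × Fin 3) (Fin 3 × Fin 3) F) (tz u w) = tz (B w) (A u)

theorem Hyp.kron [Fintype F] (hH : Hyp T K) {g : GL (Fin 3 × Fin 3) F} (hg : g ∈ K) (h : act g (tt T) = tt T) :
    g ∈ kroneckerSubgroup 3 3 F := by
  obtain ⟨w, -, hw0, hw⟩ := T.W.exists_iso_mem (U := ⊤) (by rw [finrank_top, finrank_fin_fun])
  obtain ⟨w', hw'0, h'⟩ := range_of_act_tt h hw0 ⟨(0 : Fin 3)⟩
  exact hH.line g hg w w' hw0 hw hw'0 h'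

/-- Siegel elements -/
theorem exists_x (h2 : (2 : F) ≠ 0) (he : T.W.e = 1) (hK : TGrp T K) {b c : Fin 3 → F} (hb : T.W.f b b = 0) (hcb : T.W.f c b = 0) :
    ∃ x : F → GL (Fin 3 × Fin 3) F, (∀ μ, x μ ∈ K) ∧
      (∀ μ u y, (x μ : Matrix (Fin 3 × Fin 3) (Fin 3 × Fin 3) F) *ᵥ tz u y = tz u (E T.W b (μ • c) y)) ∧
      (∀ μ ν, x (μ + ν) = x μ * x ν) ∧ x 0 = 1 ∧ ∀ μ, x μ ∈ kroneckerSubgroup 3 3 F := by
  have hx : ∀ w z : Fin 3 → F, T.W.f w w = 0 → T.W.f z w = 0 → ∃ x ∈ K, ∀ u y,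
      (x : Matrix (Fin 3 × Fin 3) (Fin 3 × Fin 3) F) *ᵥ tz u y = tz u (E T.W w z y) := by
    intro w z hw hz
    obtain ⟨x, hx, hxe⟩ := hK.sieg w z (-(T.W.f z z / 2)) hw hz (sieg_cond he h2 z)
    refine ⟨x, hx, fun u y => ?_⟩
    rw [← toLin'_apply, hxe, sg_E he]
  have hxk : ∀ (w z : Fin 3 → F) (x : GL (Fin 3 × Fin 3) F), (∀ u y,
      (x : Matrix (Fin 3 × Fin 3) (Fin 3 × Fin 3) F) *ᵥ tz u y = tz u (E T.W w z y)) → x ∈ kroneckerSubgroup 3 3 F := by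
    intro w z x hx
    apply mem_kron_of_tR (by norm_num) (by norm_num) (A := 1) (h := E T.W w z)
    intro y
    apply LinearMap.ext; intro u
    show toLin' (x : Matrix (Fin 3 × Fin 3) (Fin 3 × Fin 3) F) (tz u y) = _
    rw [toLin'_apply, hx]; rfl
  have hx' : ∀ μ : F, ∃ x ∈ K, ∀ u y,
      (x : Matrix (Fin 3 × Fin 3) (Fin 3 × Fin 3) F) *ᵥ tz u y = tz u (E T.W b (μ • c) y) := fun μ =>
    hx b (μ • c) hb (by rw [T.W.sesq.smul_left, hcb, mul_zero])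
  choose x hxK hxe using hx'
  refine ⟨x, hxK, hxe, ?_, ?_, fun μ => hxk _ _ _ (hxe μ)⟩
  · intro μ ν
    apply ext_gl
    intro u y
    rw [hxe, Units.val_mul, ← mulVec_mulVec, hxe, hxe, E_E trivial h2 hb hcb]
  · apply ext_gl
    intro u y
    rw [hxe, Units.val_one, one_mulVec]
    congr 1
    simp [E, T.W.zero_right, T.W.zero_left]

/-- fixed points of the Siegel elements -/
theorem fixed [Fintype F] (h2 : (2 : F) ≠ 0) (hq : 5 ≤ Fintype.card F) (heX : T.X.e = 1) (he : T.W.e = 1) (hH : Hyp T K)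
    {b b' c : Fin 3 → F} (hf : Fr3 T.W b b' c) {x : F → GL (Fin 3 × Fin 3) F} (hxK : ∀ μ, x μ ∈ K)
    (hx : ∀ μ u y, (x μ : Matrix (Fin 3 × Fin 3) (Fin 3 × Fin 3) F) *ᵥ tz u y = tz u (E T.W b (μ • c) y))
    {g : GL (Fin 3 × Fin 3) F} (hg : g ∈ K) (hfix : ∀ μ, act (x μ) (act g (tt T)) = act g (tt T)) :
    act g (tt T) = tt T ∨ act g (tt T) = sw (tt T) := by
  have hb0 : b ≠ 0 := ne_zero_of_f (W := T.W) (b' := b') (by rw [hf.h]; exact one_ne_zero)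
  have hgi := K.inv_mem hg
  have hk : ∀ μ, g⁻¹ * x μ * g ∈ kroneckerSubgroup 3 3 F := by
    intro μ
    apply hH.kron (K.mul_mem (K.mul_mem hgi (hxK μ)) hg)
    rw [act_mul, act_mul, hfix μ, ← act_mul, inv_mul_cancel, act_one]
  rcases fusion33 h2 hq heX he hb0 hf.aa hf.ca hf.cc hx (hH.hK.iso _ (Has.toLin (hxK 1))) (hH.hK.iso _ (Has.toLin hg)) hk with
    ⟨b₁, hb₁, h⟩ | ⟨a₁, ha₁, h⟩
  · left
    have h1 := hH.line _ hgi b b₁ hb0 hf.aa hb₁ h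
    have h3 := act_eq_of_kron hH.hK hgi h1
    conv_lhs => rw [← h3]
    rw [← act_mul, mul_inv_cancel, act_one]
  · right
    obtain ⟨h₀, hh₀, A, B, hA, hB, hAB⟩ := hH.swap
    have hBs : Function.Surjective B := (LinearMap.injective_iff_surjective).1 hB
    have h1 : (LinearMap.range (tR b : (Fin 3 → F) →ₗ[F] (Fin 3 × Fin 3 → F))).map
        (toLin' ((h₀ * g⁻¹ : GL (Fin 3 × Fin 3) F) : Matrix (Fin 3 × Fin 3) (Fin 3 × Fin 3) F)) = LinearMap.range (tR (A a₁)) := by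
      rw [Units.val_mul, toLin'_mul, Submodule.map_comp, h]
      ext v
      constructor
      · rintro ⟨_, ⟨y, rfl⟩, rfl⟩
        exact ⟨B y, (hAB a₁ y).symm⟩
      · rintro ⟨u, rfl⟩
        obtain ⟨y, rfl⟩ := hBs u
        exact ⟨tL a₁ y, ⟨y, rfl⟩, hAB a₁ y⟩
    have hAa : A a₁ ≠ 0 := fun h0 => ha₁ (hA (by rw [h0, map_zero]))
    have hkK := K.mul_mem hh₀ hgi
    have hkk := hH.line _ hkK b (A a₁) hb0 hf.aa hAa h1
    have e1 := act_eq_of_kron hH.hK hkK hkk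
    have e2 : act h₀ (tt T) = sw (tt T) := act_swap hAB (hH.hK.iso _ (Has.toLin hh₀))
    have e3 : g = (h₀ * g⁻¹)⁻¹ * h₀ := by group
    have e4 : act (h₀ * g⁻¹)⁻¹ (tt T) = tt T := by
      conv_lhs => rw [← e1]
      rw [← act_mul, inv_mul_cancel, act_one]
    rw [e3, act_mul, e2, act_sw, e4]

/-- the value -/
noncomputable def val (W : SF (RingEquiv.refl F) (Fin 3)) (φ : (Fin 3 → F) →ₗ[F] F) (u₁ u₂ u₃ y₁ y₂ y₃ y₄ : Fin 3 → F) :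
    Tr3 F (Fin 3 × Fin 3) →+ F where
  toFun s := W.f (cL φ (s (tz u₁ y₁) (tz u₂ y₂) (tz u₃ y₃)) - cL φ (s (tz u₁ y₁) (tz u₂ y₃) (tz u₃ y₂))) y₄
  map_zero' := by simp [W.zero_left]
  map_add' s s' := by
    simp only [Pi.add_apply, map_add]
    rw [← W.sesq.add_left]; congr 1; abel

/-- the bilinear form -/
noncomputable def Bf (W : SF (RingEquiv.refl F) (Fin 3)) : (Fin 3 → F) →ₗ[F] (Fin 3 → F) →ₗ[F] F :=
  LinearMap.mk₂ F W.f (fun x y z => W.sesq.add_left x y z) (fun c x y => W.sesq.smul_left c x y)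
    (fun x y z => W.sesq.add_right x y z) (fun c x y => SF.smul_r c x y)

theorem Bf_apply (W : SF (RingEquiv.refl F) (Fin 3)) (x y : Fin 3 → F) : Bf W x y = W.f x y := rfl

/-- coordinates of a trilinear map -/
noncomputable def Dm {s : Tr3 F (Fin 3 × Fin 3)} (hs : Tri s) (φ : (Fin 3 → F) →ₗ[F] F) (u₁ u₂ u₃ : Fin 3 → F) :
    (Fin 3 → F) →ₗ[F] (Fin 3 → F) →ₗ[F] (Fin 3 → F) →ₗ[F] (Fin 3 → F) where
  toFun y₂ :=
    { toFun := fun y₃ =>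
        { toFun := fun y₁ => cL φ (s (tz u₁ y₁) (tz u₂ y₂) (tz u₃ y₃))
          map_add' := fun y y' => by rw [tz_add_right, (hs.l1 _ _).map_add, map_add]
          map_smul' := fun c y => by rw [tz_smul_right, (hs.l1 _ _).map_smul, map_smul]; rfl }
      map_add' := fun y y' => by
        apply LinearMap.ext; intro y₁
        show cL φ (s (tz u₁ y₁) (tz u₂ y₂) (tz u₃ (y + y'))) = cL φ _ + cL φ _
        rw [tz_add_right, (hs.l3 _ _).map_add, map_add]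
      map_smul' := fun c y => by
        apply LinearMap.ext; intro y₁
        show cL φ (s (tz u₁ y₁) (tz u₂ y₂) (tz u₃ (c • y))) = c • cL φ _
        rw [tz_smul_right, (hs.l3 _ _).map_smul, map_smul] }
  map_add' y y' := by
    apply LinearMap.ext; intro y₃
    apply LinearMap.ext; intro y₁
    show cL φ (s (tz u₁ y₁) (tz u₂ (y + y')) (tz u₃ y₃)) = cL φ _ + cL φ _
    rw [tz_add_right, (hs.l2 _ _).map_add, map_add]
  map_smul' c y := by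
    apply LinearMap.ext; intro y₃
    apply LinearMap.ext; intro y₁
    show cL φ (s (tz u₁ y₁) (tz u₂ (c • y)) (tz u₃ y₃)) = c • cL φ _
    rw [tz_smul_right, (hs.l2 _ _).map_smul, map_smul]

/-- the antisymmetric part of a bilinear map -/
def altp {M N : Type*} [AddCommGroup M] [Module F M] [AddCommGroup N] [Module F N] (H : M →ₗ[F] M →ₗ[F] N) : M →ₗ[F] M →ₗ[F] N :=
  H - H.flip

theorem altp_apply {M N : Type*} [AddCommGroup M] [Module F M] [AddCommGroup N] [Module F N] (H : M →ₗ[F] M →ₗ[F] N) (x y : M) :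
    altp H x y = H x y - H y x := rfl

/-- the antisymmetric part -/
noncomputable def H2 {s : Tr3 F (Fin 3 × Fin 3)} (hs : Tri s) (φ : (Fin 3 → F) →ₗ[F] F) (u₁ u₂ u₃ : Fin 3 → F) :
    (Fin 3 → F) →ₗ[F] (Fin 3 → F) →ₗ[F] (Fin 3 → F) →ₗ[F] (Fin 3 → F) := altp (Dm hs φ u₁ u₂ u₃)

theorem H2_apply {s : Tr3 F (Fin 3 × Fin 3)} (hs : Tri s) (φ : (Fin 3 → F) →ₗ[F] F) (u₁ u₂ u₃ y₁ y₂ y₃ : Fin 3 → F) :
    H2 hs φ u₁ u₂ u₃ y₂ y₃ y₁ = cL φ (s (tz u₁ y₁) (tz u₂ y₂) (tz u₃ y₃)) - cL φ (s (tz u₁ y₁) (tz u₂ y₃) (tz u₃ y₂)) := rfl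

theorem H2_self {s : Tr3 F (Fin 3 × Fin 3)} (hs : Tri s) (φ : (Fin 3 → F) →ₗ[F] F) (u₁ u₂ u₃ y : Fin 3 → F) :
    H2 hs φ u₁ u₂ u₃ y y = 0 := by
  apply LinearMap.ext; intro y₁
  rw [H2_apply, sub_self]; rfl

theorem val_eq {W : SF (RingEquiv.refl F) (Fin 3)} {s : Tr3 F (Fin 3 × Fin 3)} (hs : Tri s) (φ : (Fin 3 → F) →ₗ[F] F)
    (u₁ u₂ u₃ y₁ y₂ y₃ y₄ : Fin 3 → F) : val W φ u₁ u₂ u₃ y₁ y₂ y₃ y₄ s = Bf W (H2 hs φ u₁ u₂ u₃ y₂ y₃ y₁) y₄ := rfl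

theorem val_act (h2 : (2 : F) ≠ 0) (he : T.W.e = 1) {b b' c : Fin 3 → F} (hf : Fr3 T.W b b' c) {x : F → GL (Fin 3 × Fin 3) F}
    (hx : ∀ μ u y, (x μ : Matrix (Fin 3 × Fin 3) (Fin 3 × Fin 3) F) *ᵥ tz u y = tz u (E T.W b (μ • c) y))
    (hxadd : ∀ μ ν, x (μ + ν) = x μ * x ν) (hx0 : x 0 = 1)
    {s : Tr3 F (Fin 3 × Fin 3)} (hs : Tri s) (φ : (Fin 3 → F) →ₗ[F] F) (u₁ u₂ u₃ y₁ y₂ y₃ y₄ : Fin 3 → F) (μ : F) :
    val T.W φ u₁ u₂ u₃ y₁ y₂ y₃ y₄ (act (x (-μ)) s) =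
      Bf T.W (H2 hs φ u₁ u₂ u₃ (E T.W b (μ • c) y₂) (E T.W b (μ • c) y₃) (E T.W b (μ • c) y₁)) (E T.W b (μ • c) y₄) := by
  have hinv : (x (-μ))⁻¹ = x μ := by rw [inv_eq_iff_mul_eq_one, ← hxadd, neg_add_cancel, hx0]
  have hc : ∀ v, cL φ ((x (-μ) : Matrix (Fin 3 × Fin 3) (Fin 3 × Fin 3) F) *ᵥ v) = EL T.W b (-(μ • c)) (cL φ v) := by
    have : cL φ ∘ₗ toLin' (x (-μ) : Matrix (Fin 3 × Fin 3) (Fin 3 × Fin 3) F) = EL T.W b (-(μ • c)) ∘ₗ cL φ := by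
      apply ext_tR
      intro y
      apply LinearMap.ext; intro u
      show cL φ (toLin' _ (tz u y)) = EL T.W b (-(μ • c)) (cL φ (tz u y))
      rw [toLin'_apply, hx, cL_tz, cL_tz, map_smul, neg_smul]
      rfl
    intro v
    exact LinearMap.congr_fun this v
  have hadj : ∀ v y, T.W.f (EL T.W b (-(μ • c)) v) y = T.W.f v (E T.W b (μ • c) y) := by
    intro v y
    rw [← dag_EL he h2, dag_spec]; rfl
  show T.W.f (cL φ (act (x (-μ)) s (tz u₁ y₁) (tz u₂ y₂) (tz u₃ y₃)) - cL φ (act (x (-μ)) s (tz u₁ y₁) (tz u₂ y₃) (tz u₃ y₂))) y₄ = _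
  simp only [act]
  rw [hinv, hx, hx, hx, hx, hx, hc, hc, ← map_sub, hadj]
  rfl

theorem val_vp (h2 : (2 : F) ≠ 0) (he : T.W.e = 1) {b b' c : Fin 3 → F} (hf : Fr3 T.W b b' c) {x : F → GL (Fin 3 × Fin 3) F}
    (hx : ∀ μ u y, (x μ : Matrix (Fin 3 × Fin 3) (Fin 3 × Fin 3) F) *ᵥ tz u y = tz u (E T.W b (μ • c) y))
    (hxadd : ∀ μ ν, x (μ + ν) = x μ * x ν) (hx0 : x 0 = 1)
    {s : Tr3 F (Fin 3 × Fin 3)} (hs : Tri s) (φ : (Fin 3 → F) →ₗ[F] F) (u₁ u₂ u₃ : Fin 3 → F) {i j k l : Fin 3} (hjk : j ≠ k)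
    (h4 : (i : ℕ) + j + k + l ≤ 4) :
    (fun μ : F => val T.W φ u₁ u₂ u₃ ((![b, c, b'] : Fin 3 → Fin 3 → F) i) ((![b, c, b'] : Fin 3 → Fin 3 → F) j)
      ((![b, c, b'] : Fin 3 → Fin 3 → F) k) ((![b, c, b'] : Fin 3 → Fin 3 → F) l) (act (x (-μ)) s)) ∈ VP F F 3 := by
  simp only [val_act h2 he hf hx hxadd hx0 hs]
  have e1 := vp_pair he hf (H2 hs φ u₁ u₂ u₃) (H2_self hs φ u₁ u₂ u₃) j k
  have e2 := vp_app e1 (vp_E he hf i)
  have e3 := vp_app (vp_const (d := 0) (Bf T.W)) e2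
  have e4 := vp_app e3 (vp_E he hf l)
  refine vp_mono ?_ e4
  have : (j : ℕ) ≠ k := fun h => hjk (Fin.ext h)
  omega

end Cfsg.Agent.H94.T33
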