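import Mathlib
import Cfsg.Agent.H94.T33g

set_option autoImplicit false
set_option linter.unusedSectionVars false
set_option linter.unusedVariables false

/-!
The symmetric remainder of the invariant trilinear map.
-/

namespace Cfsg.Agent.H94.T33

open Module Cfsg.Geo Cfsg.Agent.Asch Matrix Cfsg.Agent.TenMax Cfsg.Agent.H94.T34
open scoped Matrix MatrixGroups Kronecker

variable {F : Type*} [Field F] {T : TData (RingEquiv.refl F) (Fin 3) (Fin 3)} {K : Subgroup (GL (Fin 3 × Fin 3) F)}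

theorem tri_sw23 {κ : Type} [Fintype κ] [DecidableEq κ] {s : Tr3 F κ} (h : Tri s) : Tri (fun a b c => s a c b) where
  l1 b c := h.l1 c b
  l2 b c := h.l3 b c
  l3 b c := h.l2 b c

theorem act_eq_iff {κ : Type} [Fintype κ] [DecidableEq κ] {g : GL κ F} {s s' : Tr3 F κ} (h : act g s = s') (a b c : κ → F) :
    s' ((g : Matrix κ κ F) *ᵥ a) ((g : Matrix κ κ F) *ᵥ b) ((g : Matrix κ κ F) *ᵥ c) = (g : Matrix κ κ F) *ᵥ s a b c := by
  have hinv : ∀ v, ((g⁻¹ : GL κ F) : Matrix κ κ F) *ᵥ ((g : Matrix κ κ F) *ᵥ v) = v := by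
    intro v
    rw [mulVec_mulVec, ← Units.val_mul, inv_mul_cancel, Units.val_one, one_mulVec]
  rw [← h]
  simp only [act, hinv]

theorem ext_fr {W : SF (RingEquiv.refl F) (Fin 3)} {b b' c : Fin 3 → F} (hf : Fr3 W b b' c) {M : Type*} [AddCommMonoid M] [Module F M]
    {L L' : (Fin 3 → F) →ₗ[F] M} (h : ∀ i, L ((![b, c, b'] : Fin 3 → Fin 3 → F) i) = L' ((![b, c, b'] : Fin 3 → Fin 3 → F) i)) :
    L = L' := by
  have h0 : L b = L' b := h 0
  have h1 : L c = L' c := h 1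
  have h2 : L b' = L' b' := h 2
  apply LinearMap.ext
  intro y
  rw [hf.exp y]
  simp only [map_add, map_smul, h0, h1, h2]

/-- the antisymmetric part of the invariant trilinear map -/
theorem trace33 [Fintype F] (h2 : (2 : F) ≠ 0) (hq : 5 ≤ Fintype.card F) (heX : T.X.e = 1) (he : T.W.e = 1) (hH : Hyp T K)
    (X Y Z : Fin 3 × Fin 3 → F) : (∑ s ∈ orb K (tt T), s) X Y Z - (∑ s ∈ orb K (tt T), s) X Z Y =
      tt T X Y Z + tt T Y X Z - (tt T X Z Y + tt T Z X Y) := by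
  classical
  have h3 : Fintype.card (Fin 3) = 3 := Fintype.card_fin 3
  obtain ⟨h₀, hh₀, A, B, hA, hB, hAB⟩ := hH.swap
  have hsw : act h₀ (tt T) = sw (tt T) := act_swap hAB (hH.hK.iso _ (Has.toLin hh₀))
  have hswmem : sw (tt T) ∈ orb K (tt T) := mem_orb.2 ⟨h₀, hh₀, hsw⟩
  set S := ∑ s ∈ orb K (tt T), s with hSd
  set O' := ((orb K (tt T)).erase (tt T)).erase (sw (tt T)) with hO'
  set δ := ∑ s ∈ O', s with hδ
  have hS : S = tt T + (sw (tt T) + δ) := by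
    rw [hSd, ← Finset.add_sum_erase _ _ (self_mem_orb (K := K) (t := tt T)),
      ← Finset.add_sum_erase ((orb K (tt T)).erase (tt T)) _ (Finset.mem_erase.2 ⟨Ne.symm tt_ne_sw, hswmem⟩)]
  have hTs : ∀ s ∈ orb K (tt T), Tri s := fun s hs => by
    obtain ⟨g, -, rfl⟩ := mem_orb.1 hs
    exact tri_tt.act g
  have hδT : Tri δ := Tri.sum fun s hs => hTs s (Finset.mem_erase.1 (Finset.mem_erase.1 hs).2).2
  -- vanishing of the values
  have claimA : ∀ {b b' c : Fin 3 → F}, Fr3 T.W b b' c → ∀ (φ : (Fin 3 → F) →ₗ[F] F) (u₁ u₂ u₃ : Fin 3 → F) (i j k l : Fin 3), j ≠ k →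
      (i : ℕ) + j + k + l ≤ 4 → val T.W φ u₁ u₂ u₃ ((![b, c, b'] : Fin 3 → Fin 3 → F) i) ((![b, c, b'] : Fin 3 → Fin 3 → F) j)
      ((![b, c, b'] : Fin 3 → Fin 3 → F) k) ((![b, c, b'] : Fin 3 → Fin 3 → F) l) δ = 0 := by
    intro b b' c hf φ u₁ u₂ u₃ i j k l hjk h4
    obtain ⟨x, hxK, hx, hxadd, hx0, hxk⟩ := exists_x h2 he hH.hK hf.aa hf.ca
    have hfixt : ∀ μ, act (x μ) (tt T) = tt T := fun μ => act_eq_of_kron hH.hK (hxK μ) (hxk μ)
    have hfixs : ∀ μ, act (x μ) (sw (tt T)) = sw (tt T) := fun μ => by rw [act_sw, hfixt]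
    rw [hδ, map_sum]
    apply sum_orbits h2 hq (fun μ => act (x (-μ))) (fun s => by rw [neg_zero, hx0, act_one])
      (fun μ ν s => by rw [neg_add, hxadd, act_mul])
    · intro μ s hs
      rw [hO', Finset.mem_erase, Finset.mem_erase] at hs ⊢
      exact ⟨fun h => hs.1 (act_inj (x (-μ)) (h.trans (hfixs _).symm)), fun h => hs.2.1 (act_inj (x (-μ)) (h.trans (hfixt _).symm)),
        act_mem_orb (hxK _) hs.2.2⟩
    · intro s hs
      rw [hO', Finset.mem_erase, Finset.mem_erase] at hs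
      by_contra hcon
      push Not at hcon
      obtain ⟨hs1, hs2, hs3⟩ := hs
      obtain ⟨g, hg, rfl⟩ := mem_orb.1 hs3
      rcases fixed h2 hq heX he hH hf hxK hx hg (fun μ => by have := hcon (-μ); rwa [neg_neg] at this) with h | h
      · exact hs2 h
      · exact hs1 h
    · intro s hs
      exact val_vp h2 he hf hx hxadd hx0 (hTs s (Finset.mem_erase.1 (Finset.mem_erase.1 hs).2).2) φ u₁ u₂ u₃ hjk h4
  have claimB : ∀ (φ : (Fin 3 → F) →ₗ[F] F) (u₁ u₂ u₃ : Fin 3 → F), H2 hδT φ u₁ u₂ u₃ = 0 := by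
    intro φ u₁ u₂ u₃
    obtain ⟨b, b', c, hf⟩ := exists_fr3 (X := T.W) he h2 h3
    have key : ∀ i j k l : Fin 3, Bf T.W (H2 hδT φ u₁ u₂ u₃ ((![b, c, b'] : Fin 3 → Fin 3 → F) j) ((![b, c, b'] : Fin 3 → Fin 3 → F) k)
        ((![b, c, b'] : Fin 3 → Fin 3 → F) i)) ((![b, c, b'] : Fin 3 → Fin 3 → F) l) = 0 := by
      intro i j k l
      by_cases hjk : j = k
      · rw [hjk, H2_self]; simp
      rw [← val_eq]
      rcases le_or_gt ((i : ℕ) + j + k + l) 4 with h4 | h4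
      · exact claimA hf φ u₁ u₂ u₃ i j k l hjk h4
      · have e1 : ∀ i : Fin 3, (![b, c, b'] : Fin 3 → Fin 3 → F) i = (![b', c, b] : Fin 3 → Fin 3 → F) (Fin.rev i) := by
          intro i; fin_cases i <;> rfl
        rw [e1 i, e1 j, e1 k, e1 l]
        apply claimA (hf.swap he h3) φ u₁ u₂ u₃ _ _ _ _ (fun h => hjk (Fin.rev_injective h))
        rw [Fin.val_rev, Fin.val_rev, Fin.val_rev, Fin.val_rev]
        omega
    apply ext_fr hf
    intro j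
    apply ext_fr hf
    intro k
    apply ext_fr hf
    intro i
    have e1 : Bf T.W (H2 hδT φ u₁ u₂ u₃ ((![b, c, b'] : Fin 3 → Fin 3 → F) j) ((![b, c, b'] : Fin 3 → Fin 3 → F) k)
        ((![b, c, b'] : Fin 3 → Fin 3 → F) i)) = 0 := by
      apply ext_fr hf
      intro l
      exact key i j k l
    show _ = (0 : Fin 3 → F)
    apply T.W.eq_zero
    intro y
    exact LinearMap.congr_fun e1 y
  have hWs : ∀ u₁ u₂ u₃ y₁ y₂ y₃ : Fin 3 → F, δ (tz u₁ y₁) (tz u₂ y₂) (tz u₃ y₃) = δ (tz u₁ y₁) (tz u₂ y₃) (tz u₃ y₂) := by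
    intro u₁ u₂ u₃ y₁ y₂ y₃
    rw [← sub_eq_zero]
    apply eq_zero_of_cL
    intro φ
    rw [map_sub, ← H2_apply hδT φ u₁ u₂ u₃ y₁ y₂ y₃, claimB]
    rfl
  have hpt : ∀ X Y Z, S X Y Z = tt T X Y Z + (tt T Y X Z + δ X Y Z) := fun X Y Z => congrFun (congrFun (congrFun hS X) Y) Z
  set G := (h₀ : Matrix (Fin 3 × Fin 3) (Fin 3 × Fin 3) F) with hG
  have hSeq : ∀ X Y Z, S (G *ᵥ X) (G *ᵥ Y) (G *ᵥ Z) = G *ᵥ S X Y Z := act_eq_iff (act_orb_sum hh₀)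
  have hteq : ∀ X Y Z, tt T (G *ᵥ Y) (G *ᵥ X) (G *ᵥ Z) = G *ᵥ tt T X Y Z := act_eq_iff hsw
  have hδeq : ∀ X Y Z, δ (G *ᵥ X) (G *ᵥ Y) (G *ᵥ Z) = G *ᵥ δ X Y Z := by
    intro X Y Z
    have e1 := hSeq X Y Z
    rw [hpt, hpt, hteq, hteq, mulVec_add, mulVec_add] at e1
    have e2 : G *ᵥ tt T Y X Z + (G *ᵥ tt T X Y Z + δ (G *ᵥ X) (G *ᵥ Y) (G *ᵥ Z)) =
      G *ᵥ tt T Y X Z + (G *ᵥ tt T X Y Z + G *ᵥ δ X Y Z) := by rw [e1]; abel
    exact add_left_cancel (add_left_cancel e2)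
  have hGinj : Function.Injective (fun v => G *ᵥ v) := fun v v' h => GeoMax.gl_mulVec_injective h₀ h
  have hGt : ∀ u w, G *ᵥ tz u w = tz (B w) (A u) := hAB
  have hAs : ∀ u₁ u₂ u₃ y₁ y₂ y₃ : Fin 3 → F, δ (tz u₁ y₁) (tz u₂ y₂) (tz u₃ y₃) = δ (tz u₁ y₁) (tz u₃ y₂) (tz u₂ y₃) := by
    intro u₁ u₂ u₃ y₁ y₂ y₃
    apply hGinj
    show G *ᵥ _ = G *ᵥ _
    rw [← hδeq, ← hδeq, hGt, hGt, hGt, hGt, hGt, hWs]
  have hsym : δ = fun X Y Z => δ X Z Y := by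
    apply tri_ext hδT (tri_sw23 hδT)
    intro u u' u'' w w' w''
    rw [hWs, hAs]
  have hsym' : ∀ X Y Z, δ X Y Z = δ X Z Y := fun X Y Z => congrFun (congrFun (congrFun hsym X) Y) Z
  rw [hpt X Y Z, hpt X Z Y, hsym' X Z Y]
  abel

end Cfsg.Agent.H94.T33
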