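import Mathlib
import Cfsg.Agent.H94.T33h

set_option autoImplicit false
set_option linter.unusedSectionVars false
set_option linter.unusedVariables false

/-!
Pure singular tensors are permuted; the stabiliser is maximal.
-/

namespace Cfsg.Agent.H94.T33

open Module Cfsg.Geo Cfsg.Agent.Asch Matrix Cfsg.Agent.TenMax Cfsg.Agent.H94.T34
open scoped Matrix MatrixGroups Kronecker

variable {F : Type*} [Field F] {T : TData (RingEquiv.refl F) (Fin 3) (Fin 3)} {K : Subgroup (GL (Fin 3 × Fin 3) F)}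

theorem ct_tt1 (X Y : Fin 3 × Fin 3 → F) (u w w' : Fin 3 → F) :
    T.ct w' (tt T X Y (tz u w)) = T.X.f (T.ct w' X) u • T.ct w Y := by
  have e1 : ∀ a b : Fin 3 → F, T.ct w' (tt T (tz a b) Y (tz u w)) = T.X.f (T.ct w' (tz a b)) u • T.ct w Y := by
    intro a b
    have : (T.ct w') ∘ₗ IsLinearMap.mk' _ ((tri_tt (T := T)).l2 (tz a b) (tz u w)) = T.X.f (T.ct w' (tz a b)) u • T.ct w := by
      apply ext_tR
      intro y
      apply LinearMap.ext; intro u'
      show T.ct w' (tt T (tz a b) (tz u' y) (tz u w)) = T.X.f (T.ct w' (tz a b)) u • T.ct w (tz u' y)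
      rw [tt_tz, map_smul, ct_tz, ct_tz, ct_tz, T.X.sesq.smul_left, smul_smul, smul_smul]
      congr 1; ring
    exact LinearMap.congr_fun this Y
  let L : (Fin 3 → F) →ₗ[F] (Fin 3 → F) :=
    { toFun := fun v => T.X.f v u • T.ct w Y
      map_add' := fun v v' => by rw [T.X.sesq.add_left, add_smul]
      map_smul' := fun c v => by rw [T.X.sesq.smul_left, mul_smul]; rfl }
  have : T.ct w' ∘ₗ IsLinearMap.mk' _ ((tri_tt (T := T)).l1 Y (tz u w)) = L ∘ₗ T.ct w' := by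
    apply ext_tR
    intro y
    apply LinearMap.ext; intro u'
    exact e1 u' y
  exact LinearMap.congr_fun this X

theorem ct_tt2 (he : T.W.e = 1) (X Y : Fin 3 × Fin 3 → F) (u w w' : Fin 3 → F) :
    T.ct w' (tt T X (tz u w) Y) = T.X.f (T.ct w' X) (T.ct w Y) • u := by
  have sW := fun x y => SF.symm1 (X := T.W) he x y
  have e1 : ∀ a b : Fin 3 → F, T.ct w' (tt T (tz a b) (tz u w) Y) = T.X.f (T.ct w' (tz a b)) (T.ct w Y) • u := by
    intro a b
    let L : (Fin 3 → F) →ₗ[F] (Fin 3 → F) :=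
      { toFun := fun v => T.X.f (T.ct w' (tz a b)) v • u
        map_add' := fun v v' => by rw [T.X.sesq.add_right, add_smul]
        map_smul' := fun c v => by rw [SF.smul_r, mul_smul]; rfl }
    have : (T.ct w') ∘ₗ IsLinearMap.mk' _ ((tri_tt (T := T)).l3 (tz a b) (tz u w)) = L ∘ₗ T.ct w := by
      apply ext_tR
      intro y
      apply LinearMap.ext; intro u'
      show T.ct w' (tt T (tz a b) (tz u w) (tz u' y)) = T.X.f (T.ct w' (tz a b)) (T.ct w (tz u' y)) • u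
      rw [tt_tz, map_smul, ct_tz, ct_tz, ct_tz, T.X.sesq.smul_left, SF.smul_r, smul_smul, sW w y]
      congr 1; ring
    exact LinearMap.congr_fun this Y
  let L : (Fin 3 → F) →ₗ[F] (Fin 3 → F) :=
    { toFun := fun v => T.X.f v (T.ct w Y) • u
      map_add' := fun v v' => by rw [T.X.sesq.add_left, add_smul]
      map_smul' := fun c v => by rw [T.X.sesq.smul_left, mul_smul]; rfl }
  have : T.ct w' ∘ₗ IsLinearMap.mk' _ ((tri_tt (T := T)).l1 (tz u w) Y) = L ∘ₗ T.ct w' := by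
    apply ext_tR
    intro y
    apply LinearMap.ext; intro u'
    exact e1 u' y
  exact LinearMap.congr_fun this X

theorem ct_tt3 (X Y : Fin 3 × Fin 3 → F) (u : Fin 3 → F) : ∃ R : Fin 3 → F, ∀ w w', T.ct w' (tt T (tz u w) X Y) = T.W.f w w' • R := by
  refine ⟨fun i => ∑ k, ∑ l, T.W.f (Pi.single k 1) (Pi.single l 1) * T.X.f u (col Y l) * X (i, k), fun w w' => ?_⟩
  rw [← ct_tz]
  congr 1
  funext ⟨i, j⟩
  show ∑ k, ∑ l, T.W.f (Pi.single k 1) (Pi.single l 1) * T.X.f (col (tz u w) j) (col Y l) * X (i, k) =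
    (∑ k, ∑ l, T.W.f (Pi.single k 1) (Pi.single l 1) * T.X.f u (col Y l) * X (i, k)) * w j
  rw [Finset.sum_mul]
  refine Finset.sum_congr rfl fun k _ => ?_
  rw [Finset.sum_mul]
  refine Finset.sum_congr rfl fun l _ => ?_
  rw [col_tz, T.X.sesq.smul_left]
  ring

/-- the quadratic map -/
noncomputable def PP (T : TData (RingEquiv.refl F) (Fin 3) (Fin 3)) (X Z : Fin 3 × Fin 3 → F) : Fin 3 × Fin 3 → F :=
  tt T X X Z + tt T X X Z - (tt T X Z X + tt T Z X X)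

theorem expand_v (he : T.W.e = 1) {b b' c : Fin 3 → F} (h : Fr3 T.W b b' c) (v : Fin 3 × Fin 3 → F) :
    v = tR b (T.ct b' v) + tR b' (T.ct b v) + (T.W.f c c)⁻¹ • tR c (T.ct c v) := by
  let R : Module.End F (Fin 3 × Fin 3 → F) := tR b ∘ₗ T.ct b' + tR b' ∘ₗ T.ct b + (T.W.f c c)⁻¹ • (tR c ∘ₗ T.ct c)
  have : (1 : Module.End F (Fin 3 × Fin 3 → F)) = R := by
    apply ext_tR
    intro y
    apply LinearMap.ext; intro u
    show tz u y = tR b (T.ct b' (tz u y)) + tR b' (T.ct b (tz u y)) + (T.W.f c c)⁻¹ • tR c (T.ct c (tz u y))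
    rw [ct_tz, ct_tz, ct_tz]
    conv_lhs => rw [h.exp y]
    simp only [tR_apply, tz_add_right, tz_smul_right, tz_smul_left, map_smul, div_eq_mul_inv]
    module
  exact LinearMap.congr_fun this v

/-- the characterisation of pure singular tensors -/
theorem pure_of_PP [Finite F] (h2 : (2 : F) ≠ 0) (heX : T.X.e = 1) (he : T.W.e = 1) {Y : Fin 3 × Fin 3 → F} (hY : Y ≠ 0)
    (h : ∀ Z, PP T Y Z = (T.Y.f Y Z + T.Y.f Y Z) • Y) :
    ∃ a b : Fin 3 → F, a ≠ 0 ∧ b ≠ 0 ∧ T.X.f a a = 0 ∧ T.W.f b b = 0 ∧ Y = tz a b := by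
  have sX := fun x y => SF.symm1 (X := T.X) heX x y
  have sW := fun x y => SF.symm1 (X := T.W) he x y
  have h3 : Fintype.card (Fin 3) = 3 := Fintype.card_fin 3
  -- rank one
  have key : ∀ u w w', T.X.f (T.ct w' Y) u • T.ct w Y = T.X.f (T.ct w Y) u • T.ct w' Y := by
    intro u w w'
    obtain ⟨R, hR⟩ := ct_tt3 (T := T) Y Y u
    have e : ∀ w w', T.X.f (T.ct w' Y) u • T.ct w Y + T.X.f (T.ct w' Y) u • T.ct w Y -
        (T.X.f (T.ct w' Y) (T.ct w Y) • u + T.W.f w w' • R) = (T.X.f (T.ct w Y) u + T.X.f (T.ct w Y) u) • T.ct w' Y := by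
      intro w w'
      have e1 := congrArg (T.ct w') (h (tz u w))
      have e2 : T.Y.f Y (tz u w) = T.X.f (T.ct w Y) u := (T.ad_spec (tR w) Y u).symm
      rw [PP, map_sub, map_add, map_add, ct_tt1, ct_tt2 he, hR, map_smul, e2] at e1
      exact e1
    have e1 := e w w'
    have e2 := e w' w
    rw [sX (T.ct w Y) (T.ct w' Y), sW w' w] at e2
    have e3 : (2 * 2 : F) • (T.X.f (T.ct w' Y) u • T.ct w Y - T.X.f (T.ct w Y) u • T.ct w' Y) = 0 := by
      have e4 := congrArg₂ (· - ·) e1 e2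
      rw [← sub_eq_zero] at e4
      rw [← e4]
      module
    rcases smul_eq_zero.1 e3 with h5 | h5
    · exact absurd h5 (mul_ne_zero h2 h2)
    · exact sub_eq_zero.1 h5
  obtain ⟨b₁, b₁', c₁, hf⟩ := exists_fr3 (X := T.W) he h2 h3
  obtain ⟨w₀, hw₀⟩ : ∃ w₀, T.ct w₀ Y ≠ 0 := by
    by_contra hcon
    push Not at hcon
    apply hY
    rw [expand_v he hf Y, hcon, hcon, hcon]
    simp
  set a := T.ct w₀ Y with ha
  obtain ⟨u₀, hu₀⟩ := T.X.nd a hw₀
  have hlam : ∀ w, T.ct w Y = (T.X.f (T.ct w Y) u₀ / T.X.f a u₀) • a := by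
    intro w
    have h5 := key u₀ w₀ w
    rw [← ha] at h5
    have h6 : T.ct w Y = (T.X.f a u₀)⁻¹ • (T.X.f a u₀ • T.ct w Y) := by rw [smul_smul, inv_mul_cancel₀ hu₀, one_smul]
    rw [← h5, smul_smul] at h6
    rw [div_eq_inv_mul]
    exact h6
  set lam := fun w => T.X.f (T.ct w Y) u₀ / T.X.f a u₀ with hlamd
  set b := lam b₁' • b₁ + lam b₁ • b₁' + ((T.W.f c₁ c₁)⁻¹ * lam c₁) • c₁ with hb
  have hYab : Y = tz a b := by
    conv_lhs => rw [expand_v he hf Y, hlam b₁', hlam b₁, hlam c₁]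
    rw [hb]
    simp only [tR_apply, tz_add_right, tz_smul_right, tz_smul_left, smul_smul, ← hlamd]
    rfl
  have hb0 : b ≠ 0 := by
    intro h0
    apply hY
    rw [hYab, h0, tz_zero_right]
  have hrel : ∀ u w, (T.W.f w b * T.X.f a a) • tz u b + (T.W.f b b * T.X.f u a) • tz a w = 0 := by
    intro u w
    have h5 := h (tz u w)
    rw [hYab, PP, tt_tz, tt_tz, tt_tz, T.tp] at h5
    rw [← sub_eq_zero] at h5
    have h6 : (T.W.f w b * T.X.f a a) • tz u b + (T.W.f b b * T.X.f u a) • tz a w = -((T.W.f b w * T.X.f a u) • tz a b +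
        (T.W.f b w * T.X.f a u) • tz a b - ((T.W.f w b * T.X.f a a) • tz u b + (T.W.f b b * T.X.f u a) • tz a w) -
        (T.X.f a u * T.W.f b w + T.X.f a u * T.W.f b w) • tz a b) := by module
    rw [h6, h5, neg_zero]
  have haa : T.X.f a a = 0 := by
    obtain ⟨u, hu, hu0⟩ := exists_pl (W := T.X) [a] (by simp)
    have hua : T.X.f u a = 0 := hu a (by simp)
    obtain ⟨w, hw⟩ := T.W.nd b hb0
    have h5 := hrel u w
    rw [hua, mul_zero, zero_smul, add_zero] at h5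
    rcases smul_eq_zero.1 h5 with h6 | h6
    · exact (mul_eq_zero.1 h6).resolve_left (by rw [sW]; exact hw)
    · exact absurd (tz_eq_zero h6 hb0) hu0
  have hbb : T.W.f b b = 0 := by
    have h5 := hrel u₀ b
    rw [haa, mul_zero, zero_smul, zero_add] at h5
    rcases smul_eq_zero.1 h5 with h6 | h6
    · exact (mul_eq_zero.1 h6).resolve_right (by rw [sX]; exact hu₀)
    · exact absurd (tz_eq_zero h6 hb0) hw₀
  exact ⟨a, b, hw₀, hb0, haa, hbb, hYab⟩

/-- pure singular tensors are permuted -/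
theorem pure_image [Fintype F] (h2 : (2 : F) ≠ 0) (hq : 5 ≤ Fintype.card F) (heX : T.X.e = 1) (he : T.W.e = 1) (hH : Hyp T K)
    {g : GL (Fin 3 × Fin 3) F} (hg : g ∈ K) {a b : Fin 3 → F} (ha0 : a ≠ 0) (hb0 : b ≠ 0) (ha : T.X.f a a = 0) (hb : T.W.f b b = 0) :
    ∃ a' b' : Fin 3 → F, a' ≠ 0 ∧ b' ≠ 0 ∧ T.X.f a' a' = 0 ∧ T.W.f b' b' = 0 ∧
      (g : Matrix (Fin 3 × Fin 3) (Fin 3 × Fin 3) F) *ᵥ tz a b = tz a' b' := by
  set G := (g : Matrix (Fin 3 × Fin 3) (Fin 3 × Fin 3) F) with hG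
  have hinj : Function.Injective (fun v => G *ᵥ v) := fun v v' h => GeoMax.gl_mulVec_injective g h
  have hne : G *ᵥ tz a b ≠ 0 := by
    intro h0
    have h1 : tz a b = 0 := hinj (by show G *ᵥ _ = G *ᵥ _; rw [h0, mulVec_zero])
    exact ha0 (tz_eq_zero h1 hb0)
  have hiso : ∀ v v', T.Y.f (G *ᵥ v) (G *ᵥ v') = T.Y.f v v' := hH.hK.iso _ (Has.toLin hg)
  apply pure_of_PP h2 heX he hne
  intro Z
  set S := ∑ s ∈ orb K (tt T), s with hS
  have hSeq : ∀ X Y Z, S (G *ᵥ X) (G *ᵥ Y) (G *ᵥ Z) = G *ᵥ S X Y Z := act_eq_iff (act_orb_sum hg)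
  have hPP : ∀ X Z, PP T X Z = S X X Z - S X Z X := fun X Z => (trace33 h2 hq heX he hH X X Z).symm
  have hPG : ∀ X Z, PP T (G *ᵥ X) (G *ᵥ Z) = G *ᵥ PP T X Z := by
    intro X Z
    rw [hPP, hPP, hSeq, hSeq, mulVec_sub]
  obtain ⟨Z, rfl⟩ : ∃ Z', G *ᵥ Z' = Z := ⟨((g⁻¹ : GL (Fin 3 × Fin 3) F) : Matrix (Fin 3 × Fin 3) (Fin 3 × Fin 3) F) *ᵥ Z, by
    rw [hG, mulVec_mulVec, ← Units.val_mul, mul_inv_cancel, Units.val_one, one_mulVec]⟩
  rw [hPG, hiso, ← mulVec_smul]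
  congr 1
  -- the formula for a pure singular tensor
  let L : (Fin 3 × Fin 3 → F) →ₗ[F] (Fin 3 × Fin 3 → F) :=
    { toFun := fun Z => (T.Y.f (tz a b) Z + T.Y.f (tz a b) Z) • tz a b
      map_add' := fun Z Z' => by rw [T.Y.sesq.add_right]; module
      map_smul' := fun c Z => by
        have : T.Y.f (tz a b) (c • Z) = c * T.Y.f (tz a b) Z := T.Y.sesq.smul_right c _ _
        rw [this, RingHom.id_apply]; module }
  let L' : (Fin 3 × Fin 3 → F) →ₗ[F] (Fin 3 × Fin 3 → F) :=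
    IsLinearMap.mk' _ ((tri_tt (T := T)).l3 (tz a b) (tz a b)) + IsLinearMap.mk' _ ((tri_tt (T := T)).l3 (tz a b) (tz a b)) -
      (IsLinearMap.mk' _ ((tri_tt (T := T)).l2 (tz a b) (tz a b)) + IsLinearMap.mk' _ ((tri_tt (T := T)).l1 (tz a b) (tz a b)))
  have hL : L' = L := by
    apply ext_tR
    intro y
    apply LinearMap.ext; intro u
    show tt T (tz a b) (tz a b) (tz u y) + tt T (tz a b) (tz a b) (tz u y) - (tt T (tz a b) (tz u y) (tz a b) + tt T (tz u y) (tz a b) (tz a b)) =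
      (T.Y.f (tz a b) (tz u y) + T.Y.f (tz a b) (tz u y)) • tz a b
    rw [tt_tz, tt_tz, tt_tz, T.tp, ha, hb]
    module
  exact LinearMap.congr_fun hL Z

end Cfsg.Agent.H94.T33
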