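import Mathlib
import Cfsg.Agent.H94.T34e

set_option autoImplicit false
set_option linter.unusedSectionVars false
set_option linter.unusedVariables false

/-!
Existence of central Siegel elements.
-/

namespace Cfsg.Agent.H94.T34

open Module Cfsg.Geo Cfsg.Agent.Asch Matrix Cfsg.Agent.TenMax
open scoped Matrix MatrixGroups Kronecker

variable {F : Type*} [Field F] {T : TData (RingEquiv.refl F) (Fin 3) (Fin 4)} {K : Subgroup (GL (Fin 3 × Fin 4) F)}

/-- moving the `U ⊗ b` part into the coefficient -/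
theorem sg_shift (he : T.W.e = 1) {b : Fin 4 → F} (Z : (Fin 3 → F) →ₗ[F] (Fin 3 × Fin 4 → F)) (A S : Module.End F (Fin 3 → F)) :
    T.sg b (Z + tR b ∘ₗ A) S = T.sg b Z (S + T.st A - A) := by
  apply LinearMap.ext; intro v
  rw [sg_vec, sg_vec, he, T.ad_add, T.ad_comp, T.ad_tR]
  simp only [LinearMap.add_apply, LinearMap.sub_apply, LinearMap.comp_apply, map_add, map_sub, one_smul]
  abel

theorem mm_shift (he : T.W.e = 1) {b : Fin 4 → F} (hb : T.W.f b b = 0) {Z : (Fin 3 → F) →ₗ[F] (Fin 3 × Fin 4 → F)}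
    {A : Module.End F (Fin 3 → F)} (h : MM T K b (Z + tR b ∘ₗ A)) : MM T K b Z := by
  obtain ⟨hO, S, hS⟩ := h
  rw [sg_shift he] at hS
  refine ⟨?_, _, hS⟩
  have h1 : T.O (tR b) (tR b ∘ₗ A) := (TData.O_tR hb).comp_right A
  have := hO.sub h1
  rwa [add_sub_cancel_right] at this

theorem mm_tR (he : T.W.e = 1) (h2 : (2 : F) ≠ 0) (hK : TGrp T K) {b z : Fin 4 → F} (hb : T.W.f b b = 0) (hz : T.W.f z b = 0) :
    MM T K b (tR z) :=
  ⟨TData.O_tR (T.W.zero_symm hz), _, hK.sieg b z _ hb hz (sieg_cond he h2 z)⟩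

/-- expansion of a map orthogonal to `U ⊗ b` -/
theorem expand (he : T.W.e = 1) {b b' c c' : Fin 4 → F} (h : Fr T.W b b' c c') {Z : (Fin 3 → F) →ₗ[F] (Fin 3 × Fin 4 → F)}
    (hO : T.O (tR b) Z) : Z = tR c ∘ₗ ((T.W.f c c)⁻¹ • (T.ct c ∘ₗ Z)) + tR c' ∘ₗ ((T.W.f c' c')⁻¹ • (T.ct c' ∘ₗ Z)) +
      tR b ∘ₗ (T.ct b' ∘ₗ Z) := by
  have sW := fun x y => SF.symm1 (X := T.W) he x y
  have key : ∀ v : Fin 3 × Fin 4 → F, v = tR b (T.ct b' v) + tR b' (T.ct b v) + (T.W.f c c)⁻¹ • tR c (T.ct c v) +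
      (T.W.f c' c')⁻¹ • tR c' (T.ct c' v) := by
    intro v
    let R : Module.End F (Fin 3 × Fin 4 → F) := tR b ∘ₗ T.ct b' + tR b' ∘ₗ T.ct b + (T.W.f c c)⁻¹ • (tR c ∘ₗ T.ct c) +
      (T.W.f c' c')⁻¹ • (tR c' ∘ₗ T.ct c')
    have : (1 : Module.End F (Fin 3 × Fin 4 → F)) = R := by
      apply ext_tR
      intro y
      apply LinearMap.ext; intro u
      show tz u y = tR b (T.ct b' (tz u y)) + tR b' (T.ct b (tz u y)) + (T.W.f c c)⁻¹ • tR c (T.ct c (tz u y)) +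
        (T.W.f c' c')⁻¹ • tR c' (T.ct c' (tz u y))
      rw [ct_tz, ct_tz, ct_tz, ct_tz]
      conv_lhs => rw [h.exp y]
      simp only [tR_apply, tz_add_right, tz_smul_right, tz_smul_left, map_smul, div_eq_mul_inv]
      module
    exact LinearMap.congr_fun this v
  apply LinearMap.ext; intro u
  have h1 := key (Z u)
  have h3 : T.ct b (Z u) = 0 := LinearMap.congr_fun hO u
  rw [h3, map_zero, add_zero] at h1
  show Z u = tR c ((T.W.f c c)⁻¹ • T.ct c (Z u)) + tR c' ((T.W.f c' c')⁻¹ • T.ct c' (Z u)) + tR b (T.ct b' (Z u))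
  conv_lhs => rw [h1]
  rw [map_smul, map_smul]
  abel

theorem st_smul' (r : F) (A : Module.End F (Fin 3 → F)) : T.st (r • A) = r • T.st A := T.st_smul r A

theorem st_sub (A B : Module.End F (Fin 3 → F)) : T.st (A - B) = T.st A - T.st B := by
  have := T.st_add (A - B) B
  rw [sub_add_cancel] at this
  rw [this, add_sub_cancel_right]

/-- existence of central elements -/
theorem exists_lz [Fintype F] (h2 : (2 : F) ≠ 0) (hq : 5 ≤ Fintype.card F) (heX : T.X.e = 1) (he : T.W.e = 1) (hM : Mi T.W)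
    (hK : TGrp T K) (hL : LeftS T K) {b : Fin 4 → F} (hb0 : b ≠ 0) (hb : T.W.f b b = 0)
    {Z : (Fin 3 → F) →ₗ[F] (Fin 3 × Fin 4 → F)} {S : Module.End F (Fin 3 → F)} (hO : T.O (tR b) Z) (hS : Has K (T.sg b Z S))
    (hne : ∀ (z : Fin 4 → F) (c : F), T.W.f z b = 0 → T.sg b Z S ≠ T.sg b (tR z) (c • 1)) :
    ∃ η : Module.End F (Fin 3 → F), η ≠ 0 ∧ T.st η = -η ∧ Has K (T.sg b 0 η) := by
  have : Nonempty (Fin 3) := ⟨0⟩
  have sW := fun x y => SF.symm1 (X := T.W) he x y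
  have sX := fun x y => SF.symm1 (X := T.X) heX x y
  have h3 : Fintype.card (Fin 3) = 3 := Fintype.card_fin 3
  have hm : MM T K b Z := ⟨hO, S, hS⟩
  by_cases hA : ∃ z, T.W.f z b = 0 ∧ T.st (T.ad Z ∘ₗ tR z) ≠ T.ad Z ∘ₗ tR z
  · -- a coefficient which is not symmetric
    obtain ⟨z, hz, hzne⟩ := hA
    have h1 := MM.central hb hm (mm_tR he h2 hK hb hz)
    have h4 : T.ad (tR z) ∘ₗ Z = T.st (T.ad Z ∘ₗ tR z) := by
      rw [T.ad_pair, he, one_smul]
    rw [he, one_smul, one_smul, h4] at h1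
    refine ⟨_, ?_, ?_, h1⟩
    · exact sub_ne_zero.2 hzne
    · rw [st_sub, T.st_st]; abel
  push Not at hA
  obtain ⟨b', c, c', hf⟩ := hM.frame1 he h2 (by rw [Fintype.card_fin]) hb0 hb
  set σ₁ := T.ad Z ∘ₗ tR c with hσ₁
  set σ₂ := T.ad Z ∘ₗ tR c' with hσ₂
  have hs1 : T.st σ₁ = σ₁ := hA c hf.cb
  have hs2 : T.st σ₂ = σ₂ := hA c' hf.c'b
  have hct : ∀ z, T.W.f z b = 0 → T.ct z ∘ₗ Z = T.ad Z ∘ₗ tR z := by
    intro z hz
    have h1 := T.ad_pair (tR z) Z
    rw [he, one_smul, T.ad_tR] at h1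
    have h3 := T.ad_pair Z (tR z)
    rw [he, one_smul, T.ad_tR, hA z hz] at h3
    exact h3.symm
  set n := T.W.f c c with hn
  set n' := T.W.f c' c' with hn'
  have hexp : Z = tR c ∘ₗ (n⁻¹ • σ₁) + tR c' ∘ₗ (n'⁻¹ • σ₂) + tR b ∘ₗ (T.ct b' ∘ₗ Z) := by
    have := expand he hf hO
    rw [hct c hf.cb, hct c' hf.c'b] at this
    exact this
  set B := T.ct b' ∘ₗ Z with hB
  by_cases hsc : (∃ r : F, σ₁ = r • 1) ∧ ∃ r : F, σ₂ = r • 1
  · -- scalar coefficients
    obtain ⟨⟨r₁, hr₁⟩, r₂, hr₂⟩ := hsc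
    set z := (n⁻¹ * r₁) • c + (n'⁻¹ * r₂) • c' with hz
    have hzb : T.W.f z b = 0 := by
      rw [hz, T.W.sesq.add_left, T.W.sesq.smul_left, T.W.sesq.smul_left, hf.cb, hf.c'b]; ring
    have hZ : Z = tR z + tR b ∘ₗ B := by
      conv_lhs => rw [hexp, hr₁, hr₂]
      rw [hz, tR_add, tR_smul, tR_smul]
      apply LinearMap.ext; intro u
      simp only [LinearMap.add_apply, LinearMap.comp_apply, LinearMap.smul_apply, Module.End.one_apply, map_smul, smul_smul]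
    set c₀ : F := -(T.W.f z z / 2) with hc₀
    have hsg : T.sg b Z S = T.sg b (tR z) (S + T.st B - B) := by
      conv_lhs => rw [hZ]
      rw [sg_shift he]
    have h5 := hS
    rw [hsg] at h5
    have h6 := hK.sieg b z c₀ hb hzb (sieg_cond he h2 z)
    have h7 := has_central hb (TData.O_tR (T.W.zero_symm hzb)) h5 h6
    refine ⟨_, ?_, ?_, h7⟩
    · intro h0
      apply hne z c₀ hzb
      rw [hsg, sub_eq_zero.1 h0]
    · have h8 := hK.cond hb hb0 (O_zero _) h7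
      rw [he, one_smul, LinearMap.comp_zero, add_zero] at h8
      exact eq_neg_of_add_eq_zero_right h8
  -- a singular vector of the first factor
  obtain ⟨a, haa, ha⟩ : ∃ a, T.X.f a a = 0 ∧ (T.X.f (σ₁ a) a ≠ 0 ∨ T.X.f (σ₂ a) a ≠ 0) := by
    by_contra hcon
    push Not at hcon
    apply hsc
    exact ⟨scalar_of_conic heX h2 h3 hq hs1 fun a ha => (hcon a ha).1, scalar_of_conic heX h2 h3 hq hs2 fun a ha => (hcon a ha).2⟩
  have ha0 : a ≠ 0 := by
    rintro rfl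
    rcases ha with h | h
    · rw [T.X.zero_right] at h; exact h rfl
    · rw [T.X.zero_right] at h; exact h rfl
  obtain ⟨a', h1, h4, -⟩ := exists_partner (W := T.X) heX h2 (L := ⊥) (b := a) (by simpa using ha0) haa (by
    intro l hl
    rw [(Submodule.mem_bot F).1 hl, T.X.zero_right])
  obtain ⟨a₀, h5, h6, h7⟩ := exists_nonsing heX h2 haa h1 (by rw [h4]; exact one_ne_zero) (by omega)
  have hfr : Fr3 T.X a a' a₀ := Fr3.mk' heX h3 haa h1 h4 h5 h6 h7
  set m := T.X.f a₀ a₀ with hm₀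
  -- conjugates
  have hcj : ∀ t : F, MM T K b (tR c ∘ₗ (EL T.X a (t • a₀) * (n⁻¹ • σ₁) * EL T.X a (-(t • a₀))) +
      tR c' ∘ₗ (EL T.X a (t • a₀) * (n'⁻¹ • σ₂) * EL T.X a (-(t • a₀)))) := by
    intro t
    obtain ⟨G, hG, hGy⟩ := hL a (t • a₀) haa (by rw [T.X.sesq.smul_left, h5, mul_zero])
    have e1 : T.st (EL T.X a (t • a₀)) = EL T.X a (-(t • a₀)) := dag_EL heX h2
    have k1 := hK.has_conj_sg hG (hGy b) hS
    have k2 : MM T K b ((G ∘ₗ Z) ∘ₗ T.st (EL T.X a (t • a₀))) := by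
      refine ⟨?_, _, k1⟩
      apply TData.O.comp_right
      have k3 := hK.O_isom hG hO
      rw [hGy b] at k3
      have k4 := k3.comp_left (EL T.X a (-(t • a₀)))
      have k5 : (tR b ∘ₗ EL T.X a (t • a₀)) ∘ₗ EL T.X a (-(t • a₀)) = (tR b : (Fin 3 → F) →ₗ[F] (Fin 3 × Fin 4 → F)) := by
        have k6 : EL T.X a (t • a₀) * EL T.X a (-(t • a₀)) = 1 := by
          apply LinearMap.ext; intro y
          show E T.X a (t • a₀) (E T.X a (-(t • a₀)) y) = y
          rw [← neg_smul, E_E trivial h2 haa h5, add_neg_cancel, zero_smul]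
          simp [E, T.X.zero_right, T.X.zero_left]
        rw [LinearMap.comp_assoc]
        have : EL T.X a (t • a₀) ∘ₗ EL T.X a (-(t • a₀)) = LinearMap.id := k6
        rw [this, LinearMap.comp_id]
      rw [k5] at k4
      exact k4
    rw [e1] at k2
    apply mm_shift he hb (A := EL T.X a (t • a₀) * B * EL T.X a (-(t • a₀)))
    convert k2 using 1
    conv_rhs => rw [hexp]
    apply LinearMap.ext; intro u
    have hGu : ∀ y u, G (tR y u) = tR y (EL T.X a (t • a₀) u) := fun y u => LinearMap.congr_fun (hGy y) u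
    simp only [LinearMap.add_apply, LinearMap.comp_apply, map_add, hGu, Module.End.mul_apply]
  have hev : ∀ t : F, MM T K b (tR c ∘ₗ (EL T.X a (t • a₀) * (n⁻¹ • σ₁) * EL T.X a (-(t • a₀)) +
      EL T.X a (-(t • a₀)) * (n⁻¹ • σ₁) * EL T.X a (t • a₀)) +
      tR c' ∘ₗ (EL T.X a (t • a₀) * (n'⁻¹ • σ₂) * EL T.X a (-(t • a₀)) + EL T.X a (-(t • a₀)) * (n'⁻¹ • σ₂) * EL T.X a (t • a₀))) := by
    intro t
    have k1 := (hcj t).add hb (hcj (-t))
    rw [neg_smul, neg_neg] at k1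
    convert k1 using 1
    rw [LinearMap.comp_add, LinearMap.comp_add]
    abel
  have hm' : MM T K b (tR c ∘ₗ (n⁻¹ • σ₁) + tR c' ∘ₗ (n'⁻¹ • σ₂)) := by
    apply mm_shift he hb (A := B)
    rw [← hexp]; exact hm
  -- a Pythagorean triple
  obtain ⟨x, y, z, hxy, hx, hy⟩ : ∃ x y z : F, x * x + y * y = z * z ∧ x ≠ 0 ∧ y ≠ 0 := by
    obtain ⟨t, ht0, ht1, htm⟩ : ∃ t : F, t ≠ 0 ∧ t ≠ 1 ∧ t ≠ -1 := by
      classical
      by_contra hcon
      push Not at hcon
      have : (Finset.univ : Finset F) ⊆ {0, 1, -1} := by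
        intro t _
        simp only [Finset.mem_insert, Finset.mem_singleton]
        by_cases h5 : t = 0
        · left; exact h5
        · by_cases h6 : t = 1
          · right; left; exact h6
          · right; right; exact hcon t h5 h6
      have h7 := Finset.card_le_card this
      rw [Finset.card_univ] at h7
      have h8 := Finset.card_le_three (a := (0 : F)) (b := 1) (c := -1)
      omega
    refine ⟨2 * t, t * t - 1, t * t + 1, by ring, mul_ne_zero h2 ht0, fun h => ?_⟩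
    have : (t - 1) * (t + 1) = 0 := by linear_combination h
    rcases mul_eq_zero.1 this with h6 | h6
    · exact ht1 (sub_eq_zero.1 h6)
    · exact htm (eq_neg_of_add_eq_zero_left h6)
  have hk := ((((hev x).add hb (hev y)).sub hb (hev z)).sub hb hm').sub hb hm'
  -- the fourth order part
  set κ : F := -(x * x * (y * y) * (m * m)) with hκ
  have hcomb : ∀ A : Module.End F (Fin 3 → F), (EL T.X a (x • a₀) * A * EL T.X a (-(x • a₀)) + EL T.X a (-(x • a₀)) * A * EL T.X a (x • a₀)) +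
      (EL T.X a (y • a₀) * A * EL T.X a (-(y • a₀)) + EL T.X a (-(y • a₀)) * A * EL T.X a (y • a₀)) -
      (EL T.X a (z • a₀) * A * EL T.X a (-(z • a₀)) + EL T.X a (-(z • a₀)) * A * EL T.X a (z • a₀)) - A - A =
      (κ * T.X.f (A a) a) • T.X.ro a a := by
    intro A
    have e1 : T.X.ro a a * A * T.X.ro a a = T.X.f (A a) a • T.X.ro a a := by
      apply LinearMap.ext; intro v
      show T.X.f (A (T.X.f v a • a)) a • a = T.X.f (A a) a • T.X.f v a • a
      rw [map_smul, T.X.sesq.smul_left, smul_smul, mul_comm]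
    rw [even_conj, even_conj, even_conj, e1, ← hm₀]
    set Q₂ := -(m / 2) • (T.X.ro a a * A + A * T.X.ro a a) - wd T.X a a₀ * A * wd T.X a a₀
    set R := T.X.ro a a
    have e2 : z * z * (z * z) = (x * x + y * y) * (x * x + y * y) := by rw [hxy]
    rw [e2, ← hxy, hκ]
    match_scalars <;> field_simp <;> ring
  set μ₁ := κ * (n⁻¹ * T.X.f (σ₁ a) a) with hμ₁
  set μ₂ := κ * (n'⁻¹ * T.X.f (σ₂ a) a) with hμ₂
  set ζ := μ₁ • c + μ₂ • c' with hζ
  have hk' : MM T K b (tR ζ ∘ₗ T.X.ro a a) := by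
    convert hk using 1
    have e1 := hcomb (n⁻¹ • σ₁)
    have e2 := hcomb (n'⁻¹ • σ₂)
    rw [LinearMap.smul_apply, T.X.sesq.smul_left, ← hμ₁] at e1
    rw [LinearMap.smul_apply, T.X.sesq.smul_left, ← hμ₂] at e2
    rw [hζ, tR_add, tR_smul, tR_smul, LinearMap.add_comp, LinearMap.smul_comp, LinearMap.smul_comp, ← LinearMap.comp_smul,
      ← LinearMap.comp_smul, ← e1, ← e2]
    simp only [LinearMap.comp_add, LinearMap.comp_sub]
    abel
  have hκ0 : κ ≠ 0 := neg_ne_zero.2 (mul_ne_zero (mul_ne_zero (mul_ne_zero hx hx) (mul_ne_zero hy hy)) (mul_ne_zero h7 h7))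
  have hζb : T.W.f ζ b = 0 := by
    rw [hζ, T.W.sesq.add_left, T.W.sesq.smul_left, T.W.sesq.smul_left, hf.cb, hf.c'b]; ring
  have hζb' : T.W.f ζ b' = 0 := by
    rw [hζ, T.W.sesq.add_left, T.W.sesq.smul_left, T.W.sesq.smul_left, hf.cb', hf.c'b']; ring
  have hζ0 : ζ ≠ 0 := by
    intro h0
    have g1 : T.W.f ζ c = 0 := by rw [h0, T.W.zero_left]
    have g2 : T.W.f ζ c' = 0 := by rw [h0, T.W.zero_left]
    rw [hζ, T.W.sesq.add_left, T.W.sesq.smul_left, T.W.sesq.smul_left, T.W.zero_symm hf.cc', mul_zero, add_zero] at g1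
    rw [hζ, T.W.sesq.add_left, T.W.sesq.smul_left, T.W.sesq.smul_left, hf.cc', mul_zero, zero_add] at g2
    have g3 : μ₁ = 0 := (mul_eq_zero.1 g1).resolve_right hf.cc
    have g4 : μ₂ = 0 := (mul_eq_zero.1 g2).resolve_right hf.c'c'
    rcases ha with h | h
    · exact mul_ne_zero hκ0 (mul_ne_zero (inv_ne_zero hf.cc) h) g3
    · exact mul_ne_zero hκ0 (mul_ne_zero (inv_ne_zero hf.c'c') h) g4
  have hζζ : T.W.f ζ ζ ≠ 0 := hM.nonsing hb0 hb (by rw [hf.h]; exact one_ne_zero) hζb hζb' hζ0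
  -- a conjugate
  obtain ⟨G, hG, hGy⟩ := hL a' a₀ hfr.aa' hfr.ca'
  set a₃ := EL T.X a' a₀ a with ha₃
  have hk3 : MM T K b (tR ζ ∘ₗ T.X.ro a₃ a₃) := by
    obtain ⟨hO', S', hS'⟩ := hk'
    have k1 := hK.has_conj_sg hG (hGy b) hS'
    have k2 : (G ∘ₗ (tR ζ ∘ₗ T.X.ro a a)) ∘ₗ T.st (EL T.X a' a₀) = tR ζ ∘ₗ T.X.ro a₃ a₃ := by
      have k3 : EL T.X a' a₀ * T.X.ro a a * T.st (EL T.X a' a₀) = T.X.ro a₃ a₃ := by
        rw [T.X.mul_ro, T.X.ro_mul]
        congr 1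
        exact LinearMap.congr_fun (T.st_st (EL T.X a' a₀)) a
      rw [← k3, ← LinearMap.comp_assoc, hGy ζ]
      rfl
    rw [k2] at k1
    exact ⟨O_tR_comp hζb _, _, k1⟩
  have hc := MM.central hb hk' hk3
  have hva₃ : a₃ = a - a₀ - (m / 2) • a' := by
    show E T.X a' a₀ a = _
    simp only [E, T.X.zero_symm h5, h4, ← hm₀]
    simp
  have haa₃ : T.X.f a a₃ = -(m / 2) := by
    rw [hva₃, T.X.sub_right, T.X.sub_right, SF.smul_r, haa, T.X.zero_symm h5, h4]; ring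
  have hpair : ∀ x y : Fin 3 → F, T.ad (tR ζ ∘ₗ T.X.ro x x) ∘ₗ (tR ζ ∘ₗ T.X.ro y y) = (T.W.f ζ ζ * T.X.f y x) • T.X.ro x y := by
    intro x y
    rw [T.ad_comp, T.ad_tR, LinearMap.comp_assoc, ← LinearMap.comp_assoc (T.X.ro y y), T.ct_tR, st_ro heX]
    apply LinearMap.ext; intro v
    simp only [LinearMap.comp_apply, LinearMap.smul_apply, Module.End.one_apply, T.X.ro_apply, map_smul, T.X.sesq.smul_left]
    module
  rw [he, one_smul, one_smul, hpair, hpair, sX a₃ a, haa₃] at hc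
  refine ⟨_, ?_, ?_, hc⟩
  · intro h0
    have g1 := congrArg (fun v => T.X.f v a₀) (LinearMap.congr_fun h0 a')
    simp only [LinearMap.sub_apply, LinearMap.smul_apply, T.X.ro_apply, LinearMap.zero_apply, f_sub_left, T.X.sesq.smul_left,
      T.X.zero_left, T.X.zero_symm h5] at g1
    have g2 : T.X.f a' a = 1 := by rw [sX]; exact h4
    have g3 : T.X.f a₃ a₀ = -m := by
      rw [hva₃, f_sub_left, f_sub_left, T.X.sesq.smul_left, T.X.zero_symm h5, T.X.zero_symm h6, ← hm₀]; ring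
    rw [g2, g3, mul_zero, mul_zero, sub_zero, one_mul] at g1
    have g4 : T.W.f ζ ζ * -(m / 2) * -m ≠ 0 := by
      refine mul_ne_zero (mul_ne_zero hζζ (neg_ne_zero.2 (div_ne_zero h7 h2))) (neg_ne_zero.2 h7)
    exact g4 g1
  · rw [st_sub, st_smul', st_smul', st_ro heX, st_ro heX]; abel

end Cfsg.Agent.H94.T34
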