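import Mathlib
import Cfsg.Agent.H94.T34f
import Cfsg.Agent.GeoMax.OPar

set_option autoImplicit false
set_option linter.unusedSectionVars false
set_option linter.unusedVariables false

/-!
From central Siegel elements to the full group.
-/

namespace Cfsg.Agent.H94.T34

open Module Cfsg.Geo Cfsg.Agent.Asch Matrix Cfsg.Agent.TenMax

open Cfsg.Agent.GeoMax.Ort (HasE FullR emGL emGL_mulVec)

open Cfsg.Agent.Orth (OGrp eich eich_apply OGrp_ext)

open QuadraticMap (polar polarBilin)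

open scoped Matrix MatrixGroups Kronecker

variable {F : Type*} [Field F] {T : TData (RingEquiv.refl F) (Fin 3) (Fin 4)} {K : Subgroup (GL (Fin 3 × Fin 4) F)}
  {Q : QuadraticForm F (Fin 3 × Fin 4 → F)}

theorem Q_tz' (h2 : (2 : F) ≠ 0) (hQ : ∀ x y, polar Q x y = T.Y.f x y) {w : Fin 4 → F} (hw : T.W.f w w = 0) (u : Fin 3 → F) :
    Q (tz u w) = 0 := by
  have h1 := Q_eq hQ (tz u w)
  rw [T.tp, hw, mul_zero] at h1
  exact (mul_eq_zero.1 h1).resolve_left h2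

theorem hasE_of_lz (h2 : (2 : F) ≠ 0) (he : T.W.e = 1) (hQ : ∀ x y, polar Q x y = T.Y.f x y) {b : Fin 4 → F}
    (hb : T.W.f b b = 0) {x y : Fin 3 → F} (h : Has K (T.sg b 0 (wd T.X x y))) :
    HasE (K.comap (emGL Q)) (tz x b) (tz y b) := by
  have hQ1 : Q (tz x b) = 0 := Q_tz' h2 hQ hb x
  have hQ3 : Q (tz y b) = 0 := Q_tz' h2 hQ hb y
  have hQ2 : polar Q (tz x b) (tz y b) = 0 := by rw [hQ, T.tp, hb, mul_zero]
  refine ⟨hQ1, hQ2, ?_⟩
  rw [Subgroup.mem_comap]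
  obtain ⟨g, hg, hge⟩ := h
  have : emGL Q (eich Q (tz x b) (tz y b) hQ1 hQ2) = g := by
    apply GeoMax.gl_ext
    intro v
    have e1 : T.X.f (T.ct b v) y = T.Y.f v (tz y b) := T.ad_spec (tR b) v y
    have e2 : T.X.f (T.ct b v) x = T.Y.f v (tz x b) := T.ad_spec (tR b) v x
    rw [emGL_mulVec, eich_apply, ← toLin'_apply, hge, sg_vec, T.ad_zero, hQ, hQ, hQ3, wd_apply, e1, e2, map_sub, map_smul, map_smul,
      LinearMap.zero_apply, LinearMap.zero_apply, map_zero, smul_zero]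
    simp only [tR_apply]
    module
  rw [this]; exact hg

section

variable (hex : ∀ g ∈ K, ∃ h : OGrp Q, emGL Q h = g)

include hex

theorem exists_right (h2 : (2 : F) ≠ 0) (he : T.W.e = 1) (hK : TGrp T K) {w z : Fin 4 → F} (hw : T.W.f w w = 0) (hz : T.W.f z w = 0) :
    ∃ g : OGrp Q, g ∈ K.comap (emGL Q) ∧ ∀ u y, (g : (Fin 3 × Fin 4 → F) ≃ₗ[F] (Fin 3 × Fin 4 → F)) (tz u y) = tz u (E T.W w z y) := by
  obtain ⟨g, hg, hge⟩ := hK.sieg w z (-(T.W.f z z / 2)) hw hz (sieg_cond he h2 z)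
  obtain ⟨h, hh⟩ := hex g hg
  refine ⟨h, by rw [Subgroup.mem_comap, hh]; exact hg, fun u y => ?_⟩
  rw [← emGL_mulVec, hh, ← toLin'_apply, hge, sg_E he]

/-- transfer between singular vectors of the second factor -/
theorem transfer (h2 : (2 : F) ≠ 0) (he : T.W.e = 1) (hM : Mi T.W) (hK : TGrp T K) {b : Fin 4 → F} (hb0 : b ≠ 0) (hb : T.W.f b b = 0)
    (h : ∀ x y, HasE (K.comap (emGL Q)) (tz x b) (tz y b)) {b₁ : Fin 4 → F} (hb₁0 : b₁ ≠ 0) (hb₁ : T.W.f b₁ b₁ = 0) (x y : Fin 3 → F) :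
    HasE (K.comap (emGL Q)) (tz x b₁) (tz y b₁) := by
  have sW := fun x y => SF.symm1 (X := T.W) he x y
  have scale : ∀ (t : F) (w : Fin 4 → F), t ≠ 0 → (∀ x y, HasE (K.comap (emGL Q)) (tz x (t • w)) (tz y (t • w))) →
      ∀ x y, HasE (K.comap (emGL Q)) (tz x w) (tz y w) := by
    intro t w ht h x y
    have := h (t⁻¹ • x) (t⁻¹ • y)
    rwa [tz_smul_right, tz_smul_right, tz_smul_left, tz_smul_left, smul_smul, smul_smul, mul_inv_cancel₀ ht, one_smul, one_smul] at this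
  by_cases hm : T.W.f b b₁ = 0
  · obtain ⟨t, rfl⟩ := hM b b₁ hb0 hb (T.W.zero_symm hm) hb₁
    rw [tz_smul_right, tz_smul_right, ← tz_smul_left, ← tz_smul_left]
    exact h _ _
  set m := T.W.f b b₁ with hmd
  have hm' : T.W.f b₁ b = m := by rw [sW]
  obtain ⟨z, hz, hz0⟩ := exists_pl (W := T.W) [b, b₁] (by simp)
  have hzb : T.W.f z b = 0 := hz b (by simp)
  have hzb₁ : T.W.f z b₁ = 0 := hz b₁ (by simp)
  have hzz : T.W.f z z ≠ 0 := hM.nonsing hb0 hb hm hzb hzb₁ hz0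
  set n := T.W.f z z with hn
  set ν := -2 / (n * m) with hν
  obtain ⟨g₁, hg₁, hg₁'⟩ := exists_right (Q := Q) hex h2 he hK hb₁ hzb₁
  obtain ⟨g₂, hg₂, hg₂'⟩ := exists_right (Q := Q) hex h2 he hK (z := ν • z) hb (by rw [T.W.sesq.smul_left, hzb, mul_zero])
  have hbz : T.W.f b z = 0 := T.W.zero_symm hzb
  have hb₁z : T.W.f b₁ z = 0 := T.W.zero_symm hzb₁
  have e1 : E T.W b₁ z b = (-(n * m / 2)) • E T.W b (ν • z) b₁ := by
    simp only [E, SF.smul_r, T.W.sesq.smul_left, hbz, hb₁z, hm', ← hmd, ← hn]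
    rw [hν]
    funext i
    simp only [Pi.add_apply, Pi.sub_apply, Pi.smul_apply, smul_eq_mul]
    field_simp
    ring
  have h3 : ∀ x y, HasE (K.comap (emGL Q)) (tz x (E T.W b (ν • z) b₁)) (tz y (E T.W b (ν • z) b₁)) := by
    apply scale (-(n * m / 2)) _ (neg_ne_zero.2 (div_ne_zero (mul_ne_zero hzz hm) h2))
    intro x y
    have := (h x y).conj hg₁
    rwa [hg₁', hg₁', e1] at this
  have h4 := (h3 x y).conj (Subgroup.inv_mem _ hg₂)
  have h5 : ∀ u, ((g₂⁻¹ : OGrp Q) : (Fin 3 × Fin 4 → F) ≃ₗ[F] (Fin 3 × Fin 4 → F)) (tz u (E T.W b (ν • z) b₁)) = tz u b₁ := by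
    intro u
    rw [← hg₂', Orth.coe_inv_apply_self]
  rwa [h5, h5] at h4

end

/-- the full radical at pure singular vectors -/
theorem fullR_of_all [Finite F] (h2 : (2 : F) ≠ 0) (heX : T.X.e = 1) (he : T.W.e = 1) (hM : Mi T.W) (hQ : ∀ x y, polar Q x y = T.Y.f x y)
    {M : Subgroup (OGrp Q)} (hall : ∀ b, b ≠ 0 → T.W.f b b = 0 → ∀ x y, HasE M (tz x b) (tz y b))
    {x : Fin 3 → F} (hx : x ≠ 0) {b : Fin 4 → F} (hb0 : b ≠ 0) (hb : T.W.f b b = 0) : FullR M (tz x b) := by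
  have sW := fun x y => SF.symm1 (X := T.W) he x y
  have sX := fun x y => SF.symm1 (X := T.X) heX x y
  have hQb := fun u => Q_tz' (u := u) h2 hQ hb
  -- step 2
  have s2 : ∀ {x b}, x ≠ 0 → b ≠ 0 → T.W.f b b = 0 → ∀ b₁, b₁ ≠ 0 → T.W.f b₁ b₁ = 0 → ∀ y, T.X.f y x = 0 →
      HasE M (tz x b) (tz y b₁) := by
    intro x b hx hb0 hb b₁ hb₁0 hb₁ y hy
    by_cases hm : T.W.f b₁ b = 0
    · obtain ⟨t, rfl⟩ := hM b b₁ hb0 hb hm hb₁
      rw [tz_smul_right, ← tz_smul_left]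
      exact hall b hb0 hb _ _
    by_cases hy0 : y = 0
    · rw [hy0]
      have : tz (0 : Fin 3 → F) b₁ = 0 := by funext p; simp [tz]
      rw [this]
      exact HasE.zero (Q_tz' h2 hQ hb x)
    -- a second vector orthogonal to `x`
    obtain ⟨x₁, hx₁, hx₁y⟩ : ∃ x₁, T.X.f x₁ x = 0 ∧ x₁ ∉ Submodule.span F {y} := by
      by_contra hcon
      push Not at hcon
      have h1 := T.X.finrank_pl [x]
      have h3 : T.X.pl [x] ≤ Submodule.span F {y} := fun v hv => hcon v (hv x (by simp))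
      have h4 := Submodule.finrank_mono h3
      have h5 := finrank_span_singleton (K := F) hy0
      rw [List.length_cons, List.length_nil, Fintype.card_fin] at h1
      omega
    obtain ⟨y₀, h6, h7⟩ := T.X.exists_perp_one hx₁y
    have h8 := hall b₁ hb₁0 hb₁ x₁ y
    obtain ⟨k1, k2, k3⟩ := h8
    have h9 := (hall b hb0 hb x ((T.W.f b₁ b)⁻¹ • y₀)).conj k3
    have hyx : T.X.f x y = 0 := T.X.zero_symm hy
    have hx₁x : T.X.f x x₁ = 0 := T.X.zero_symm hx₁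
    have hbb₁ : T.W.f b b₁ = T.W.f b₁ b := sW _ _
    have e1 : (eich Q (tz x₁ b₁) (tz y b₁) k1 k2 : (Fin 3 × Fin 4 → F) ≃ₗ[F] (Fin 3 × Fin 4 → F)) (tz x b) = tz x b := by
      rw [eich_apply, hQ, hQ, T.tp, T.tp, hyx, hx₁x]
      simp
    have e2 : (eich Q (tz x₁ b₁) (tz y b₁) k1 k2 : (Fin 3 × Fin 4 → F) ≃ₗ[F] (Fin 3 × Fin 4 → F)) (tz ((T.W.f b₁ b)⁻¹ • y₀) b) =
        tz ((T.W.f b₁ b)⁻¹ • y₀) b - tz y b₁ := by
      rw [eich_apply, hQ, hQ, T.tp, T.tp, T.X.sesq.smul_left, T.X.sesq.smul_left, h6, h7, Q_tz' h2 hQ hb₁, hbb₁, mul_one,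
        inv_mul_cancel₀ hm]
      simp
    rw [e1, e2] at h9
    have h10 := (hall b hb0 hb x ((T.W.f b₁ b)⁻¹ • y₀)).sub h9
    rwa [sub_sub_cancel] at h10
  -- step 3
  have s3 : ∀ {x b}, x ≠ 0 → b ≠ 0 → T.W.f b b = 0 → ∀ w y, T.X.f y x = 0 → HasE M (tz x b) (tz y w) := by
    intro x b hx hb0 hb w y hy
    have hsm : ∀ (t : F) (w : Fin 4 → F), (∀ y, T.X.f y x = 0 → HasE M (tz x b) (tz y w)) → ∀ y, T.X.f y x = 0 →
        HasE M (tz x b) (tz y (t • w)) := by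
      intro t w h y hy
      rw [tz_smul_right, ← tz_smul_left]
      exact h _ (by rw [T.X.sesq.smul_left, hy, mul_zero])
    have hk : ∀ {d d' c c'}, Fr T.W d d' c c' → ∀ y, T.X.f y x = 0 → HasE M (tz x b) (tz y c) := by
      intro d d' c c' hf y hy
      have hd : d ≠ 0 := ne_zero_of_f (W := T.W) (b' := d') (by rw [hf.h]; exact one_ne_zero)
      have hd' : d' ≠ 0 := ne_zero_of_f (W := T.W) (b' := d) (by rw [sW, hf.h]; exact one_ne_zero)
      set b₃ := d + c - (T.W.f c c / 2) • d' with hb₃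
      have f2 : T.W.f b₃ d' = 1 := by
        rw [hb₃]; simp only [f_sub_left, T.W.sesq.add_left, T.W.sesq.smul_left, hf.h, hf.cb', hf.bb']; ring
      have f3 : T.W.f b₃ b₃ = 0 := by
        rw [hb₃]
        simp only [T.W.sub_right, f_sub_left, T.W.sesq.add_left, T.W.sesq.add_right, T.W.sesq.smul_left, SF.smul_r, hf.bb, hf.bb',
          hf.h, hf.cb, hf.cb', sW d' d, sW d c, sW d' c]
        field_simp
        ring
      have g1 := s2 hx hb0 hb b₃ (ne_zero_of_f (W := T.W) (b' := d') (by rw [f2]; exact one_ne_zero)) f3 y hy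
      have g2 := s2 hx hb0 hb d hd hf.bb y hy
      have g3 := hsm (T.W.f c c / 2) d' (fun y hy => s2 hx hb0 hb d' hd' hf.bb' y hy) y hy
      have g4 := (g1.sub g2).add g3
      convert g4 using 1
      rw [← tz_sub_right, ← tz_add_right, hb₃]
      congr 1
      abel
    obtain ⟨b', c, c', hf⟩ := hM.frame1 he h2 (by rw [Fintype.card_fin]) hb0 hb
    have hb'0 : b' ≠ 0 := ne_zero_of_f (W := T.W) (b' := b) (by rw [sW, hf.h]; exact one_ne_zero)
    rw [hf.exp w, tz_add_right, tz_add_right, tz_add_right]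
    exact (((hsm _ b (fun y hy => s2 hx hb0 hb b hb0 hb y hy) y hy).add
      (hsm _ b' (fun y hy => s2 hx hb0 hb b' hb'0 hf.bb' y hy) y hy)).add (hsm _ c (hk hf) y hy)).add
      (hsm _ c' (hk (hf.swap' he (by rw [Fintype.card_fin]))) y hy)
  -- step 4
  have s4 : ∀ w, T.W.f w b = 0 → ∀ y, HasE M (tz x b) (tz y w) := by
    intro w hw y
    obtain ⟨b', c, c', hf⟩ := hM.frame1 he h2 (by rw [Fintype.card_fin]) hb0 hb
    have hb'0 : b' ≠ 0 := ne_zero_of_f (W := T.W) (b' := b) (by rw [sW, hf.h]; exact one_ne_zero)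
    have hbb' : T.W.f b b' = 1 := hf.h
    have hb'b : T.W.f b' b = 1 := by rw [sW]; exact hf.h
    obtain ⟨x₁, hx₁, hx₁0⟩ := exists_pl (W := T.X) [x, y] (by simp)
    have hx₁x : T.X.f x₁ x = 0 := hx₁ x (by simp)
    have hx₁y : T.X.f x₁ y = 0 := hx₁ y (by simp)
    obtain ⟨y₀, hy₀⟩ := T.X.nd x₁ hx₁0
    obtain ⟨k1, k2, k3⟩ := s3 hx₁0 hb'0 hf.bb' w y (T.X.zero_symm hx₁y)
    set y₁ := (T.X.f x₁ y₀)⁻¹ • y₀ with hy₁
    have hy₁' : T.X.f y₁ x₁ = 1 := by rw [hy₁, T.X.sesq.smul_left, sX y₀ x₁, inv_mul_cancel₀ hy₀]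
    have h9 := (hall b hb0 hb x y₁).conj k3
    have hbw : T.W.f b w = 0 := T.W.zero_symm hw
    have e1 : (eich Q (tz x₁ b') (tz y w) k1 k2 : (Fin 3 × Fin 4 → F) ≃ₗ[F] (Fin 3 × Fin 4 → F)) (tz x b) = tz x b := by
      rw [eich_apply, hQ, hQ, T.tp, T.tp, hbw, T.X.zero_symm hx₁x]
      simp
    have e2 : (eich Q (tz x₁ b') (tz y w) k1 k2 : (Fin 3 × Fin 4 → F) ≃ₗ[F] (Fin 3 × Fin 4 → F)) (tz y₁ b) =
        tz y₁ b - tz y w - tz (Q (tz y w) • x₁) b' := by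
      rw [eich_apply, hQ, hQ, T.tp, T.tp, hbw, hy₁', hbb', tz_smul_left (Q (tz y w))]
      simp
    rw [e1, e2] at h9
    have h10 := ((hall b hb0 hb x y₁).sub h9).sub (s3 hx hb0 hb b' (Q (tz y w) • x₁) (by rw [T.X.sesq.smul_left, hx₁x, mul_zero]))
    convert h10 using 1
    abel
  -- conclusion
  obtain ⟨b', c, c', hf⟩ := hM.frame1 he h2 (by rw [Fintype.card_fin]) hb0 hb
  have hbb' : T.W.f b b' = 1 := hf.h
  have hb'b : T.W.f b' b = 1 := by rw [sW]; exact hf.h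
  obtain ⟨u₁, hu₁⟩ := T.X.nd x hx
  have key : ∀ v : Fin 3 × Fin 4 → F, ∃ r : F, HasE M (tz x b) (v - r • tz u₁ b') := by
    intro v
    rw [tz_eq_sum v]
    have hsum : ∀ s : Finset (Fin 4), ∃ r : F, HasE M (tz x b)
        (∑ j ∈ s, tR (Pi.single j 1) (fun i => v (i, j)) - r • tz u₁ b') := by
      intro s
      induction s using Finset.induction_on with
      | empty =>
        refine ⟨0, ?_⟩
        rw [Finset.sum_empty, zero_smul, sub_zero]
        exact HasE.zero (hQb x)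
      | insert j s hj ih =>
        obtain ⟨r, hr⟩ := ih
        set u' : Fin 3 → F := fun i => v (i, j) with hu'
        set z : Fin 4 → F := Pi.single j 1 with hz
        set α := T.X.f u' x / T.X.f u₁ x with hα
        set β := T.W.f z b with hβ
        have hu₁x : T.X.f u₁ x ≠ 0 := by rw [sX]; exact hu₁
        refine ⟨α * β + r, ?_⟩
        have e : ∑ j ∈ insert j s, tR (Pi.single j 1) (fun i => v (i, j)) - (α * β + r) • tz u₁ b' =
            (tz (u' - α • u₁) z + tz (α • u₁) (z - β • b')) +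
            (∑ j ∈ s, tR (Pi.single j 1) (fun i => v (i, j)) - r • tz u₁ b') := by
          rw [Finset.sum_insert hj, tz_sub_left, tz_smul_left, tz_sub_right, tz_smul_right, tz_smul_left, tz_smul_left, add_smul,
            mul_smul, tR_apply]
          have : β • α • tz u₁ b' = α • β • tz u₁ b' := smul_comm _ _ _
          rw [this]
          abel
        rw [e]
        refine HasE.add (HasE.add (s3 hx hb0 hb _ _ ?_) (s4 _ ?_ _)) hr
        · rw [f_sub_left, T.X.sesq.smul_left, hα]; field_simp; ring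
        · rw [f_sub_left, T.W.sesq.smul_left, hb'b, hβ]; ring
    exact hsum Finset.univ
  intro v hv
  obtain ⟨r, hr⟩ := key v
  have h4 := hr.ortho
  rw [Orth.pdr, Orth.psr, hv, hQ, T.tp, hbb', zero_sub, neg_eq_zero, mul_one] at h4
  have hr0 : r = 0 := (mul_eq_zero.1 h4).resolve_right hu₁
  rw [hr0, zero_smul, sub_zero] at hr
  exact hr

/-- the group contains `Ω` -/
theorem omega_le [Finite F] (h2 : (2 : F) ≠ 0) (heX : T.X.e = 1) (he : T.W.e = 1) (hM : Mi T.W) (hK : TGrp T K) (hL : LeftS T K)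
    (hex : ∀ g ∈ K, ∃ h : OGrp Q, emGL Q h = g)
    (hQ : ∀ x y, polar Q x y = T.Y.f x y) (hnd : (polarBilin Q).Nondegenerate) {b : Fin 4 → F} (hb0 : b ≠ 0) (hb : T.W.f b b = 0)
    {η : Module.End F (Fin 3 → F)} (hη0 : η ≠ 0) (hη : T.st η = -η) (h : Has K (T.sg b 0 η)) :
    commutator (OGrp Q) ≤ K.comap (emGL Q) := by
  have hN : 7 ≤ finrank F (Fin 3 × Fin 4 → F) := by
    rw [finrank_fintype_fun_eq_card, Fintype.card_prod, Fintype.card_fin, Fintype.card_fin]; norm_num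
  have h1 : ∀ x y, HasE (K.comap (emGL Q)) (tz x b) (tz y b) := fun x y =>
    hasE_of_lz h2 he hQ hb (lz_all h2 heX hK hL hb hη0 hη h x y)
  have hall : ∀ b₁, b₁ ≠ 0 → T.W.f b₁ b₁ = 0 → ∀ x y, HasE (K.comap (emGL Q)) (tz x b₁) (tz y b₁) := fun b₁ hb₁0 hb₁ x y =>
    transfer hex h2 he hM hK hb0 hb h1 hb₁0 hb₁ x y
  obtain ⟨b', c, c', hf⟩ := hM.frame1 he h2 (by rw [Fintype.card_fin]) hb0 hb
  have hb'0 : b' ≠ 0 := ne_zero_of_f (W := T.W) (b' := b) (by rw [SF.symm1 he, hf.h]; exact one_ne_zero)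
  obtain ⟨u, hu⟩ := exists_of_nonempty (F := F) (α := Fin 3)
  obtain ⟨u₁, hu₁⟩ := T.X.nd u hu
  have hu₁0 : u₁ ≠ 0 := by rintro rfl; exact hu₁ (T.X.zero_right u)
  refine GeoMax.Ort.commutator_le_of_FullR hnd hN (fullR_of_all h2 heX he hM hQ hall hu₁0 hb'0 hf.bb')
    (fullR_of_all h2 heX he hM hQ hall hu hb0 hb) ?_
  rw [hQ, T.tp, hf.h, mul_one]
  exact hu₁

end Cfsg.Agent.H94.T34
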