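import Mathlib
import Cfsg.Agent.H94.T34g
import Cfsg.Agent.TenMax.AsmMax

set_option autoImplicit false
set_option linter.unusedSectionVars false
set_option linter.unusedVariables false

/-!
Maximality of stabilisers of tensor decompositions `3 ⊗ 4` with second factor of minus type.
-/

namespace Cfsg.Agent.H94.T34

open Module Cfsg.Geo Cfsg.Agent.Asch Matrix Cfsg.Agent.TenMax

open Cfsg.Agent.Asch.TMax (rhoG rhoG_mem rhoG_symm_mem mem_omega_iff_rhoG)

open Cfsg.Agent.AschCases (tp kron_tp tmap tmap_apply form_tp)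

open Cfsg.Agent.GeoMax.Ort (HasE FullR emGL emGL_mulVec emGL_injective omegaGL_eq)

open Cfsg.Agent.Orth (OGrp eich eich_apply OGrp_ext OGrp_polar)

open QuadraticMap (polar polarBilin)

open scoped Matrix MatrixGroups Kronecker

variable {F : Type*} [Field F]

theorem rs_eq_EL {κ : Type} [Fintype κ] [DecidableEq κ] {X : SF (RingEquiv.refl F) κ} (he : X.e = 1) (u x : κ → F) :
    X.rs u x (-(X.f x x / 2)) = EL X u x := by
  apply LinearMap.ext; intro y
  show y + (X.f y x • u - X.e • X.f y u • x + (-(X.f x x / 2)) • X.f y u • u) = E X u x y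
  rw [he]
  simp only [E]
  module

/-- the dichotomy -/
theorem dichotomy [Fintype F] (h2 : (2 : F) ≠ 0) (hq : 5 ≤ Fintype.card F) {T : TData (RingEquiv.refl F) (Fin 3) (Fin 4)}
    (heX : T.X.e = 1) (he : T.W.e = 1) (hM : Mi T.W) {S : Subgroup (GL (Fin 3 × Fin 4) F)} (hS : Over T S)
    {Q : QuadraticForm F (Fin 3 × Fin 4 → F)} (hQ : ∀ x y, polar Q x y = T.Y.f x y) (hnd : (polarBilin Q).Nondegenerate)
    (hSO : S ≤ (commutator (OGrp Q)).map (emGL Q))
    (hpure : ∀ g ∈ kroneckerSubgroup 3 4 F, g ∈ (commutator (OGrp Q)).map (emGL Q) → g ∈ S) :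
    (commutator (OGrp Q)).map (emGL Q) ≤ S ∨ S ≤ kroneckerSubgroup 3 4 F := by
  have hK := hS.tgrp h2
  by_cases hN : NN T S
  · right
    refine le_kron4 h2 hq (by norm_num) (by norm_num) heX he hM hK fun g hg w w' hw0 hw hw'0 h => ?_
    refine line4 h2 (by norm_num) heX he hM hK hN hSO hpure ?_ hg hw0 hw hw'0 h
    rintro k hiso ⟨n, hn, hkn⟩
    refine mem_omega_of_odd h2 hnd (fun v => ?_) hn hkn
    have h3 := hiso v v
    rw [← hQ, ← hQ, Orth.pself, Orth.pself, toLin'_apply] at h3
    exact mul_left_cancel₀ h2 h3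
  · left
    unfold NN at hN
    push Not at hN
    obtain ⟨b, hb0, hb, Z, S', hO, hZ, hne⟩ := hN
    have hL : LeftS T S := by
      intro u x hu hx
      refine ⟨_, Has.toLin (hS.left h2 (c := -(T.X.f x x / 2)) hu hx (by rw [heX]; field_simp; ring)), fun y => ?_⟩
      apply LinearMap.ext; intro v
      show toLin' _ (tz v y) = tz (EL T.X u x v) y
      rw [kGL_tz, toLin'_glOf, Units.val_one, toLin'_one, rs_eq_EL heX]; rfl
    obtain ⟨η, hη0, hη, h⟩ := exists_lz h2 hq heX he hM hK hL hb0 hb hO hZ hne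
    rw [Subgroup.map_le_iff_le_comap]
    refine omega_le h2 heX he hM hK hL ?_ hQ hnd hb0 hb hη0 hη h
    intro g hg
    obtain ⟨k, -, hk⟩ := hSO hg
    exact ⟨k, hk⟩

/-- the Witt index of the second factor -/
theorem mi_of_minus {f : (Fin 4 → F) → (Fin 4 → F) → F} (hf : IsSymmetricForm f)
    (hminus : ¬ IsPlusTypeOn (fun v : Fin 4 → F => f v v) ⊤) : Mi (SF.ofSymm hf) := by
  intro b c hb hbb hcb hcc
  by_contra hcon
  push Not at hcon
  apply hminus
  have hbb' : f b b = 0 := hbb
  have hcb' : f c b = 0 := hcb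
  have hcc' : f c c = 0 := hcc
  have hbc' : f b c = 0 := by rw [hf.symm]; exact hcb'
  have hli : LinearIndependent F ![b, c] := by
    rw [LinearIndependent.pair_iff]
    intro s t hst
    have ht : t = 0 := by
      by_contra ht
      apply hcon (-(t⁻¹ * s))
      have h1 : t • c = -(s • b) := eq_neg_of_add_eq_zero_right hst
      have h3 : c = t⁻¹ • (t • c) := by rw [smul_smul, inv_mul_cancel₀ ht, one_smul]
      rw [h3, h1, smul_neg, smul_smul, neg_smul]
    rw [ht, zero_smul, add_zero] at hst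
    exact ⟨(smul_eq_zero.1 hst).resolve_right hb, ht⟩
  refine ⟨Submodule.span F (Set.range ![b, c]), le_top, ?_, ?_⟩
  · intro v hv
    rw [Matrix.range_cons_cons_empty, Submodule.mem_span_pair] at hv
    obtain ⟨s, t, rfl⟩ := hv
    show f (s • b + t • c) (s • b + t • c) = 0
    simp only [hf.bilinear.add_left, hf.bilinear.add_right, hf.bilinear.smul_left, hf.bilinear.smul_right, hbb', hcb', hcc', hbc']
    ring
  · rw [finrank_span_eq_card hli, Fintype.card_fin, finrank_top, finrank_fin_fun]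

variable {ι : Type} [Fintype ι] [DecidableEq ι]

/-- maximality -/
theorem isMaximalIn_tensor34 [Fintype F] (h2 : (2 : F) ≠ 0) (hq : 5 ≤ Fintype.card F) {Q : QuadraticForm F (ι → F)}
    (hnd : (polarBilin Q).Nondegenerate)
    {f₁ : (Fin 3 → F) → (Fin 3 → F) → F} {f₂ : (Fin 4 → F) → (Fin 4 → F) → F}
    (e : ι ≃ Fin 3 × Fin 4) (P : GL ι F) (hf₁ : IsSymmetricForm f₁) (hf₂ : IsSymmetricForm f₂)
    (hminus : ¬ IsPlusTypeOn (fun v : Fin 4 → F => f₂ v v) ⊤)
    (hT : IsTensorFormStructure id (polar Q) f₁ f₂ e P) :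
    IsMaximalIn (omegaGL Q) (tensorProductSubgroup 3 4 e P ⊓ omegaGL Q) := by
  classical
  have hcard : Fintype.card ι = 12 := by
    have := Fintype.card_congr e
    rwa [Fintype.card_prod, Fintype.card_fin, Fintype.card_fin] at this
  refine ⟨lt_of_le_of_ne inf_le_right fun h => ?_, fun M hM1 hM2 => ?_⟩
  · exact AschCases.OrthNot.not_le_tensor_symm hnd (by omega) h2 (by norm_num) (by norm_num) e P hf₁ hf₂ hT (inf_eq_right.1 h)
  -- coordinates
  obtain ⟨c, hc0, hc⟩ := form_tp (σ := RingEquiv.refl F) (Asch.isSesq_of_bilinear hf₁.bilinear) (Asch.isSesq_of_bilinear hf₂.bilinear) hT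
  set Q' : QuadraticForm F (Fin 3 × Fin 4 → F) := Q.comp (tmap e P).toLinearMap with hQ'
  have hQ'x : ∀ x, Q' x = Q (tmap e P x) := fun x => rfl
  have hpolx : ∀ x y, polar Q' x y = polar Q (tmap e P x) (tmap e P y) := by
    intro x y
    rw [polar, hQ'x, hQ'x, hQ'x, map_add]
    rfl
  have hnd' : (polarBilin Q').Nondegenerate := by
    have key : ∀ x, (∀ y, polar Q' x y = 0) → x = 0 := by
      intro x hx
      have h3 : tmap e P x = 0 := by
        apply hnd.1
        intro y
        have := hx ((tmap e P).symm y)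
        rw [hpolx, LinearEquiv.apply_symm_apply] at this
        exact this
      exact (LinearEquiv.map_eq_zero_iff _).1 h3
    exact ⟨fun x hx => key x hx, fun x hx => key x fun y => by rw [QuadraticMap.polar_comm]; exact hx y⟩
  set T : TData (RingEquiv.refl F) (Fin 3) (Fin 4) :=
    { X := SF.ofSymm (symm_smul hf₁ hc0)
      W := SF.ofSymm hf₂
      Y := SF.ofSymm (polar_symm hnd')
      tp := by
        intro u w u' w'
        show polar Q' (tp u w) (tp u' w') = c * f₁ u u' * f₂ w w'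
        rw [hpolx, hc]
        ring
      he := (one_mul 1).symm } with hTd
  have hYf : ∀ x y, T.Y.f x y = polar Q' x y := fun x y => rfl
  have hcomm : ∀ g, g ∈ omegaGL Q ↔ rhoG e P g ∈ (commutator (OGrp Q')).map (emGL Q') := by
    intro g
    rw [← mem_omega_iff_rhoG e P hQ'x, ← omegaGL_eq]
  set S := M.map (rhoG e P).toMonoidHom with hS
  have hSΩ : S ≤ (commutator (OGrp Q')).map (emGL Q') := by
    rintro _ ⟨g, hg, rfl⟩
    exact (hcomm g).1 (hM2 hg)
  have hpure : ∀ g ∈ kroneckerSubgroup 3 4 F, g ∈ (commutator (OGrp Q')).map (emGL Q') → g ∈ S := by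
    intro k hkk hk
    refine ⟨(rhoG e P).symm k, hM1 ⟨rhoG_symm_mem e P k hkk, ?_⟩, (rhoG e P).apply_symm_apply k⟩
    refine (hcomm _).2 ?_
    rw [MulEquiv.apply_symm_apply]
    exact hk
  have hO : Over T S := by
    constructor
    · intro g hg x y
      obtain ⟨h, _, rfl⟩ := hSΩ hg
      rw [toLin'_apply, toLin'_apply, hYf, hYf, emGL_mulVec, emGL_mulVec, OGrp_polar]
    · rintro k hkk hiso ⟨n, hn, hkn⟩
      apply hpure k hkk
      refine mem_omega_of_odd h2 hnd' (fun v => ?_) hn hkn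
      have h3 := hiso v v
      rw [hYf, hYf, Orth.pself, Orth.pself, toLin'_apply] at h3
      exact mul_left_cancel₀ h2 h3
  rcases dichotomy h2 hq (T := T) rfl rfl (mi_of_minus hf₂ hminus) hO (fun x y => (hYf x y).symm) hnd' hSΩ hpure with hfull | hle
  · right
    refine le_antisymm hM2 fun g hg => ?_
    obtain ⟨g', hg', hg'e⟩ := hfull ((hcomm g).1 hg)
    have : g' = g := (rhoG e P).injective hg'e
    rwa [← this]
  · left
    refine le_antisymm (le_inf (fun g hg => ?_) hM2) hM1
    exact rhoG_mem e P g (hle ⟨g, hg, rfl⟩)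

end Cfsg.Agent.H94.T34
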