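import Mathlib
import Cfsg.Agent.H94.T33i
import Cfsg.Agent.H94.T33c
import Cfsg.Agent.H94.T34h

set_option autoImplicit false
set_option linter.unusedSectionVars false
set_option linter.unusedVariables false

/-!
The dichotomy for overgroups of the stabiliser of a tensor square.
-/

namespace Cfsg.Agent.H94.T33

open Module Cfsg.Geo Cfsg.Agent.Asch Matrix Cfsg.Agent.TenMax Cfsg.Agent.H94.T34

open Cfsg.Agent.GeoMax.Ort (HasE FullR emGL emGL_mulVec emGL_injective omegaGL_eq)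

open Cfsg.Agent.Orth (OGrp eich eich_apply OGrp_ext OGrp_polar)

open QuadraticMap (polar polarBilin)

open scoped Matrix MatrixGroups Kronecker

variable {F : Type*} [Field F] {T : TData (RingEquiv.refl F) (Fin 3) (Fin 3)} {K : Subgroup (GL (Fin 3 × Fin 3) F)}

/-- images of the spaces `U ⊗ b` -/
theorem image_line [Fintype F] (h2 : (2 : F) ≠ 0) (hq : 5 ≤ Fintype.card F) (heX : T.X.e = 1) (he : T.W.e = 1) (hH : Hyp T K)
    {g : GL (Fin 3 × Fin 3) F} (hg : g ∈ K) {b : Fin 3 → F} (hb0 : b ≠ 0) (hb : T.W.f b b = 0) :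
    (∃ β : Fin 3 → F, β ≠ 0 ∧ (LinearMap.range (tR b : (Fin 3 → F) →ₗ[F] (Fin 3 × Fin 3 → F))).map
      (toLin' (g : Matrix (Fin 3 × Fin 3) (Fin 3 × Fin 3) F)) = LinearMap.range (tR β)) ∨
    (∃ α : Fin 3 → F, α ≠ 0 ∧ (LinearMap.range (tR b : (Fin 3 → F) →ₗ[F] (Fin 3 × Fin 3 → F))).map
      (toLin' (g : Matrix (Fin 3 × Fin 3) (Fin 3 × Fin 3) F)) = LinearMap.range (tL α)) := by
  have sX := fun x y => SF.symm1 (X := T.X) heX x y
  have sW := fun x y => SF.symm1 (X := T.W) he x y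
  have h3 : Fintype.card (Fin 3) = 3 := Fintype.card_fin 3
  have hMX := mi3 (W := T.X) heX h2 h3
  have hMW := mi3 (W := T.W) he h2 h3
  set G := toLin' (g : Matrix (Fin 3 × Fin 3) (Fin 3 × Fin 3) F) with hG
  have hiso : ∀ v v', T.Y.f (G v) (G v') = T.Y.f v v' := hH.hK.iso _ (Has.toLin hg)
  have hinj : Function.Injective G := fun v v' h => GeoMax.gl_mulVec_injective g h
  obtain ⟨a, a', c, hf⟩ := exists_fr3 (X := T.X) heX h2 h3
  have ha0 : a ≠ 0 := ne_zero_of_f (W := T.X) (b' := a') (by rw [hf.h]; exact one_ne_zero)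
  have ha'0 : a' ≠ 0 := ne_zero_of_f (W := T.X) (b' := a) (by rw [sX, hf.h]; exact one_ne_zero)
  have hf3 := hf.third heX h2 h3 1
  set a₃ := a + (1 : F) • c - (1 * 1 * T.X.f c c / 2) • a' with ha₃
  have ha₃0 : a₃ ≠ 0 := ne_zero_of_f (W := T.X) (b' := a') (by rw [hf3.h]; exact one_ne_zero)
  obtain ⟨α₁, β₁, hα₁, hβ₁, hαα₁, hββ₁, e₁⟩ := pure_image h2 hq heX he hH hg ha0 hb0 hf.aa hb
  obtain ⟨α₂, β₂, hα₂, hβ₂, hαα₂, hββ₂, e₂⟩ := pure_image h2 hq heX he hH hg ha'0 hb0 hf.aa' hb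
  obtain ⟨α₃, β₃, hα₃, hβ₃, hαα₃, hββ₃, e₃⟩ := pure_image h2 hq heX he hH hg ha₃0 hb0 hf3.aa hb
  have e₁' : G (tz a b) = tz α₁ β₁ := e₁
  have e₂' : G (tz a' b) = tz α₂ β₂ := e₂
  have e₃' : G (tz a₃ b) = tz α₃ β₃ := e₃
  have orth : ∀ {x y α β α' β' : Fin 3 → F}, G (tz x b) = tz α β → G (tz y b) = tz α' β' → T.X.f α α' = 0 ∨ T.W.f β β' = 0 := by
    intro x y α β α' β' h h'
    have h5 := hiso (tz x b) (tz y b)
    rw [h, h', T.tp, T.tp, hb, mul_zero] at h5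
    exact mul_eq_zero.1 h5
  -- extension to the whole line
  have hspan : ∀ (N : Submodule F (Fin 3 × Fin 3 → F)), finrank F N = 3 → G (tz a b) ∈ N → G (tz a' b) ∈ N → G (tz a₃ b) ∈ N →
      (LinearMap.range (tR b : (Fin 3 → F) →ₗ[F] (Fin 3 × Fin 3 → F))).map G = N := by
    intro N hN m1 m2 m3
    have mc : G (tz c b) ∈ N := by
      have : c = a₃ - a + (1 * 1 * T.X.f c c / 2) • a' := by rw [ha₃]; module
      rw [this, tz_add_left, tz_sub_left, tz_smul_left, map_add, map_sub, map_smul]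
      exact N.add_mem (N.sub_mem m3 m1) (N.smul_mem _ m2)
    apply Submodule.eq_of_le_of_finrank_eq
    · rintro _ ⟨_, ⟨u, rfl⟩, rfl⟩
      rw [tR_apply, hf.exp u, tz_add_left, tz_add_left, tz_smul_left, tz_smul_left, tz_smul_left, map_add, map_add, map_smul, map_smul,
        map_smul]
      exact N.add_mem (N.add_mem (N.smul_mem _ m1) (N.smul_mem _ m2)) (N.smul_mem _ mc)
    · rw [← LinearEquiv.finrank_eq (Submodule.equivMapOfInjective G hinj _), finrank_range_tR hb0, h3, hN]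
  by_cases h12 : T.W.f β₂ β₁ = 0
  · left
    obtain ⟨t, rfl⟩ := hMW β₁ β₂ hβ₁ hββ₁ h12 hββ₂
    have ht : t ≠ 0 := by rintro rfl; exact hβ₂ (zero_smul _ _)
    have hnα : T.X.f α₂ α₁ ≠ 0 := by
      intro h0
      obtain ⟨s, rfl⟩ := hMX α₁ α₂ hα₁ hαα₁ h0 hαα₂
      have h5 : G (tz a' b) = G ((t * s) • tz a b) := by
        rw [e₂', map_smul, e₁', tz_smul_left, tz_smul_right, smul_smul, mul_comm]
      have h6 := hinj h5
      rw [← tz_smul_left] at h6
      have h7 : a' = (t * s) • a := by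
        have h8 : tz (a' - (t * s) • a) b = 0 := by rw [tz_sub_left, h6, sub_self]
        exact sub_eq_zero.1 (tz_eq_zero h8 hb0)
      have h9 := hf.h
      rw [h7, SF.smul_r, hf.aa, mul_zero] at h9
      exact zero_ne_one h9
    have h13 : T.W.f β₃ β₁ = 0 := by
      rcases orth e₃' e₁' with h | h
      · obtain ⟨r, hr⟩ := hMX α₁ α₃ hα₁ hαα₁ h hαα₃
        have hr0 : r ≠ 0 := by
          rintro rfl
          rw [zero_smul] at hr
          exact hα₃ hr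
        rcases orth e₃' e₂' with h' | h'
        · exfalso
          rw [hr, T.X.sesq.smul_left, sX α₁ α₂] at h'
          exact mul_ne_zero hr0 hnα h'
        · rw [SF.smul_r] at h'
          exact (mul_eq_zero.1 h').resolve_left ht
      · exact h
    obtain ⟨r, rfl⟩ := hMW β₁ β₃ hβ₁ hββ₁ h13 hββ₃
    refine ⟨β₁, hβ₁, hspan _ (by rw [finrank_range_tR hβ₁, h3]) ?_ ?_ ?_⟩
    · rw [e₁']; exact ⟨α₁, rfl⟩
    · rw [e₂', tz_smul_right, ← tz_smul_left]; exact ⟨t • α₂, rfl⟩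
    · rw [e₃', tz_smul_right, ← tz_smul_left]; exact ⟨r • α₃, rfl⟩
  · right
    have h12' : T.X.f α₂ α₁ = 0 := (orth e₂' e₁').resolve_right h12
    obtain ⟨t, rfl⟩ := hMX α₁ α₂ hα₁ hαα₁ h12' hαα₂
    have ht : t ≠ 0 := by rintro rfl; exact hα₂ (zero_smul _ _)
    have h13 : T.X.f α₃ α₁ = 0 := by
      rcases orth e₃' e₁' with h | h
      · exact h
      · obtain ⟨r, hr⟩ := hMW β₁ β₃ hβ₁ hββ₁ h hββ₃
        have hr0 : r ≠ 0 := by
          rintro rfl
          rw [zero_smul] at hr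
          exact hβ₃ hr
        rcases orth e₃' e₂' with h' | h'
        · rw [SF.smul_r] at h'
          exact (mul_eq_zero.1 h').resolve_left ht
        · exfalso
          rw [hr, T.W.sesq.smul_left, sW β₁ β₂] at h'
          exact mul_ne_zero hr0 h12 h'
    obtain ⟨r, rfl⟩ := hMX α₁ α₃ hα₁ hαα₁ h13 hαα₃
    refine ⟨α₁, hα₁, hspan _ (finrank_range_tL hα₁) ?_ ?_ ?_⟩
    · rw [e₁']; exact ⟨β₁, rfl⟩
    · rw [e₂', tz_smul_left, ← tz_smul_right]; exact ⟨t • β₂, rfl⟩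
    · rw [e₃', tz_smul_left, ← tz_smul_right]; exact ⟨r • β₃, rfl⟩

/-- all elements preserve or exchange the factors -/
theorem mem_or [Fintype F] (h2 : (2 : F) ≠ 0) (hq : 5 ≤ Fintype.card F) (heX : T.X.e = 1) (he : T.W.e = 1) (hH : Hyp T K)
    {h₀ : GL (Fin 3 × Fin 3) F} (hh₀ : h₀ ∈ K) {A B : Module.End F (Fin 3 → F)} (hA : Function.Injective A) (hB : Function.Injective B)
    (hAB : ∀ u w, toLin' (h₀ : Matrix (Fin 3 × Fin 3) (Fin 3 × Fin 3) F) (tz u w) = tz (B w) (A u))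
    {g : GL (Fin 3 × Fin 3) F} (hg : g ∈ K) : g ∈ kroneckerSubgroup 3 3 F ∨ h₀ * g ∈ kroneckerSubgroup 3 3 F := by
  obtain ⟨b, -, hb0, hb⟩ := T.W.exists_iso_mem (U := ⊤) (by rw [finrank_top, finrank_fin_fun])
  rcases image_line h2 hq heX he hH hg hb0 hb with ⟨β, hβ, h⟩ | ⟨α, hα, h⟩
  · left
    exact hH.line g hg b β hb0 hb hβ h
  · right
    have hBs : Function.Surjective B := (LinearMap.injective_iff_surjective).1 hB
    have hAa : A α ≠ 0 := fun h0 => hα (hA (by rw [h0, map_zero]))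
    refine hH.line _ (K.mul_mem hh₀ hg) b (A α) hb0 hb hAa ?_
    rw [Units.val_mul, toLin'_mul, Submodule.map_comp, h]
    ext v
    constructor
    · rintro ⟨_, ⟨y, rfl⟩, rfl⟩
      exact ⟨B y, (hAB α y).symm⟩
    · rintro ⟨u, rfl⟩
      obtain ⟨y, rfl⟩ := hBs u
      exact ⟨tL α y, ⟨y, rfl⟩, hAB α y⟩

/-- the dichotomy -/
theorem dichotomy33 [Fintype F] (h2 : (2 : F) ≠ 0) (hq : 5 ≤ Fintype.card F)
    (heX : T.X.e = 1) (he : T.W.e = 1) {S : Subgroup (GL (Fin 3 × Fin 3) F)} (hS : Over T S)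
    {Q : QuadraticForm F (Fin 3 × Fin 3 → F)} (hQ : ∀ x y, polar Q x y = T.Y.f x y) (hnd : (polarBilin Q).Nondegenerate)
    (hSO : S ≤ (commutator (OGrp Q)).map (emGL Q))
    (hpure : ∀ g ∈ kroneckerSubgroup 3 3 F, g ∈ (commutator (OGrp Q)).map (emGL Q) → g ∈ S)
    {h₀ : GL (Fin 3 × Fin 3) F} (hh₀ : h₀ ∈ S) {A B : Module.End F (Fin 3 → F)} (hA : Function.Injective A) (hB : Function.Injective B)
    (hAB : ∀ u w, toLin' (h₀ : Matrix (Fin 3 × Fin 3) (Fin 3 × Fin 3) F) (tz u w) = tz (B w) (A u)) :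
    (commutator (OGrp Q)).map (emGL Q) ≤ S ∨ ∀ g ∈ S, g ∈ kroneckerSubgroup 3 3 F ∨ h₀ * g ∈ kroneckerSubgroup 3 3 F := by
  have hK := hS.tgrp h2
  have hM : Mi T.W := mi3 he h2 (Fintype.card_fin 3)
  by_cases hN : NN T S
  · right
    have hH : Hyp T S := by
      refine ⟨hK, fun g hg w w' hw0 hw hw'0 h => ?_, ⟨h₀, hh₀, A, B, hA, hB, hAB⟩⟩
      refine line3 h2 (by norm_num) heX he hM hK hN hSO hpure ?_ hg hw0 hw hw'0 h
      rintro k hiso ⟨n, hn, hkn⟩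
      refine mem_omega_of_odd h2 hnd (fun v => ?_) hn hkn
      have h3 := hiso v v
      rw [← hQ, ← hQ, Orth.pself, Orth.pself, toLin'_apply] at h3
      exact mul_left_cancel₀ h2 h3
    exact fun g hg => mem_or h2 hq heX he hH hh₀ hA hB hAB hg
  · left
    unfold NN at hN
    push Not at hN
    obtain ⟨b, hb0, hb, Z, S', hO, hZ, hne⟩ := hN
    have hL : LeftS T S := by
      intro u x hu hx
      refine ⟨_, Has.toLin (hS.left h2 (c := -(T.X.f x x / 2)) hu hx (by rw [heX]; field_simp; ring)), fun y => ?_⟩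
      apply LinearMap.ext; intro v
      show toLin' _ (tz v y) = tz (EL T.X u x v) y
      rw [kGL_tz, toLin'_glOf, Units.val_one, toLin'_one, rs_eq_EL heX]; rfl
    obtain ⟨η, hη0, hη, h⟩ := exists_lz h2 hq heX he hM hK hL hb0 hb hO hZ hne
    rw [Subgroup.map_le_iff_le_comap]
    refine omega_le h2 heX he hM hK hL ?_ hQ hnd hb0 hb hη0 hη h
    intro g hg
    obtain ⟨k, -, hk⟩ := hSO hg
    exact ⟨k, hk⟩

end Cfsg.Agent.H94.T33
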