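import Mathlib
import Cfsg.Agent.H94.T33j

set_option autoImplicit false
set_option linter.unusedSectionVars false
set_option linter.unusedVariables false

/-!
An element exchanging the factors inside the commutator group; maximality.
-/

namespace Cfsg.Agent.H94.T33

open Module Cfsg.Geo Cfsg.Agent.Asch Matrix Cfsg.Agent.TenMax Cfsg.Agent.H94.T34

open Cfsg.Agent.Asch.TMax (rhoG rhoG_mem rhoG_symm_mem mem_omega_iff_rhoG)

open Cfsg.Agent.AschCases (tp kron_tp tmap tmap_apply form_tp)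

open Cfsg.Agent.GeoMax.Ort (HasE FullR emGL emGL_mulVec emGL_injective omegaGL_eq)

open Cfsg.Agent.Orth (OGrp OGrp_ext OGrp_polar OGrp_q refl refl_apply refl_conj refl_inv refl_mul_self refl_smul refl_sub_apply
  RGrp RGrp_eq_top qsub qadd qsmul pself pdr pc)

open QuadraticMap (polar polarBilin)

open scoped Matrix MatrixGroups Kronecker commutatorElement

section gen

variable {F V : Type*} [Field F] [AddCommGroup V] [Module F V] {Q : QuadraticForm F V}

theorem refl_congr {v w : V} (h : v = w) (hv : Q v ≠ 0) (hw : Q w ≠ 0) : refl Q v hv = refl Q w hw := by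
  subst h; rfl

theorem refl_mul_conj_mem {v w : V} (hv : Q v ≠ 0) (hw : Q w ≠ 0) {g : OGrp Q} (h : g * refl Q v hv * g⁻¹ = refl Q w hw) :
    refl Q v hv * refl Q w hw ∈ commutator (OGrp Q) := by
  have h1 : refl Q v hv * refl Q w hw = ⁅refl Q v hv, g⁆ := by
    rw [commutatorElement_def, ← h, refl_inv]; group
  rw [h1]
  exact Subgroup.commutator_mem_commutator (Subgroup.mem_top _) (Subgroup.mem_top _)

theorem refl_mul_refl_mem (h2 : (2 : F) ≠ 0) {v w : V} (hv : Q v ≠ 0) (hw : Q w ≠ 0) (h : Q v = Q w) :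
    refl Q v hv * refl Q w hw ∈ commutator (OGrp Q) := by
  by_cases h0 : Q (w - v) = 0
  · have hw' : Q (-w) ≠ 0 := by rwa [QuadraticMap.map_neg]
    have h3 : Q (-w - v) ≠ 0 := by
      intro h4
      have h5 : Q (-w - v) = Q w + Q v + polar Q w v := by
        have : -w - v = -(w + v) := by abel
        rw [this, QuadraticMap.map_neg, qadd]
      rw [h5] at h4
      rw [qsub] at h0
      have h6 : 2 * 2 * Q w = 0 := by linear_combination h0 + h4 - 2 * h
      exact mul_ne_zero (mul_ne_zero h2 h2) hw h6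
    apply refl_mul_conj_mem hv hw (g := refl Q (-w - v) h3)
    have h4 := refl_sub_apply (Q := Q) (u := v) (w := -w) (by rw [h, QuadraticMap.map_neg]) h3
    rw [refl_conj, refl_congr h4 _ hw']
    apply OGrp_ext
    intro x
    rw [refl_apply, refl_apply, QuadraticMap.map_neg]
    have h5 : polar Q x (-w) = - polar Q x w := QuadraticMap.polar_neg_right Q x w
    rw [h5]
    module
  · apply refl_mul_conj_mem hv hw (g := refl Q (w - v) h0)
    rw [refl_conj, refl_congr (refl_sub_apply h h0) _ hw]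

end gen

variable {F : Type*} [Field F]

section swap

variable {T : TData (RingEquiv.refl F) (Fin 3) (Fin 3)} {Q : QuadraticForm F (Fin 3 × Fin 3 → F)}

theorem kron_data2 {g : GL (Fin 3 × Fin 3) F} (hg : g ∈ kroneckerSubgroup 3 3 F) :
    ∃ (A : Module.End F (Fin 3 → F)) (B : Module.End F (Fin 3 → F)), Function.Injective A ∧ Function.Injective B ∧
      ∀ u w, toLin' (g : Matrix (Fin 3 × Fin 3) (Fin 3 × Fin 3) F) (tz u w) = tz (A u) (B w) := by
  obtain ⟨A, B, hAB⟩ := hg
  refine ⟨toLin' (A : Matrix _ _ F), toLin' (B : Matrix _ _ F), fun u v huv => GeoMax.gl_mulVec_injective A huv,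
    fun u v huv => GeoMax.gl_mulVec_injective B huv, fun u w => ?_⟩
  rw [toLin'_apply, hAB]
  exact AschCases.kron_tp _ _ _ _

/-- all reflections lie in the product of the pure isometries and the commutator group -/
theorem refl_mem_sup [Finite F] (h2 : (2 : F) ≠ 0) (heX : T.X.e = 1) (he : T.W.e = 1) (hQ : ∀ x y, polar Q x y = T.Y.f x y)
    {v : Fin 3 × Fin 3 → F} (hv : Q v ≠ 0) :
    refl Q v hv ∈ (kroneckerSubgroup 3 3 F).comap (emGL Q) ⊔ commutator (OGrp Q) := by
  have sX := fun x y => SF.symm1 (X := T.X) heX x y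
  have sW := fun x y => SF.symm1 (X := T.W) he x y
  have h3 : Fintype.card (Fin 3) = 3 := Fintype.card_fin 3
  obtain ⟨b, b', c, hf⟩ := exists_fr3 (X := T.W) he h2 h3
  obtain ⟨d, d', d₀, hd⟩ := exists_fr3 (X := T.X) heX h2 h3
  have hn := hf.cc
  set n := T.W.f c c with hnd
  set m := -(2 * Q v / n) with hm
  have hm0 : m ≠ 0 := neg_ne_zero.2 (div_ne_zero (mul_ne_zero h2 hv) hn)
  set a := d + (m / 2) • d' with ha
  have haa : T.X.f a a = m := by
    rw [ha]
    simp only [T.X.sesq.add_left, T.X.sesq.add_right, T.X.sesq.smul_left, SF.smul_r, hd.aa, hd.aa', hd.h, sX d' d]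
    field_simp
    ring
  have hQt : ∀ w, 2 * Q (tz a w) = m * T.W.f w w := by
    intro w
    rw [← pself, hQ, T.tp, haa]
  set w₁ := b - (n / 2) • b' with hw₁
  set w₃ := b + (n / 2) • b' with hw₃
  have hb'b : T.W.f b' b = 1 := by rw [sW]; exact hf.h
  have hbc : T.W.f b c = 0 := T.W.zero_symm hf.ca
  have hb'c : T.W.f b' c = 0 := T.W.zero_symm hf.ca'
  have f11 : T.W.f w₁ w₁ = -n := by
    rw [hw₁]
    simp only [f_sub_left, T.W.sub_right, T.W.sesq.smul_left, SF.smul_r, hf.aa, hf.aa', hf.h, hb'b]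
    field_simp
    ring
  have f33 : T.W.f w₃ w₃ = n := by
    rw [hw₃]
    simp only [T.W.sesq.add_left, T.W.sesq.add_right, T.W.sesq.smul_left, SF.smul_r, hf.aa, hf.aa', hf.h, hb'b]
    field_simp
    ring
  have f13 : T.W.f w₁ w₃ = 0 := by
    rw [hw₁, hw₃]
    simp only [f_sub_left, T.W.sesq.add_right, T.W.sesq.smul_left, SF.smul_r, hf.aa, hf.aa', hf.h, hb'b]
    ring
  have f12 : T.W.f w₁ c = 0 := by
    rw [hw₁]; simp only [f_sub_left, T.W.sesq.smul_left, hbc, hb'c]; ring
  have f32 : T.W.f w₃ c = 0 := by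
    rw [hw₃]; simp only [T.W.sesq.add_left, T.W.sesq.smul_left, hbc, hb'c]; ring
  have q1 : Q (tz a w₁) = Q v := by
    have := hQt w₁
    rw [f11, hm] at this
    have h5 : 2 * Q (tz a w₁) = 2 * Q v := by rw [this]; field_simp
    exact mul_left_cancel₀ h2 h5
  have q2 : Q (tz a c) = Q (tz a w₃) := by
    have h5 := hQt c
    have h6 := hQt w₃
    rw [f33] at h6
    exact mul_left_cancel₀ h2 (h5.trans h6.symm)
  have h1 : Q (tz a w₁) ≠ 0 := by rw [q1]; exact hv
  have h22 : Q (tz a c) ≠ 0 := by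
    intro h0
    have h5 := hQt c
    rw [h0, mul_zero] at h5
    exact mul_ne_zero hm0 hn h5.symm
  have h33 : Q (tz a w₃) ≠ 0 := by rw [← q2]; exact h22
  have o1 := refl_mul_refl_mem h2 hv h1 q1.symm
  have o2 := refl_mul_refl_mem h2 h22 h33 q2
  -- the pure element
  set k := refl Q (tz a w₁) h1 * (refl Q (tz a c) h22 * refl Q (tz a w₃) h33) with hk
  have hrefl : ∀ {w : Fin 3 → F} (hw : Q (tz a w) ≠ 0) (u y : Fin 3 → F), (refl Q (tz a w) hw : (Fin 3 × Fin 3 → F) ≃ₗ[F] _) (tz u y) =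
      tz u y - (2 * T.X.f u a / m * (T.W.f y w / T.W.f w w)) • tz a w := by
    intro w hw u y
    have hww : T.W.f w w ≠ 0 := by
      intro h0
      have := hQt w
      rw [h0, mul_zero] at this
      exact mul_ne_zero h2 hw this
    rw [refl_apply, hQ, T.tp]
    congr 2
    have h5 : Q (tz a w) = m * T.W.f w w / 2 := by rw [← hQt w]; field_simp
    rw [h5]
    field_simp
  have hkt : ∀ u y, (k : (Fin 3 × Fin 3 → F) ≃ₗ[F] _) (tz u y) = tz (u - (2 * T.X.f u a / m) • a) y := by
    intro u y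
    have e1 : y = (T.W.f y w₁ / T.W.f w₁ w₁) • w₁ + (T.W.f y c / n) • c + (T.W.f y w₃ / T.W.f w₃ w₃) • w₃ := by
      conv_lhs => rw [hf.exp y]
      rw [f11, f33, hw₁, hw₃, T.W.sub_right, T.W.sesq.add_right, SF.smul_r]
      obtain ⟨s, hs⟩ : ∃ s : F, s + s = n := ⟨n / 2, by field_simp; ring⟩
      have hs2 : n / 2 = s := by
        rw [div_eq_iff h2, ← hs]; ring
      rw [hs2]
      set p := T.W.f y b
      set p' := T.W.f y b'
      have c1 : p' = -((p - s * p') / n) + (p + s * p') / n := by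
        rw [neg_add_eq_sub, ← sub_div, eq_div_iff hn]; linear_combination (-p') * hs
      have c2 : p = (p - s * p') / n * s + (p + s * p') / n * s := by
        rw [← add_mul, ← add_div, div_mul_eq_mul_div, eq_div_iff hn]; linear_combination (-p) * hs
      rw [div_neg]
      have : ∀ A B : F, A = -((p - s * p') / n) + (p + s * p') / n → B = (p - s * p') / n * s + (p + s * p') / n * s →
          A • b + B • b' + (T.W.f y c / n) • c = -((p - s * p') / n) • (b - s • b') + (T.W.f y c / n) • c +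
            ((p + s * p') / n) • (b + s • b') := by
        intro A B hA hB
        rw [hA, hB]; module
      exact this p' p c1 c2
    have fix : ∀ {w w' : Fin 3 → F} (hw : Q (tz a w) ≠ 0), T.W.f w' w = 0 → (refl Q (tz a w) hw : (Fin 3 × Fin 3 → F) ≃ₗ[F] _) (tz a w') = tz a w' := by
      intro w w' hw h0
      rw [hrefl hw, h0]; simp
    rw [hk, Orth.coe_mul_apply, Orth.coe_mul_apply, hrefl h33, map_sub, map_smul, hrefl h22, fix h22 f32, map_sub, map_sub, map_smul,
      map_smul, hrefl h1, fix h1 (T.W.zero_symm f13), fix h1 (T.W.zero_symm f12)]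
    have e2 : tz a y = (T.W.f y w₁ / T.W.f w₁ w₁) • tz a w₁ + (T.W.f y c / n) • tz a c + (T.W.f y w₃ / T.W.f w₃ w₃) • tz a w₃ := by
      conv_lhs => rw [e1]
      rw [tz_add_right, tz_add_right, tz_smul_right, tz_smul_right, tz_smul_right]
    rw [tz_sub_left, tz_smul_left, e2, ← hnd]
    module
  have hkk : k ∈ (kroneckerSubgroup 3 3 F).comap (emGL Q) := by
    rw [Subgroup.mem_comap]
    apply mem_kron_of_tR (by norm_num) (by norm_num) (A := (1 : Module.End F (Fin 3 → F)) - (2 / m) • T.X.ro a a) (h := id)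
    intro y
    apply LinearMap.ext; intro u
    show toLin' _ (tz u y) = tz (u - (2 / m) • (T.X.f u a • a)) y
    rw [toLin'_apply, emGL_mulVec, hkt, smul_smul, div_mul_eq_mul_div]
  have hfin : refl Q v hv = refl Q v hv * refl Q (tz a w₁) h1 * (k * (refl Q (tz a c) h22 * refl Q (tz a w₃) h33)⁻¹) := by
    rw [hk, mul_assoc (refl Q (tz a w₁) h1), mul_inv_cancel, mul_one, mul_assoc, refl_mul_self, mul_one]
  rw [hfin]
  exact Subgroup.mul_mem _ (Subgroup.mem_sup_right o1) (Subgroup.mul_mem _ (Subgroup.mem_sup_left hkk)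
    (Subgroup.inv_mem _ (Subgroup.mem_sup_right o2)))

/-- the exchange of the factors -/
noncomputable def tau (F : Type*) [Field F] : (Fin 3 × Fin 3 → F) ≃ₗ[F] (Fin 3 × Fin 3 → F) :=
  LinearEquiv.funCongrLeft F F (Equiv.prodComm (Fin 3) (Fin 3))

theorem tau_apply (v : Fin 3 × Fin 3 → F) (i j : Fin 3) : tau F v (i, j) = v (j, i) := rfl

theorem tau_tz (u w : Fin 3 → F) : tau F (tz u w) = tz w u := by
  funext ⟨i, j⟩
  rw [tau_apply]
  exact mul_comm _ _

theorem tau_mem (h2 : (2 : F) ≠ 0) (hQ : ∀ x y, polar Q x y = T.Y.f x y) {c : F} (hXW : ∀ u v, T.X.f u v = c * T.W.f u v) :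
    tau F ∈ OGrp Q := by
  intro v
  have h1 : ∀ x y, T.Y.f ((tau F).toLinearMap x) ((tau F).toLinearMap y) = T.Y.f x y := by
    apply iso_of_pure
    intro u w u' w'
    show T.Y.f (tau F (tz u w)) (tau F (tz u' w')) = _
    rw [tau_tz, tau_tz, T.tp, T.tp, hXW, hXW]
    ring
  have h3 := h1 v v
  rw [← hQ, ← hQ, pself, pself] at h3
  exact mul_left_cancel₀ h2 h3

theorem exists_swap [Finite F] (h2 : (2 : F) ≠ 0) (heX : T.X.e = 1) (he : T.W.e = 1) (hQ : ∀ x y, polar Q x y = T.Y.f x y)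
    (hnd : (polarBilin Q).Nondegenerate) (hτ : tau F ∈ OGrp Q) :
    ∃ k ∈ kroneckerSubgroup 3 3 F, k * emGL Q ⟨tau F, hτ⟩ ∈ (commutator (OGrp Q)).map (emGL Q) := by
  have hfin : Module.finrank F (Fin 3 × Fin 3 → F) = 9 := by
    rw [finrank_fintype_fun_eq_card, Fintype.card_prod, Fintype.card_fin]
  have hR : RGrp Q = ⊤ := RGrp_eq_top hnd (Or.inr (by rw [hfin]; norm_num))
  have hle : RGrp Q ≤ (kroneckerSubgroup 3 3 F).comap (emGL Q) ⊔ commutator (OGrp Q) := by
    refine (Subgroup.closure_le _).2 ?_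
    rintro _ ⟨v, hv, rfl⟩
    exact refl_mem_sup h2 heX he hQ hv
  have hmem : (⟨tau F, hτ⟩ : OGrp Q) ∈ (kroneckerSubgroup 3 3 F).comap (emGL Q) ⊔ commutator (OGrp Q) := by
    apply hle; rw [hR]; exact Subgroup.mem_top _
  obtain ⟨k, hk, ω, hω, h⟩ := Subgroup.mem_sup_of_normal_right.1 hmem
  refine ⟨(emGL Q k)⁻¹, Subgroup.inv_mem _ hk, ω, hω, ?_⟩
  rw [← h, map_mul, inv_mul_cancel_left]

end swap

end Cfsg.Agent.H94.T33
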