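import Mathlib
import Cfsg.Agent.H94.T33k

set_option autoImplicit false
set_option linter.unusedSectionVars false
set_option linter.unusedVariables false

/-!
Maximality of stabilisers of tensor squares of three-dimensional spaces.
-/

namespace Cfsg.Agent.H94.T33

open Module Cfsg.Geo Cfsg.Agent.Asch Matrix Cfsg.Agent.TenMax Cfsg.Agent.H94.T34

open Cfsg.Agent.Asch.TMax (rhoG rhoG_mem rhoG_symm_mem mem_omega_iff_rhoG)

open Cfsg.Agent.AschCases (tp kron_tp tmap tmap_apply form_tp)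

open Cfsg.Agent.GeoMax.Ort (HasE FullR emGL emGL_mulVec emGL_injective omegaGL_eq)

open Cfsg.Agent.Orth (OGrp OGrp_ext OGrp_polar OGrp_q)

open QuadraticMap (polar polarBilin)

open scoped Matrix MatrixGroups Kronecker

variable {F : Type*} [Field F]

/-- the model of the wreath subgroup -/
def Wm (F : Type*) [Field F] : Subgroup (GL (Fin 3 × Fin 3) F) :=
  (tensorWreathStandard 3 2 F).map (glReindex (finTwoArrowEquiv (Fin 3))).toMonoidHom

theorem kron_le_Wm : kroneckerSubgroup 3 3 F ≤ Wm F := by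
  intro g hg
  obtain ⟨A, B, hAB⟩ := hg
  refine ⟨glReindex (finTwoArrowEquiv (Fin 3)).symm g, Subgroup.subset_closure (Or.inl ⟨![A, B], fun x y => ?_⟩), ?_⟩
  · show (g : Matrix (Fin 3 × Fin 3) (Fin 3 × Fin 3) F) (finTwoArrowEquiv (Fin 3) x) (finTwoArrowEquiv (Fin 3) y) = _
    rw [hAB, Matrix.kroneckerMap_apply, Fin.prod_univ_two]
    rfl
  · show glReindex (finTwoArrowEquiv (Fin 3)) ((glReindex (finTwoArrowEquiv (Fin 3))).symm g) = g
    exact MulEquiv.apply_symm_apply _ _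

theorem tau_mem_Wm {Q : QuadraticForm F (Fin 3 × Fin 3 → F)} (hτ : tau F ∈ OGrp Q) : emGL Q ⟨tau F, hτ⟩ ∈ Wm F := by
  refine ⟨glReindex (finTwoArrowEquiv (Fin 3)).symm (emGL Q ⟨tau F, hτ⟩), Subgroup.subset_closure (Or.inr ⟨Equiv.swap 0 1, fun x y => ?_⟩), ?_⟩
  · show (emGL Q ⟨tau F, hτ⟩ : Matrix (Fin 3 × Fin 3) (Fin 3 × Fin 3) F) (x 0, x 1) (y 0, y 1) = _
    have h1 : (emGL Q ⟨tau F, hτ⟩ : Matrix (Fin 3 × Fin 3) (Fin 3 × Fin 3) F) (x 0, x 1) (y 0, y 1) =
        ((emGL Q ⟨tau F, hτ⟩ : Matrix (Fin 3 × Fin 3) (Fin 3 × Fin 3) F) *ᵥ Pi.single (y 0, y 1) 1) (x 0, x 1) := by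
      rw [mulVec_single_one]; rfl
    rw [h1, emGL_mulVec]
    show (tau F (Pi.single (y 0, y 1) 1)) (x 0, x 1) = _
    rw [tau_apply, Pi.single_apply]
    have h2 : ((x 1, x 0) = (y 0, y 1)) ↔ y = x ∘ (Equiv.swap (0 : Fin 2) 1) := by
      constructor
      · intro h
        have h3 : x 1 = y 0 := congrArg Prod.fst h
        have h4 : x 0 = y 1 := congrArg Prod.snd h
        funext i
        fin_cases i
        · show y 0 = x (Equiv.swap (0 : Fin 2) 1 0)
          rw [Equiv.swap_apply_left]; exact h3.symm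
        · show y 1 = x (Equiv.swap (0 : Fin 2) 1 1)
          rw [Equiv.swap_apply_right]; exact h4.symm
      · intro h
        have h3 := congrFun h 0
        have h4 := congrFun h 1
        rw [Function.comp_apply, Equiv.swap_apply_left] at h3
        rw [Function.comp_apply, Equiv.swap_apply_right] at h4
        rw [h3, h4]
    simp only [h2]
  · show glReindex (finTwoArrowEquiv (Fin 3)) ((glReindex (finTwoArrowEquiv (Fin 3))).symm _) = _
    exact MulEquiv.apply_symm_apply _ _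

variable {ι : Type} [Fintype ι] [DecidableEq ι]

theorem mem_wreath (e : ι ≃ (Fin 2 → Fin 3)) (P : GL ι F) {g : GL ι F} (h : rhoG (e.trans (finTwoArrowEquiv (Fin 3))) P g ∈ Wm F) :
    g ∈ tensorWreathSubgroup 3 2 e P := by
  obtain ⟨s, hs, hse⟩ := h
  refine ⟨glReindex e.symm s, ⟨s, hs, rfl⟩, ?_⟩
  show P * glReindex e.symm s * P⁻¹ = g
  have h1 : rhoG (e.trans (finTwoArrowEquiv (Fin 3))) P g = glReindex (finTwoArrowEquiv (Fin 3)) (glReindex e (P⁻¹ * g * (P⁻¹)⁻¹)) := rfl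
  have h3 : glReindex (finTwoArrowEquiv (Fin 3)) s = glReindex (finTwoArrowEquiv (Fin 3)) (glReindex e (P⁻¹ * g * (P⁻¹)⁻¹)) := by
    rw [← h1]; exact hse
  have h4 := (glReindex (finTwoArrowEquiv (Fin 3))).injective h3
  rw [h4]
  have h5 : glReindex e.symm (glReindex e (P⁻¹ * g * (P⁻¹)⁻¹)) = P⁻¹ * g * (P⁻¹)⁻¹ := by
    show (glReindex e).symm (glReindex e (P⁻¹ * g * (P⁻¹)⁻¹)) = _
    exact MulEquiv.symm_apply_apply _ _
  rw [h5]; group

theorem tensor_of_power {f : (ι → F) → (ι → F) → F} {f₁ : (Fin 3 → F) → (Fin 3 → F) → F} {e : ι ≃ (Fin 2 → Fin 3)} {P : GL ι F}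
    (h : IsTensorPowerFormStructure id f f₁ e P) : IsTensorFormStructure id f f₁ f₁ (e.trans (finTwoArrowEquiv (Fin 3))) P := by
  obtain ⟨c, hc, h⟩ := h
  refine ⟨c, hc, fun x y => ?_⟩
  have h1 := h (x ∘ finTwoArrowEquiv (Fin 3)) (y ∘ finTwoArrowEquiv (Fin 3))
  rw [Function.comp_assoc, Function.comp_assoc] at h1
  rw [Equiv.coe_trans, h1]
  congr 1
  rw [formOfGram]
  rw [← (finTwoArrowEquiv (Fin 3)).sum_comp (fun a => ∑ b, x a * (gramMatrix f₁ ⊗ₖ gramMatrix f₁) a b * id (y b))]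
  refine Finset.sum_congr rfl fun a _ => ?_
  rw [← (finTwoArrowEquiv (Fin 3)).sum_comp (fun b => x (finTwoArrowEquiv (Fin 3) a) * (gramMatrix f₁ ⊗ₖ gramMatrix f₁)
    (finTwoArrowEquiv (Fin 3) a) b * id (y b))]
  refine Finset.sum_congr rfl fun b _ => ?_
  rw [Fin.prod_univ_two]
  rfl

/-- maximality -/
theorem isMaximalIn_wreath33 [Fintype F] (h2 : (2 : F) ≠ 0) (hq : 5 ≤ Fintype.card F) {Q : QuadraticForm F (ι → F)}
    (hnd : (polarBilin Q).Nondegenerate) {f₁ : (Fin 3 → F) → (Fin 3 → F) → F}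
    (e : ι ≃ (Fin 2 → Fin 3)) (P : GL ι F) (hf₁ : IsSymmetricForm f₁)
    (hT : IsTensorPowerFormStructure id (polar Q) f₁ e P) :
    IsMaximalIn (omegaGL Q) (tensorWreathSubgroup 3 2 e P ⊓ omegaGL Q) := by
  classical
  have hcard : Fintype.card ι = 9 := by
    have := Fintype.card_congr (e.trans (finTwoArrowEquiv (Fin 3)))
    rwa [Fintype.card_prod, Fintype.card_fin] at this
  refine ⟨lt_of_le_of_ne inf_le_right fun h => ?_, fun M hM1 hM2 => ?_⟩
  · exact AschCases.OrthNot.not_le_wreath_symm hnd (by omega) h2 (by norm_num) (by norm_num) e P hf₁ hT (inf_eq_right.1 h)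
  -- coordinates
  set e' := e.trans (finTwoArrowEquiv (Fin 3)) with he'
  obtain ⟨c, hc0, hc⟩ := form_tp (σ := RingEquiv.refl F) (Asch.isSesq_of_bilinear hf₁.bilinear) (Asch.isSesq_of_bilinear hf₁.bilinear)
    (tensor_of_power hT)
  rw [← he'] at hc
  set Q' : QuadraticForm F (Fin 3 × Fin 3 → F) := Q.comp (tmap e' P).toLinearMap with hQ'
  have hQ'x : ∀ x, Q' x = Q (tmap e' P x) := fun x => rfl
  have hpolx : ∀ x y, polar Q' x y = polar Q (tmap e' P x) (tmap e' P y) := by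
    intro x y
    rw [polar, hQ'x, hQ'x, hQ'x, map_add]
    rfl
  have hnd' : (polarBilin Q').Nondegenerate := by
    have key : ∀ x, (∀ y, polar Q' x y = 0) → x = 0 := by
      intro x hx
      have h3 : tmap e' P x = 0 := by
        apply hnd.1
        intro y
        have := hx ((tmap e' P).symm y)
        rw [hpolx, LinearEquiv.apply_symm_apply] at this
        exact this
      exact (LinearEquiv.map_eq_zero_iff _).1 h3
    exact ⟨fun x hx => key x hx, fun x hx => key x fun y => by rw [QuadraticMap.polar_comm]; exact hx y⟩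
  set T : TData (RingEquiv.refl F) (Fin 3) (Fin 3) :=
    { X := SF.ofSymm (symm_smul hf₁ hc0)
      W := SF.ofSymm hf₁
      Y := SF.ofSymm (polar_symm hnd')
      tp := by
        intro u w u' w'
        show polar Q' (tp u w) (tp u' w') = c * f₁ u u' * f₁ w w'
        rw [hpolx, hc]
        ring
      he := (one_mul 1).symm } with hTd
  have hYf : ∀ x y, T.Y.f x y = polar Q' x y := fun x y => rfl
  have hXW : ∀ u v, T.X.f u v = c * T.W.f u v := fun u v => rfl
  have hcomm : ∀ g, g ∈ omegaGL Q ↔ rhoG e' P g ∈ (commutator (OGrp Q')).map (emGL Q') := by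
    intro g
    rw [← mem_omega_iff_rhoG e' P hQ'x, ← omegaGL_eq]
  set S := M.map (rhoG e' P).toMonoidHom with hS
  have hSΩ : S ≤ (commutator (OGrp Q')).map (emGL Q') := by
    rintro _ ⟨g, hg, rfl⟩
    exact (hcomm g).1 (hM2 hg)
  have hWS : ∀ g ∈ Wm F, g ∈ (commutator (OGrp Q')).map (emGL Q') → g ∈ S := by
    intro k hkk hk
    refine ⟨(rhoG e' P).symm k, hM1 ⟨mem_wreath e P ?_, ?_⟩, (rhoG e' P).apply_symm_apply k⟩
    · rw [← he', MulEquiv.apply_symm_apply]; exact hkk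
    · refine (hcomm _).2 ?_
      rw [MulEquiv.apply_symm_apply]
      exact hk
  have hpure : ∀ g ∈ kroneckerSubgroup 3 3 F, g ∈ (commutator (OGrp Q')).map (emGL Q') → g ∈ S := fun g hg hg' =>
    hWS g (kron_le_Wm hg) hg'
  have hO : Over T S := by
    constructor
    · intro g hg x y
      obtain ⟨h, _, rfl⟩ := hSΩ hg
      rw [toLin'_apply, toLin'_apply, hYf, hYf, emGL_mulVec, emGL_mulVec, OGrp_polar]
    · rintro k hkk hiso ⟨n, hn, hkn⟩
      apply hpure k hkk
      refine mem_omega_of_odd h2 hnd' (fun v => ?_) hn hkn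
      have h3 := hiso v v
      rw [hYf, hYf, Orth.pself, Orth.pself, toLin'_apply] at h3
      exact mul_left_cancel₀ h2 h3
  have hτ : tau F ∈ OGrp Q' := tau_mem (T := T) h2 (fun x y => (hYf x y).symm) hXW
  obtain ⟨k, hk, hkτ⟩ := exists_swap (T := T) h2 rfl rfl (fun x y => (hYf x y).symm) hnd' hτ
  set h₀ := k * emGL Q' ⟨tau F, hτ⟩ with hh₀
  have hh₀W : h₀ ∈ Wm F := Subgroup.mul_mem _ (kron_le_Wm hk) (tau_mem_Wm hτ)
  have hh₀S : h₀ ∈ S := hWS _ hh₀W hkτ
  obtain ⟨A₁, B₁, hA₁, hB₁, hAB⟩ := kron_data2 hk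
  have hAB' : ∀ u w, toLin' (h₀ : Matrix (Fin 3 × Fin 3) (Fin 3 × Fin 3) F) (tz u w) = tz (A₁ w) (B₁ u) := by
    intro u w
    rw [hh₀, Units.val_mul, toLin'_mul, LinearMap.comp_apply, ← hAB]
    congr 1
    rw [toLin'_apply, emGL_mulVec]
    exact tau_tz u w
  rcases dichotomy33 h2 hq (T := T) rfl rfl hO (fun x y => (hYf x y).symm) hnd' hSΩ hpure hh₀S hB₁ hA₁ hAB' with hfull | hle
  · right
    refine le_antisymm hM2 fun g hg => ?_
    obtain ⟨g', hg', hg'e⟩ := hfull ((hcomm g).1 hg)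
    have : g' = g := (rhoG e' P).injective hg'e
    rwa [← this]
  · left
    refine le_antisymm (le_inf (fun g hg => ?_) hM2) hM1
    apply mem_wreath e P
    rw [← he']
    rcases hle (rhoG e' P g) ⟨g, hg, rfl⟩ with h | h
    · exact kron_le_Wm h
    · have h1 := Subgroup.mul_mem _ (Subgroup.inv_mem _ hh₀W) (kron_le_Wm h)
      rwa [inv_mul_cancel_left] at h1

end Cfsg.Agent.H94.T33
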