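import Cfsg.Agent.GeoMax.USubOMain
import Cfsg.Agent.H94.SmallOrt

/-!
Orthogonal subgroups of `SU_n(q)`, `q` odd, `n ≥ 6` (`Cfsg.Agent.GeoMax.USO` has `n ≥ 13`).
-/

set_option autoImplicit false
set_option linter.unusedSectionVars false

namespace Cfsg.Agent.H94.USO6

open QuadraticMap Module Cfsg.Agent.Orth Cfsg.Agent.GeoMax Cfsg.Agent.GeoMax.Ort Cfsg.Agent.GeoMax.Un
open Matrix
open scoped MatrixGroups
open Cfsg.Geo
open Cfsg.Agent.GeoMax.Symp (emb emb_apply emb_zero emb_eq_zero)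
open Cfsg.Agent.H94.SmallOrt

variable {F : Type*} [Field F] [Fintype F] {n q : ℕ} {F₀ : Subfield F} {P : GL (Fin n) F}
variable {Q : QuadraticForm F₀ (Fin n → F₀)} {ω : F}

/-- vector over the rational structure -/
abbrev e (F₀ : Subfield F) (P : GL (Fin n) F) (x : Fin n → F₀) : Fin n → F := S5660.E F₀ P x

/-- the data of a rational quadratic structure on the hermitian space -/
structure Dat (q : ℕ) (P : GL (Fin n) F) (Q : QuadraticForm F₀ (Fin n → F₀)) (ω : F) : Prop where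
  hF : Fintype.card F = q ^ 2
  hcard : Fintype.card F = Nat.card F₀ ^ 2
  form : ∀ x y : Fin n → F₀, Cfsg.hermForm n F q (e F₀ P x) (e F₀ P y) = ((polar Q x y : F₀) : F)
  nd : (polarBilin Q).Nondegenerate
  two : (2 : F₀) ≠ 0
  sk : ω ^ q = -ω
  ne : ω ≠ 0
  dim : 6 ≤ n

namespace Dat

section basic
variable (D : Dat q P Q ω)
include D

theorem two' : (2 : F) ≠ 0 := by
  intro h; exact D.two (Subtype.ext (by push_cast; exact h))

theorem notMem : ω ∉ F₀ := by
  intro h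
  have h1 := S5660.pow_q_of_mem D.hF D.hcard h
  rw [D.sk] at h1
  have h2 : (2 : F) * ω = 0 := by linear_combination -h1
  exact (mul_ne_zero D.two' D.ne) h2

omit D in
theorem coe2 : ((2 : F₀) : F) = 2 := rfl

theorem frk : finrank F₀ (Fin n → F₀) = n := by
  rw [Module.finrank_fintype_fun_eq_card, Fintype.card_fin]

theorem pow_mem (c : F₀) : (c : F) ^ q = c := S5660.pow_q_of_mem D.hF D.hcard c.2

theorem herm (x y z w : Fin n → F₀) :
    Cfsg.hermForm n F q (e F₀ P x + ω • e F₀ P y) (e F₀ P z + ω • e F₀ P w) =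
      ((polar Q x z : F₀) : F) - ω * ω * ((polar Q y w : F₀) : F) + ω * (((polar Q y z : F₀) : F) - ((polar Q x w : F₀) : F)) := by
  rw [Uni.hermForm_add_left, Uni.hermForm_add_right D.hF, Uni.hermForm_add_right D.hF, Uni.hermForm_smul_left,
    Uni.hermForm_smul_left, Uni.hermForm_smul_right, Uni.hermForm_smul_right, D.form, D.form, D.form, D.form, D.sk]
  ring

theorem exists_e (x : Fin n → F) : ∃ a b : Fin n → F₀, x = e F₀ P a + ω • e F₀ P b :=
  S5660.exists_E D.hcard D.notMem x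

theorem indep {x y : Fin n → F₀} (h : e F₀ P x + ω • e F₀ P y = 0) : x = 0 ∧ y = 0 := by
  have h1 : emb F₀ x + ω • emb F₀ y = 0 := by
    apply gl_mulVec_injective P
    change (P : Matrix (Fin n) (Fin n) F) *ᵥ (emb F₀ x + ω • emb F₀ y) = (P : Matrix (Fin n) (Fin n) F) *ᵥ 0
    rw [Matrix.mulVec_add, Matrix.mulVec_smul, Matrix.mulVec_zero]; exact h
  have h2 : y = 0 := by
    by_contra hy0
    obtain ⟨i, hi⟩ := Function.ne_iff.1 hy0
    have h3 := congrFun h1 i
    simp only [emb_apply, Pi.add_apply, Pi.smul_apply, smul_eq_mul, Pi.zero_apply] at h3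
    have h4 : (y i : F) ≠ 0 := by
      intro h0; exact hi (Subtype.ext h0)
    apply D.notMem
    have : ω = ((-(x i) / y i : F₀) : F) := by
      push_cast; rw [eq_div_iff h4]; linear_combination h3
    rw [this]; exact SetLike.coe_mem _
  refine ⟨?_, h2⟩
  rw [h2, emb_zero, smul_zero, add_zero] at h1
  exact emb_eq_zero.1 h1

end basic

theorem e_add (x y : Fin n → F₀) : e F₀ P (x + y) = e F₀ P x + e F₀ P y := S5660.E_add x y
theorem e_smul (c : F₀) (x : Fin n → F₀) : e F₀ P (c • x) = (c : F) • e F₀ P x := S5660.E_smul c x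
theorem e_sub (x y : Fin n → F₀) : e F₀ P (x - y) = e F₀ P x - e F₀ P y := by
  rw [sub_eq_add_neg, e_add, ← neg_one_smul F₀, e_smul]
  push_cast
  rw [neg_one_smul, sub_eq_add_neg]
theorem e_zero : e F₀ P (0 : Fin n → F₀) = 0 := (S5660.E_eq_zero (P := P)).2 rfl

theorem uniq (D : Dat q P Q ω) {x y z w : Fin n → F₀} (h : e F₀ P x + ω • e F₀ P y = e F₀ P z + ω • e F₀ P w) :
    x = z ∧ y = w := by
  have h1 : e F₀ P (x - z) + ω • e F₀ P (y - w) = 0 := by
    rw [e_sub, e_sub]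
    have : e F₀ P x - e F₀ P z + ω • (e F₀ P y - e F₀ P w) =
        (e F₀ P x + ω • e F₀ P y) - (e F₀ P z + ω • e F₀ P w) := by module
    rw [this, h, sub_self]
  obtain ⟨h2, h3⟩ := D.indep h1
  exact ⟨sub_eq_zero.1 h2, sub_eq_zero.1 h3⟩

/-! ### the embedding of the orthogonal group -/

/-- the embedding -/
noncomputable def em (P : GL (Fin n) F) (Q : QuadraticForm F₀ (Fin n → F₀)) : OGrp Q →* GL (Fin n) F :=
  (MulAut.conj P).toMonoidHom.comp ((Matrix.GeneralLinearGroup.map (F₀.subtype : F₀ →+* F)).comp (emGL Q))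

theorem em_e (g : OGrp Q) (x : Fin n → F₀) :
    (em P Q g : Matrix (Fin n) (Fin n) F) *ᵥ e F₀ P x = e F₀ P ((g : (Fin n → F₀) ≃ₗ[F₀] (Fin n → F₀)) x) := by
  change ((P * (Matrix.GeneralLinearGroup.map (F₀.subtype : F₀ →+* F) (emGL Q g)) * P⁻¹ : GL (Fin n) F) :
    Matrix (Fin n) (Fin n) F) *ᵥ _ = _
  rw [gl_mul_mulVec, gl_mul_mulVec]
  change (P : Matrix (Fin n) (Fin n) F) *ᵥ (_ *ᵥ (((P⁻¹ : GL (Fin n) F) : Matrix (Fin n) (Fin n) F) *ᵥ
    ((P : Matrix (Fin n) (Fin n) F) *ᵥ emb F₀ x))) = (P : Matrix (Fin n) (Fin n) F) *ᵥ _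
  rw [gl_inv_mulVec]
  congr 1
  rw [← emGL_mulVec]
  ext i
  simp [Matrix.mulVec, dotProduct, emb]

section emb
variable (D : Dat q P Q ω)
include D

theorem em_sub (g : OGrp Q) : em P Q g ∈ subfieldSubgroup F₀ P := by
  rw [S5660.mem_sub_iff]
  exact ⟨1, one_ne_zero, fun y => ⟨_, by rw [one_smul]; exact em_e g y⟩⟩

theorem em_GU (g : OGrp Q) : em P Q g ∈ Cfsg.GU n F q := by
  rw [mem_GU]
  intro u v
  obtain ⟨a, b, rfl⟩ := D.exists_e u
  obtain ⟨c, d, rfl⟩ := D.exists_e v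
  rw [Matrix.mulVec_add, Matrix.mulVec_add, Matrix.mulVec_smul, Matrix.mulVec_smul, em_e, em_e, em_e, em_e, D.herm, D.herm,
    OGrp_polar, OGrp_polar, OGrp_polar, OGrp_polar]

omit D in
theorem em_SL {g : OGrp Q} (hg : g ∈ commutator (OGrp Q)) : em P Q g ∈ specialLinear (Fin n) F := by
  have h3 : (Matrix.GeneralLinearGroup.det.comp (em P Q)) g = 1 :=
    Abelianization.commutator_subset_ker (Matrix.GeneralLinearGroup.det.comp (em P Q)) hg
  exact h3

theorem em_mem {g : OGrp Q} (hg : g ∈ commutator (OGrp Q)) :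
    em P Q g ∈ subfieldSubgroup F₀ P ⊓ (Cfsg.GU n F q ⊓ specialLinear (Fin n) F) :=
  Subgroup.mem_inf.2 ⟨D.em_sub g, Subgroup.mem_inf.2 ⟨D.em_GU g, em_SL hg⟩⟩

/-- the Siegel element on the big space -/
theorem em_eich {a b : Fin n → F₀} (ha : Q a = 0) (hab : polar Q a b = 0) (x : Fin n → F) :
    (em P Q (eich Q a b ha hab) : Matrix (Fin n) (Fin n) F) *ᵥ x = x + Cfsg.hermForm n F q x (e F₀ P b) • e F₀ P a -
      Cfsg.hermForm n F q x (e F₀ P a) • e F₀ P b - (((Q b : F₀) : F) * Cfsg.hermForm n F q x (e F₀ P a)) • e F₀ P a := by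
  obtain ⟨y, z, rfl⟩ := D.exists_e x
  rw [Matrix.mulVec_add, Matrix.mulVec_smul, em_e, em_e, eich_apply, eich_apply]
  simp only [e_add, e_sub, e_smul, Uni.hermForm_add_left, Uni.hermForm_smul_left, D.form]
  push_cast
  module

end emb

/-! ### generation of the special unitary group -/

section gen
variable (D : Dat q P Q ω) {M : Subgroup (GL (Fin n) F)}
include D

theorem sing_iff (a b : Fin n → F₀) : Cfsg.hermForm n F q (e F₀ P a + ω • e F₀ P b) (e F₀ P a + ω • e F₀ P b) = 0 ↔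
    ((Q a : F₀) : F) = ω * ω * ((Q b : F₀) : F) := by
  rw [D.herm, pself, pself, pc Q b a, sub_self, mul_zero, add_zero]
  push_cast
  rw [coe2]
  constructor
  · intro h
    have h1 : (2 : F) * (((Q a : F₀) : F) - ω * ω * ((Q b : F₀) : F)) = 0 := by linear_combination h
    exact sub_eq_zero.1 ((mul_eq_zero.1 h1).resolve_left D.two')
  · intro h
    linear_combination 2 * h

theorem e_iso {a : Fin n → F₀} (ha : Q a = 0) : Cfsg.hermForm n F q (e F₀ P a) (e F₀ P a) = 0 := by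
  rw [D.form, pself, ha, mul_zero]; rfl

/-- the isotropic vectors of a hyperbolic line -/
theorem line (hM : M ≤ Cfsg.GU n F q ⊓ specialLinear (Fin n) F) {u w : Fin n → F} {μ : F} (hu : UT q M u) (hw : UT q M w)
    (huu : Cfsg.hermForm n F q u u = 0) (hww : Cfsg.hermForm n F q w w = 0) (huw : Cfsg.hermForm n F q w u ≠ 0)
    (h : Cfsg.hermForm n F q (w + μ • u) (w + μ • u) = 0) : UT q M (w + μ • u) := by
  have hwu : Cfsg.hermForm n F q u w = (Cfsg.hermForm n F q w u) ^ q := (Uni.hermForm_symm D.hF _ _).symm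
  have hqq : (Cfsg.hermForm n F q u w) ^ q = Cfsg.hermForm n F q w u := Uni.hermForm_symm D.hF _ _
  have h1 : μ * Cfsg.hermForm n F q u w + μ ^ q * Cfsg.hermForm n F q w u = 0 := by
    rw [Uni.hermForm_add_left, Uni.hermForm_add_right D.hF, Uni.hermForm_add_right D.hF, Uni.hermForm_smul_left,
      Uni.hermForm_smul_left, Uni.hermForm_smul_right, Uni.hermForm_smul_right, huu, hww] at h
    linear_combination h
  have hc : (μ / Cfsg.hermForm n F q w u) ^ q = -(μ / Cfsg.hermForm n F q w u) := by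
    rw [div_pow, ← hwu, eq_neg_iff_add_eq_zero]
    have h3 : Cfsg.hermForm n F q u w ≠ 0 := by rw [hwu]; exact pow_ne_zero _ huw
    field_simp
    linear_combination h1
  obtain ⟨h0, hm⟩ := (hasT_iff _ _ _).1 (hu _ hc)
  have h4 := hw.conj (hM hm).1 hm
  rw [tvec_mulVec, smul_dotProduct, cv_dotProduct, smul_eq_mul, div_mul_cancel₀ _ huw] at h4
  exact h4

/-- one rational centre suffices -/
theorem su_le_of_UT (hM : M ≤ Cfsg.GU n F q ⊓ specialLinear (Fin n) F) (hE : ∀ a b, Q a = 0 → polar Q a b = 0 → HasE (M.comap (em P Q)) a b)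
    {a : Fin n → F₀} (ha : Q a = 0) (ha0 : a ≠ 0) (h : UT q M (e F₀ P a)) :
    Cfsg.GU n F q ⊓ specialLinear (Fin n) F ≤ M := by
  have hfr := D.frk
  have hdim := D.dim
  -- all rational centres
  have h1 : ∀ b, Q b = 0 → UT q M (e F₀ P b) := by
    intro b hb
    by_cases hb0 : b = 0
    · rw [hb0, e_zero]; intro c _; exact HasT.zero_left _ _
    -- moving along non-orthogonal pairs, up to scalars
    have hmv : ∀ u v : Fin n → F₀, Q u = 0 → Q v = 0 → polar Q u v ≠ 0 → UT q M (e F₀ P u) → UT q M (e F₀ P v) := by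
      intro u v hu hv huv h
      obtain ⟨w, hw, hwq⟩ := exists_list_ns D.nd [u, v] (by simp; omega)
      have hwu : polar Q u w = 0 := by rw [pc]; exact hw u (by simp)
      have hwv : polar Q v w = 0 := by rw [pc]; exact hw v (by simp)
      set B := polar Q u v with hB
      set s : F₀ := -(Q w * B)⁻¹ with hs
      have hs0 : s ≠ 0 := neg_ne_zero.2 (inv_ne_zero (mul_ne_zero hwq huv))
      have hwv' : polar Q v (s • w) = 0 := by rw [psr, hwv, mul_zero]
      obtain ⟨_, _, m1⟩ := hE v (s • w) hv hwv'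
      obtain ⟨_, _, m2⟩ := hE u w hu hwu
      have h2 := h.conj (D.em_GU _) m1
      rw [em_e, eich_apply] at h2
      have m3 : em P Q (eich Q u w hu hwu)⁻¹ ∈ M := by rw [map_inv]; exact M.inv_mem m2
      have h3 := h2.conj (D.em_GU _) m3
      rw [em_e] at h3
      have h4 : (((eich Q u w hu hwu)⁻¹ : OGrp Q) : (Fin n → F₀) ≃ₗ[F₀] (Fin n → F₀))
          (u + polar Q u (s • w) • v - polar Q u v • s • w - (Q (s • w) * polar Q u v) • v) = s • v := by
        have h5 : ((eich Q u w hu hwu : OGrp Q) : (Fin n → F₀) ≃ₗ[F₀] (Fin n → F₀)) (s • v) =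
            u + polar Q u (s • w) • v - polar Q u v • s • w - (Q (s • w) * polar Q u v) • v := by
          rw [map_smul, eich_apply, psr, hwu, hwv, pc Q v u, ← hB, qsmul]
          have e1 : -(s * (Q w * B)) = 1 := by rw [hs]; field_simp
          have e2 : s * (Q w * B) = -1 := by rw [← e1]; ring
          have e3 : s * s * Q w * B = -s := by
            have : s * s * Q w * B = s * (s * (Q w * B)) := by ring
            rw [this, e2]; ring
          rw [mul_zero, zero_smul, zero_smul, add_zero, add_zero, e3, smul_sub, smul_sub, smul_smul s, smul_smul s,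
            smul_smul B s, e2]
          module
        rw [← h5, ← coe_mul_apply, inv_mul_cancel]; rfl
      rw [h4, e_smul] at h3
      have h6 := h3.smul D.hF (((s⁻¹ : F₀)) : F)
      rwa [smul_smul, ← Subfield.coe_mul, inv_mul_cancel₀ hs0, Subfield.coe_one, one_smul] at h6
    obtain ⟨c, hc, hac, hbc⟩ := exists_sing_common D.nd (by omega) ha hb ha0 hb0
    exact hmv c b hc hb (by rw [pc]; exact hbc) (hmv a c ha hc hac h)
  have hsm : ∀ (k : F) b, Q b = 0 → UT q M (k • e F₀ P b) := fun k b hb => (h1 b hb).smul D.hF k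
  -- dependent pairs
  have hdep : ∀ a b : Fin n → F₀, (a = 0 ∨ b ∈ Submodule.span F₀ {a}) → Q a = 0 → Q b = 0 →
      UT q M (e F₀ P a + ω • e F₀ P b) := by
    rintro a b (rfl | h) ha hb
    · rw [e_zero, zero_add]; exact hsm _ _ hb
    · obtain ⟨c, rfl⟩ := Submodule.mem_span_singleton.1 h
      have : e F₀ P a + ω • e F₀ P (c • a) = (1 + ω * c) • e F₀ P a := by rw [e_smul]; module
      rw [this]; exact hsm _ _ ha
  have hhyp : ∀ a b : Fin n → F₀, Q a = 0 → Q b = 0 → polar Q a b ≠ 0 → UT q M (e F₀ P a + ω • e F₀ P b) := by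
    intro a b ha hb hab
    refine D.line hM (h1 b hb) (h1 a ha) (D.e_iso hb) (D.e_iso ha) ?_ ?_
    · rw [D.form]; intro h0; exact hab (Subtype.ext h0)
    · rw [D.sing_iff, ha, hb]; simp
  -- both parts singular
  have h2 : ∀ a b : Fin n → F₀, Q a = 0 → Q b = 0 → UT q M (e F₀ P a + ω • e F₀ P b) := by
    intro a b ha hb
    by_cases hd : a = 0 ∨ b ∈ Submodule.span F₀ {a}
    · exact hdep a b hd ha hb
    push Not at hd
    by_cases hab : polar Q a b = 0
    swap
    · exact hhyp a b ha hb hab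
    -- `c ⊥ b`, `B(a,c) ≠ 0`
    have han : a ∉ Submodule.span F₀ {x | x ∈ [b]} := by
      intro hm
      have e : ({x | x ∈ [b]} : Set (Fin n → F₀)) = {b} := by ext z; simp
      rw [e] at hm
      obtain ⟨k, hk⟩ := Submodule.mem_span_singleton.1 hm
      have hk0 : k ≠ 0 := by rintro rfl; rw [zero_smul] at hk; exact hd.1 hk.symm
      apply hd.2
      rw [Submodule.mem_span_singleton]
      exact ⟨k⁻¹, by rw [← hk, smul_smul, inv_mul_cancel₀ hk0, one_smul]⟩
    obtain ⟨y, hy, hya⟩ := exists_sep D.nd [b] han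
    have hyb := hy b (by simp)
    obtain ⟨c, hc, hcb, hca⟩ : ∃ c, Q c = 0 ∧ polar Q c b = 0 ∧ polar Q c a = 1 := by
      refine ⟨y - Q y • a, ?_, ?_, ?_⟩
      · rw [qsub, qsmul, ha, psr, hya]; ring
      · rw [pdl, psl, hyb, hab]; ring
      · rw [pdl, psl, pself, ha, hya]; ring
    have hw := hhyp a (b - c) ha (by rw [qsub, hb, hc, pc, hcb]; ring) (by
      rw [pdr, hab, pc, hca, zero_sub]; exact neg_ne_zero.2 one_ne_zero)
    have hwv : e F₀ P a + ω • e F₀ P b = (e F₀ P a + ω • e F₀ P (b - c)) + ω • e F₀ P c := by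
      rw [e_sub]; module
    rw [hwv]
    refine D.line hM (h1 c hc) hw (D.e_iso hc) ?_ ?_ ?_
    · rw [D.sing_iff, ha, qsub, hb, hc, pc Q b c, hcb]; simp
    · have : Cfsg.hermForm n F q (e F₀ P a + ω • e F₀ P (b - c)) (e F₀ P c) =
          Cfsg.hermForm n F q (e F₀ P a + ω • e F₀ P (b - c)) (e F₀ P c + ω • e F₀ P 0) := by
        rw [e_zero, smul_zero, add_zero]
      rw [this, D.herm, polar_zero_right, polar_zero_right, pc Q a c, hca, pdl, pc Q b c, hcb, pself, hc]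
      simp
    · rw [← hwv, D.sing_iff, ha, hb]; simp
  -- all
  refine su_le D.hF (by omega) M fun v hv => ?_
  obtain ⟨a, b, rfl⟩ := D.exists_e v
  rw [D.sing_iff] at hv
  by_cases hQa : Q a = 0
  · refine h2 a b hQa ?_
    rw [hQa] at hv
    have : (ω * ω) * ((Q b : F₀) : F) = 0 := by rw [← hv]; rfl
    exact Subtype.ext ((mul_eq_zero.1 this).resolve_left (mul_ne_zero D.ne D.ne))
  · have hQb : Q b ≠ 0 := by
      intro h0
      rw [h0] at hv
      exact hQa (Subtype.ext (by rw [hv]; simp))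
    have ha0 : a ≠ 0 := by rintro rfl; exact hQa (QuadraticMap.map_zero Q)
    have hb0 : b ≠ 0 := by rintro rfl; exact hQb (QuadraticMap.map_zero Q)
    obtain ⟨c, hc, hac, hbc⟩ := exists_sing_ne_two D.nd D.two (by omega) hQa hb0
    set α : F₀ := Q a / polar Q a c with hα
    set β : F₀ := Q b / polar Q b c with hβ
    have hqa : Q (a - α • c) = 0 := by
      rw [qsub, qsmul, hc, psr, hα]; field_simp; ring
    have hqb : Q (b - β • c) = 0 := by
      rw [qsub, qsmul, hc, psr, hβ]; field_simp; ring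
    have hw := h2 _ _ hqa hqb
    have hwv : e F₀ P a + ω • e F₀ P b = (e F₀ P (a - α • c) + ω • e F₀ P (b - β • c)) + ((α : F) + ω * β) • e F₀ P c := by
      rw [e_sub, e_sub, e_smul, e_smul]; module
    rw [hwv]
    refine D.line hM (h1 c hc) hw (D.e_iso hc) ?_ ?_ ?_
    · rw [D.sing_iff, hqa, hqb]; simp
    · have : Cfsg.hermForm n F q (e F₀ P (a - α • c) + ω • e F₀ P (b - β • c)) (e F₀ P c) =
          Cfsg.hermForm n F q (e F₀ P (a - α • c) + ω • e F₀ P (b - β • c)) (e F₀ P c + ω • e F₀ P 0) := by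
        rw [e_zero, smul_zero, add_zero]
      rw [this, D.herm, polar_zero_right, polar_zero_right, pdl, pdl, psl, psl, pself, hc]
      intro h0
      have h3 : ω * ((polar Q b c : F₀) : F) = -((polar Q a c : F₀) : F) := by
        simp only [mul_zero, sub_zero] at h0
        push_cast at h0
        linear_combination h0
      apply D.notMem
      have h4 : ((polar Q b c : F₀) : F) ≠ 0 := fun h => hbc (Subtype.ext h)
      have : ω = ((-(polar Q a c) / polar Q b c : F₀) : F) := by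
        push_cast; rw [eq_div_iff h4]; exact h3
      rw [this]; exact SetLike.coe_mem _
    · rw [← hwv, D.sing_iff, hv]

end gen

end Dat


namespace Dat

variable (D : Dat q P Q ω) {M : Subgroup (GL (Fin n) F)}
include D

/-- the commutator of two Siegel type elements with the same isotropic centre is a transvection -/
theorem hasT_comm {c β β' : Fin n → F} {t t' : F} (hcc : Cfsg.hermForm n F q c c = 0)
    (hβ : Cfsg.hermForm n F q β c = 0) (hβ' : Cfsg.hermForm n F q β' c = 0) {s s' : GL (Fin n) F} (hs : s ∈ M) (hs' : s' ∈ M)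
    (hsx : ∀ x, (s : Matrix (Fin n) (Fin n) F) *ᵥ x = x + Cfsg.hermForm n F q x β • c - Cfsg.hermForm n F q x c • β -
      (t * Cfsg.hermForm n F q x c) • c)
    (hsx' : ∀ x, (s' : Matrix (Fin n) (Fin n) F) *ᵥ x = x + Cfsg.hermForm n F q x β' • c - Cfsg.hermForm n F q x c • β' -
      (t' * Cfsg.hermForm n F q x c) • c) :
    HasT M c ((Cfsg.hermForm n F q β β' - Cfsg.hermForm n F q β' β) • cv q c) := by
  have hcβ : Cfsg.hermForm n F q c β = 0 := (Uni.hermForm_eq_zero_comm D.hF).1 hβ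
  have hcβ' : Cfsg.hermForm n F q c β' = 0 := (Uni.hermForm_eq_zero_comm D.hF).1 hβ'
  refine ⟨by rw [smul_dotProduct, cv_dotProduct, hcc, smul_zero], (s * s') * (s' * s)⁻¹,
    M.mul_mem (M.mul_mem hs hs') (M.inv_mem (M.mul_mem hs' hs)), ?_⟩
  have key : ∀ x, (((s * s') * (s' * s)⁻¹ : GL (Fin n) F) : Matrix (Fin n) (Fin n) F) *ᵥ x =
      x + ((Cfsg.hermForm n F q β β' - Cfsg.hermForm n F q β' β) * Cfsg.hermForm n F q x c) • c := by
    intro x
    obtain ⟨y, rfl⟩ : ∃ y, x = ((s' * s : GL (Fin n) F) : Matrix (Fin n) (Fin n) F) *ᵥ y := ⟨_, (gl_mulVec_inv _ x).symm⟩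
    rw [gl_mul_mulVec, gl_inv_mulVec, gl_mul_mulVec, gl_mul_mulVec]
    simp only [hsx, hsx', Uni.hermForm_add_left, Uni.hermForm_sub_left, Uni.hermForm_smul_left, hcc, hβ, hβ', hcβ, hcβ']
    module
  apply Matrix.ext_of_mulVec_single
  intro i
  rw [key, Matrix.add_mulVec, Matrix.one_mulVec, Matrix.vecMulVec_mulVec, smul_dotProduct, cv_dotProduct, smul_eq_mul,
    op_smul_eq_smul]

theorem UT_of (hM : M ≤ Cfsg.GU n F q ⊓ specialLinear (Fin n) F)
    (hE : ∀ a b, Q a = 0 → polar Q a b = 0 → HasE (M.comap (em P Q)) a b) {g : GL (Fin n) F} (hg : g ∈ M)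
    {c : Fin n → F₀} (hc : Q c = 0) (hgc : (g : Matrix (Fin n) (Fin n) F) *ᵥ e F₀ P c = e F₀ P c) {b b₂ : Fin n → F₀}
    (hb : polar Q b c = 0) (hb₂ : polar Q b₂ c = 0)
    (hne : (Cfsg.hermForm n F q (e F₀ P b) ((g : Matrix (Fin n) (Fin n) F) *ᵥ e F₀ P b₂)) ^ q ≠
      Cfsg.hermForm n F q (e F₀ P b) ((g : Matrix (Fin n) (Fin n) F) *ᵥ e F₀ P b₂)) : UT q M (e F₀ P c) := by
  have hgU := mem_GU.1 (hM hg).1
  set η := Cfsg.hermForm n F q (e F₀ P b) ((g : Matrix (Fin n) (Fin n) F) *ᵥ e F₀ P b₂) with hη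
  have hη' : Cfsg.hermForm n F q ((g : Matrix (Fin n) (Fin n) F) *ᵥ e F₀ P b₂) (e F₀ P b) = η ^ q :=
    (Uni.hermForm_symm D.hF _ _).symm
  have hηq : (η ^ q) ^ q = η := by rw [← hη']; exact Uni.hermForm_symm D.hF _ _
  have hκ : η - η ^ q ≠ 0 := sub_ne_zero.2 (Ne.symm hne)
  intro k hk
  have ht : k / (η - η ^ q) ∈ F₀ := by
    apply S5660.mem_of_pow_q D.hF D.hcard
    rw [div_pow, hk, Uni.sub_pow_q D.hF, hηq, ← neg_sub η (η ^ q), neg_div_neg_eq]
  set t : F₀ := ⟨k / (η - η ^ q), ht⟩ with htd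
  have hcc := D.e_iso hc
  have hgi : ∀ x y, Cfsg.hermForm n F q (((g⁻¹ : GL (Fin n) F) : Matrix (Fin n) (Fin n) F) *ᵥ x) y =
      Cfsg.hermForm n F q x ((g : Matrix (Fin n) (Fin n) F) *ᵥ y) := by
    intro x y
    rw [← hgU, gl_mulVec_inv]
  have hcb : polar Q c (t • b) = 0 := by rw [psr, pc, hb, mul_zero]
  have hcb₂ : polar Q c b₂ = 0 := by rw [pc]; exact hb₂
  obtain ⟨_, _, hs⟩ := hE c (t • b) hc hcb
  obtain ⟨_, _, hs'⟩ := hE c b₂ hc hcb₂
  have h1 := D.hasT_comm (M := M) (β := e F₀ P (t • b)) (β' := (g : Matrix (Fin n) (Fin n) F) *ᵥ e F₀ P b₂)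
    (t := ((Q (t • b) : F₀) : F)) (t' := ((Q b₂ : F₀) : F)) hcc
    (by rw [D.form, psl, hb, mul_zero]; rfl) (by rw [← hgc, hgU, D.form, hb₂]; rfl) hs
    (M.mul_mem (M.mul_mem hg hs') (M.inv_mem hg)) (fun x => D.em_eich hc hcb x) (fun x => by
      rw [gl_mul_mulVec, gl_mul_mulVec, D.em_eich hc hcb₂, Matrix.mulVec_sub, Matrix.mulVec_sub, Matrix.mulVec_add,
        Matrix.mulVec_smul, Matrix.mulVec_smul, Matrix.mulVec_smul, gl_mulVec_inv, hgi, hgi, hgc])
  have h2 : Cfsg.hermForm n F q (e F₀ P (t • b)) ((g : Matrix (Fin n) (Fin n) F) *ᵥ e F₀ P b₂) -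
      Cfsg.hermForm n F q ((g : Matrix (Fin n) (Fin n) F) *ᵥ e F₀ P b₂) (e F₀ P (t • b)) = k := by
    rw [e_smul, Uni.hermForm_smul_left, Uni.hermForm_smul_right, hη', D.pow_mem, ← hη, ← mul_sub, htd]
    exact div_mul_cancel₀ _ hκ
  rwa [h2] at h1

/-- exact rationality: an element fixing the rational singular vector `c` preserves the rational part of `c^⊥` -/
theorem im' (hM : M ≤ Cfsg.GU n F q ⊓ specialLinear (Fin n) F)
    (hE : ∀ a b, Q a = 0 → polar Q a b = 0 → HasE (M.comap (em P Q)) a b)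
    (hno : ∀ c, Q c = 0 → c ≠ 0 → ¬ UT q M (e F₀ P c)) {g : GL (Fin n) F} (hg : g ∈ M) {c : Fin n → F₀} (hc : Q c = 0)
    (hc0 : c ≠ 0) (hgc : (g : Matrix (Fin n) (Fin n) F) *ᵥ e F₀ P c = e F₀ P c) {x : Fin n → F₀} (hxc : polar Q x c = 0) :
    ∃ y, (g : Matrix (Fin n) (Fin n) F) *ᵥ e F₀ P x = e F₀ P y := by
  have hgU := mem_GU.1 (hM hg).1
  have hs1 : ∀ z : Fin n → F₀, ({x | x ∈ [z]} : Set (Fin n → F₀)) = {z} := by intro z; ext; simp
  obtain ⟨x', x'', hgx⟩ := D.exists_e ((g : Matrix (Fin n) (Fin n) F) *ᵥ e F₀ P x)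
  -- the imaginary part is a multiple of `c`
  obtain ⟨k, hk⟩ : ∃ k : F₀, k • c = x'' := by
    by_contra hcon
    have hx'' : x'' ∉ Submodule.span F₀ {x | x ∈ [c]} := by
      rw [hs1, Submodule.mem_span_singleton]; exact hcon
    obtain ⟨b, hb, hbx⟩ := exists_sep D.nd [c] hx''
    refine hno c hc hc0 (D.UT_of hM hE hg hc hgc (hb c (by simp)) hxc ?_)
    have h4 : Cfsg.hermForm n F q (e F₀ P b) ((g : Matrix (Fin n) (Fin n) F) *ᵥ e F₀ P x) =
        ((polar Q b x' : F₀) : F) - ω := by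
      have : Cfsg.hermForm n F q (e F₀ P b) (e F₀ P x' + ω • e F₀ P x'') =
          Cfsg.hermForm n F q (e F₀ P b + ω • e F₀ P 0) (e F₀ P x' + ω • e F₀ P x'') := by
        rw [e_zero, smul_zero, add_zero]
      rw [hgx, this, D.herm, polar_zero_left, polar_zero_left, hbx]
      push_cast; ring
    rw [h4, Uni.sub_pow_q D.hF, D.pow_mem, D.sk]
    intro h5
    have h6 : (2 : F) * ω = 0 := by linear_combination h5
    exact mul_ne_zero D.two' D.ne h6
  by_cases hk0 : k = 0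
  · refine ⟨x', ?_⟩
    rw [hgx, ← hk, hk0, zero_smul, e_zero, smul_zero, add_zero]
  exfalso
  refine hno c hc hc0 fun d hd => ?_
  -- scale so that `-2 ω k s = d`
  have hω2 : (2 : F) * ω * k ≠ 0 := by
    refine mul_ne_zero (mul_ne_zero D.two' D.ne) fun h => hk0 (Subtype.ext h)
  have hs : -(d / (2 * ω * k)) ∈ F₀ := by
    apply S5660.mem_of_pow_q D.hF D.hcard
    have e2 : ((2 : F)) ^ q = 2 := by
      have := D.pow_mem (2 : F₀)
      rwa [coe2] at this
    rw [neg_eq_neg_one_mul, mul_pow, div_pow, mul_pow, mul_pow, hd, D.sk, D.pow_mem, e2]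
    have e1 : ((-1 : F)) ^ q = -1 := by
      have := D.pow_mem (-1 : F₀)
      push_cast at this
      exact this
    rw [e1]
    field_simp
  set s : F₀ := ⟨-(d / (2 * ω * k)), hs⟩ with hsd
  have hsF : (s : F) = -(d / (2 * ω * k)) := rfl
  have hgi : ∀ x y, Cfsg.hermForm n F q (((g⁻¹ : GL (Fin n) F) : Matrix (Fin n) (Fin n) F) *ᵥ x) y =
      Cfsg.hermForm n F q x ((g : Matrix (Fin n) (Fin n) F) *ᵥ y) := by
    intro x y
    rw [← hgU, gl_mulVec_inv]
  -- `x' ⊥ c` and `Q x' = Q x`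
  have hform : ∀ x y z : Fin n → F₀, Cfsg.hermForm n F q (e F₀ P x) (e F₀ P y + ω • e F₀ P z) =
      ((polar Q x y : F₀) : F) - ω * ((polar Q x z : F₀) : F) := by
    intro x y z
    rw [Uni.hermForm_add_right D.hF, Uni.hermForm_smul_right, D.form, D.form, D.sk]; ring
  have hcx' : polar Q c x' = 0 := by
    have h1 := hgU (e F₀ P c) (e F₀ P x)
    rw [hgc, hgx, hform, D.form, pc Q c x, hxc, ← hk, psr, pself, hc] at h1
    apply Subtype.ext
    push_cast at h1 ⊢
    linear_combination h1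
  have hqx : Q x' = Q x := by
    have h1 := hgU (e F₀ P x) (e F₀ P x)
    rw [hgx, D.herm, D.form, pself, pself, pself, ← hk, qsmul, hc, psl, psr, hcx', pc Q x' c, hcx'] at h1
    apply Subtype.ext
    push_cast at h1
    rw [coe2] at h1
    have h3 : (2 : F) * (((Q x' : F₀) : F) - ((Q x : F₀) : F)) = 0 := by linear_combination h1
    exact sub_eq_zero.1 ((mul_eq_zero.1 h3).resolve_left D.two')
  have hcsx : polar Q c (s • x) = 0 := by rw [psr, pc, hxc, mul_zero]
  have hcsx' : polar Q c (s • x') = 0 := by rw [psr, hcx', mul_zero]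
  obtain ⟨_, _, m1⟩ := hE c (s • x) hc hcsx
  obtain ⟨_, _, m2⟩ := hE c (s • x') hc hcsx'
  have hcc := D.e_iso hc
  refine ⟨by rw [smul_dotProduct, cv_dotProduct, hcc, smul_zero],
    (g * em P Q (eich Q c (s • x) hc hcsx) * g⁻¹) * (em P Q (eich Q c (s • x') hc hcsx'))⁻¹,
    M.mul_mem (M.mul_mem (M.mul_mem hg m1) (M.inv_mem hg)) (M.inv_mem m2), ?_⟩
  have key : ∀ z, (((g * em P Q (eich Q c (s • x) hc hcsx) * g⁻¹) * (em P Q (eich Q c (s • x') hc hcsx'))⁻¹ : GL (Fin n) F) :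
      Matrix (Fin n) (Fin n) F) *ᵥ z = z + (d * Cfsg.hermForm n F q z (e F₀ P c)) • e F₀ P c := by
    intro z
    obtain ⟨y, rfl⟩ : ∃ y, z = ((em P Q (eich Q c (s • x') hc hcsx') : GL (Fin n) F) : Matrix (Fin n) (Fin n) F) *ᵥ y :=
      ⟨_, (gl_mulVec_inv _ z).symm⟩
    rw [gl_mul_mulVec _ (em P Q (eich Q c (s • x') hc hcsx'))⁻¹, gl_inv_mulVec, gl_mul_mulVec, gl_mul_mulVec,
      D.em_eich hc hcsx, D.em_eich hc hcsx', Matrix.mulVec_sub, Matrix.mulVec_sub, Matrix.mulVec_add,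
      Matrix.mulVec_smul, Matrix.mulVec_smul, Matrix.mulVec_smul, gl_mulVec_inv, hgi, hgi, hgc, e_smul, e_smul,
      Matrix.mulVec_smul, hgx, ← hk, e_smul, Uni.hermForm_smul_right, Uni.hermForm_smul_right, Uni.hermForm_add_right D.hF,
      Uni.hermForm_smul_right, Uni.hermForm_smul_right, D.pow_mem, D.pow_mem, D.sk]
    have hx'c : Cfsg.hermForm n F q (e F₀ P x') (e F₀ P c) = 0 := by rw [D.form, pc, hcx']; rfl
    simp only [Uni.hermForm_add_left, Uni.hermForm_sub_left, Uni.hermForm_smul_left, hcc, hx'c, qsmul, hqx]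
    have e3 : (s : F) * (2 * ω * k) = -d := by rw [hsF, neg_mul, div_mul_cancel₀ _ hω2]
    have e4 : d = -((s : F) * (2 * ω * k)) := by rw [e3]; ring
    rw [e4]
    push_cast
    module
  apply Matrix.ext_of_mulVec_single
  intro i
  rw [key, Matrix.add_mulVec, Matrix.one_mulVec, Matrix.vecMulVec_mulVec, smul_dotProduct, cv_dotProduct, smul_eq_mul,
    op_smul_eq_smul]

/-- images of singular vectors are rational up to a scalar -/
theorem sing_rational (hM : M ≤ Cfsg.GU n F q ⊓ specialLinear (Fin n) F)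
    (hE : ∀ a b, Q a = 0 → polar Q a b = 0 → HasE (M.comap (em P Q)) a b)
    (hno : ∀ c, Q c = 0 → c ≠ 0 → ¬ UT q M (e F₀ P c)) {g : GL (Fin n) F} (hg : g ∈ M) {a : Fin n → F₀}
    (ha : Q a = 0) : ∃ (l : F) (w : Fin n → F₀), (g : Matrix (Fin n) (Fin n) F) *ᵥ e F₀ P a = l • e F₀ P w := by
  have hfr := D.frk
  have hdim := D.dim
  have hgU := mem_GU.1 (hM hg).1
  have hs1 : ∀ z : Fin n → F₀, ({x | x ∈ [z]} : Set (Fin n → F₀)) = {z} := by intro z; ext; simp
  have hs2 : ∀ z w : Fin n → F₀, ({x | x ∈ [z, w]} : Set (Fin n → F₀)) = {z, w} := by intro z w; ext; simp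
  obtain ⟨a', a'', haa⟩ := D.exists_e ((g : Matrix (Fin n) (Fin n) F) *ᵥ e F₀ P a)
  by_cases ha'0 : a' = 0
  · exact ⟨ω, a'', by rw [haa, ha'0, e_zero, zero_add]⟩
  by_cases hd : a'' ∈ Submodule.span F₀ {x | x ∈ [a']}
  · rw [hs1] at hd
    obtain ⟨c, rfl⟩ := Submodule.mem_span_singleton.1 hd
    exact ⟨1 + ω * c, a', by rw [haa, e_smul]; module⟩
  exfalso
  rw [hs1, Submodule.mem_span_singleton] at hd
  have ha0 : a ≠ 0 := by
    rintro rfl
    have h1 := D.uniq (x := a') (y := a'') (z := 0) (w := 0) (by rw [← haa, e_zero, Matrix.mulVec_zero]; simp)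
    exact ha'0 h1.1
  set v : Fin n → F := (g : Matrix (Fin n) (Fin n) F) *ᵥ e F₀ P a with hv
  have hgi : ∀ x y, Cfsg.hermForm n F q (((g⁻¹ : GL (Fin n) F) : Matrix (Fin n) (Fin n) F) *ᵥ x) y =
      Cfsg.hermForm n F q x ((g : Matrix (Fin n) (Fin n) F) *ᵥ y) := by
    intro x y
    rw [← hgU, gl_mulVec_inv]
  -- combinations of `a'`, `a''`
  have indep : ∀ s t : F₀, s • a' + t • a'' = 0 → s = 0 ∧ t = 0 := by
    intro s t h
    have ht : t = 0 := by
      by_contra ht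
      apply hd
      refine ⟨-(t⁻¹ * s), ?_⟩
      have h4 : t⁻¹ • (s • a' + t • a'') = 0 := by rw [h, smul_zero]
      rw [smul_add, smul_smul t⁻¹ t, inv_mul_cancel₀ ht, one_smul] at h4
      rw [← sub_eq_zero]
      have : -(t⁻¹ * s) • a' - a'' = -(t⁻¹ • s • a' + a'') := by module
      rw [this, h4, neg_zero]
    rw [ht, zero_smul, add_zero] at h
    exact ⟨(smul_eq_zero.1 h).resolve_right ha'0, ht⟩
  -- a rational vector is not a multiple of `v`
  have hnv : ∀ (l : F) (b : Fin n → F₀), e F₀ P b = l • v → b = 0 := by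
    intro l b h
    obtain ⟨s, t, hst⟩ := S5660.exists_coord D.hcard D.notMem l
    obtain ⟨δ, hδ⟩ : ∃ δ : F₀, (δ : F) = ω * ω := by
      refine ⟨⟨ω * ω, S5660.mem_of_pow_q D.hF D.hcard ?_⟩, rfl⟩
      rw [mul_pow, D.sk]; ring
    have h1 : e F₀ P b + ω • e F₀ P 0 = e F₀ P (s • a' + (δ * t) • a'') + ω • e F₀ P (t • a' + s • a'') := by
      rw [e_zero, smul_zero, add_zero, h, haa, hst]
      simp only [e_add, e_smul]
      push_cast
      rw [hδ]
      module
    obtain ⟨h2, h3⟩ := D.uniq h1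
    obtain ⟨ht, hs⟩ := indep t s h3.symm
    rw [h2, hs, ht, mul_zero, zero_smul, zero_smul, add_zero]
  -- detecting multiples of `v`
  have hdet : ∀ b : Fin n → F₀, b ≠ 0 → ∃ u : Fin n → F₀, polar Q u a = 0 ∧
      Cfsg.hermForm n F q ((g : Matrix (Fin n) (Fin n) F) *ᵥ e F₀ P u) (e F₀ P b) ≠ 0 := by
    intro b hb
    by_contra hcon
    push Not at hcon
    obtain ⟨b₁, b₂, hbb⟩ := D.exists_e (((g⁻¹ : GL (Fin n) F) : Matrix (Fin n) (Fin n) F) *ᵥ e F₀ P b)
    have h1 : ∀ u, polar Q u a = 0 → polar Q u b₁ = 0 ∧ polar Q u b₂ = 0 := by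
      intro u hu
      have h2 := hcon u hu
      rw [← gl_mulVec_inv g (e F₀ P b), hgU, hbb] at h2
      have h3 : e F₀ P u = e F₀ P u + ω • e F₀ P 0 := by rw [e_zero, smul_zero, add_zero]
      rw [h3, D.herm, polar_zero_left, polar_zero_left] at h2
      have h4 : e F₀ P (polar Q u b₁ • a') + ω • e F₀ P (-(polar Q u b₂) • a') = e F₀ P 0 + ω • e F₀ P 0 := by
        rw [e_zero, smul_zero, add_zero, e_smul, e_smul, smul_smul, ← add_smul]
        convert zero_smul F (e F₀ P a') using 2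
        push_cast
        push_cast at h2
        linear_combination h2
      obtain ⟨h5, h6⟩ := D.uniq h4
      exact ⟨(smul_eq_zero.1 h5).resolve_right ha'0, neg_eq_zero.1 ((smul_eq_zero.1 h6).resolve_right ha'0)⟩
    have h2 : ∀ z, (∀ u, polar Q u a = 0 → polar Q u z = 0) → ∃ k : F₀, k • a = z := by
      intro z hz
      by_contra hcz
      have hz' : z ∉ Submodule.span F₀ {x | x ∈ [a]} := by
        rw [hs1, Submodule.mem_span_singleton]; exact hcz
      obtain ⟨u, hu, huz⟩ := exists_sep D.nd [a] hz'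
      rw [hz u (hu a (by simp))] at huz
      exact zero_ne_one huz
    obtain ⟨k₁, hk₁⟩ := h2 b₁ fun u hu => (h1 u hu).1
    obtain ⟨k₂, hk₂⟩ := h2 b₂ fun u hu => (h1 u hu).2
    apply hb
    apply hnv ((k₁ : F) + ω * k₂)
    have h3 : e F₀ P b = (g : Matrix (Fin n) (Fin n) F) *ᵥ (e F₀ P b₁ + ω • e F₀ P b₂) := by rw [← hbb, gl_mulVec_inv]
    rw [h3, ← hk₁, ← hk₂, e_smul, e_smul, Matrix.mulVec_add, Matrix.mulVec_smul, Matrix.mulVec_smul, Matrix.mulVec_smul,
      ← hv]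
    module
  -- elements of `M` fixing `v` preserve the conjugate structure
  have hfix : ∀ k ∈ M, (k : Matrix (Fin n) (Fin n) F) *ᵥ v = v → ∀ u, polar Q u a = 0 → ∃ u', polar Q u' a = 0 ∧
      (k : Matrix (Fin n) (Fin n) F) *ᵥ ((g : Matrix (Fin n) (Fin n) F) *ᵥ e F₀ P u) =
        (g : Matrix (Fin n) (Fin n) F) *ᵥ e F₀ P u' := by
    intro k hk hkv u hu
    have h1 : ((g⁻¹ * k * g : GL (Fin n) F) : Matrix (Fin n) (Fin n) F) *ᵥ e F₀ P a = e F₀ P a := by
      rw [gl_mul_mulVec, gl_mul_mulVec, ← hv, hkv, hv, gl_inv_mulVec]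
    have hm : g⁻¹ * k * g ∈ M := M.mul_mem (M.mul_mem (M.inv_mem hg) hk) hg
    obtain ⟨u', hu'⟩ := D.im' hM hE hno hm ha ha0 h1 hu
    refine ⟨u', ?_, ?_⟩
    · have h2 := mem_GU.1 (hM hm).1 (e F₀ P u) (e F₀ P a)
      rw [hu', h1, D.form, D.form, hu] at h2
      exact Subtype.ext h2
    · rw [← hu', gl_mul_mulVec, gl_mul_mulVec, gl_mulVec_inv]
  -- orthogonality to `v`
  have hperp : ∀ b : Fin n → F₀, polar Q b a' = 0 → polar Q b a'' = 0 → Cfsg.hermForm n F q v (e F₀ P b) = 0 := by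
    intro b h1 h2
    rw [haa, Uni.hermForm_add_left, Uni.hermForm_smul_left, D.form, D.form, pc Q a' b, pc Q a'' b, h1, h2]
    push_cast; ring
  by_cases hts : Q a' = 0 ∧ Q a'' = 0 ∧ polar Q a' a'' = 0
  · -- the totally singular case
    obtain ⟨hq1, hq2, hq3⟩ := hts
    obtain ⟨c, hcl, hcq⟩ := exists_list_ns D.nd [a', a''] (by simp; omega)
    have hc1 : polar Q a' c = 0 := by rw [pc]; exact hcl a' (by simp)
    have hc2 : polar Q a'' c = 0 := by rw [pc]; exact hcl a'' (by simp)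
    have ha''0 : a'' ≠ 0 := by
      rintro rfl; exact hd ⟨0, by rw [zero_smul]⟩
    obtain ⟨u, hua, hu⟩ := hdet a'' ha''0
    set w : Fin n → F := (g : Matrix (Fin n) (Fin n) F) *ᵥ e F₀ P u with hw
    have hwv : Cfsg.hermForm n F q w v = 0 := by rw [hw, hv, hgU, D.form, hua]; rfl
    have hstep : ∀ l : Fin n → F₀, Q l = 0 → polar Q l a' = 0 → polar Q l a'' = 0 → ∀ hlc : polar Q l c = 0,
        ∃ z : Fin n → F₀, Cfsg.hermForm n F q w (e F₀ P c) • e F₀ P l - Cfsg.hermForm n F q w (e F₀ P l) • e F₀ P c -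
          (((Q c : F₀) : F) * Cfsg.hermForm n F q w (e F₀ P l)) • e F₀ P l = (g : Matrix (Fin n) (Fin n) F) *ᵥ e F₀ P z := by
      intro l hl hl1 hl2 hlc
      obtain ⟨_, _, m⟩ := hE l c hl hlc
      obtain ⟨u', -, hu'⟩ := hfix _ m (by
        rw [D.em_eich hl hlc, hperp l hl1 hl2, hperp c (hcl a' (by simp)) (hcl a'' (by simp))]; simp) u hua
      refine ⟨u' - u, ?_⟩
      rw [e_sub, Matrix.mulVec_sub, ← hu', ← hw]
      have := D.em_eich hl hlc w
      rw [this]
      abel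
    obtain ⟨z₁, hz₁⟩ := hstep a' hq1 (by rw [pself, hq1, mul_zero]) hq3 hc1
    obtain ⟨z₂, hz₂⟩ := hstep a'' hq2 (by rw [pc, hq3]) (by rw [pself, hq2, mul_zero]) hc2
    have h1 : Cfsg.hermForm n F q ((g : Matrix (Fin n) (Fin n) F) *ᵥ e F₀ P z₁)
        ((g : Matrix (Fin n) (Fin n) F) *ᵥ e F₀ P z₂) = ((polar Q z₁ z₂ : F₀) : F) := by rw [hgU, D.form]
    have f1 : Cfsg.hermForm n F q (e F₀ P a') (e F₀ P a'') = 0 := by rw [D.form, hq3]; rfl
    have f2 : Cfsg.hermForm n F q (e F₀ P a') (e F₀ P c) = 0 := by rw [D.form, hc1]; rfl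
    have f3 : Cfsg.hermForm n F q (e F₀ P c) (e F₀ P a'') = 0 := by rw [D.form, pc, hc2]; rfl
    have f4 : Cfsg.hermForm n F q (e F₀ P c) (e F₀ P c) = 2 * ((Q c : F₀) : F) := by
      rw [D.form, pself]; push_cast; rw [coe2]
    rw [← hz₁, ← hz₂] at h1
    simp only [Uni.hermForm_sub_left, Uni.hermForm_sub_right D.hF, Uni.hermForm_smul_left, Uni.hermForm_smul_right, f1,
      f2, f3, f4, mul_zero, sub_zero, zero_sub, neg_zero, sub_neg_eq_add] at h1
    set A := Cfsg.hermForm n F q w (e F₀ P a'') with hA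
    have h2 : Cfsg.hermForm n F q w (e F₀ P a') = ω * A := by
      rw [haa, Uni.hermForm_add_right D.hF, Uni.hermForm_smul_right, D.sk] at hwv
      linear_combination hwv
    have hAA : (A ^ (q + 1)) ^ q = A ^ (q + 1) := Uni.norm_pow_q D.hF A
    have e2 : ((2 : F)) ^ q = 2 := by
      have := D.pow_mem (2 : F₀)
      rwa [coe2] at this
    have h3 : ω * (A ^ (q + 1) * (2 * ((Q c : F₀) : F))) = ((polar Q z₁ z₂ : F₀) : F) := by
      rw [← h1, h2]; ring
    have h4 := congrArg (fun x => x ^ q) h3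
    simp only [mul_pow, D.sk, hAA, e2, D.pow_mem] at h4
    have h5 : (2 : F) * (ω * (A ^ (q + 1) * (2 * ((Q c : F₀) : F)))) = 0 := by linear_combination h3 - h4
    refine mul_ne_zero D.two' (mul_ne_zero D.ne (mul_ne_zero (pow_ne_zero _ hu) (mul_ne_zero D.two' fun h => hcq (Subtype.ext h)))) h5
  · -- the other case
    obtain ⟨b, c, hb, hbn, hb1, hb2, hc1, hc2, hbc, hcq⟩ := exists_pair D.nd D.two (by omega) hts
    have hb0 : b ≠ 0 := by rintro rfl; exact hbn (Submodule.zero_mem _)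
    have hvb := hperp b hb1 hb2
    have hvc := hperp c hc1 hc2
    obtain ⟨u, hua, hu⟩ := hdet b hb0
    set w : Fin n → F := (g : Matrix (Fin n) (Fin n) F) *ᵥ e F₀ P u with hw
    obtain ⟨_, _, m⟩ := hE b c hb hbc
    have hkv : ((em P Q (eich Q b c hb hbc) : GL (Fin n) F) : Matrix (Fin n) (Fin n) F) *ᵥ v = v := by
      rw [D.em_eich hb hbc, hvb, hvc]; simp
    obtain ⟨u₁, hu₁a, hu₁⟩ := hfix _ m hkv u hua
    obtain ⟨u₂, hu₂a, hu₂⟩ := hfix _ m hkv (u₁ - u) (by rw [pdl, hu₁a, hua, sub_zero])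
    -- `λ b` is conjugate-rational
    set lam : F := -(2 * ((Q c : F₀) : F) * Cfsg.hermForm n F q w (e F₀ P b)) with hlam
    have hlam0 : lam ≠ 0 := neg_ne_zero.2 (mul_ne_zero (mul_ne_zero D.two' fun h => hcq (Subtype.ext h)) hu)
    have fbb : Cfsg.hermForm n F q (e F₀ P b) (e F₀ P b) = 0 := D.e_iso hb
    have fbc : Cfsg.hermForm n F q (e F₀ P b) (e F₀ P c) = 0 := by rw [D.form, hbc]; rfl
    have fcb : Cfsg.hermForm n F q (e F₀ P c) (e F₀ P b) = 0 := by rw [D.form, pc, hbc]; rfl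
    have fcc : Cfsg.hermForm n F q (e F₀ P c) (e F₀ P c) = 2 * ((Q c : F₀) : F) := by
      rw [D.form, pself]; push_cast; rw [coe2]
    have hlb : lam • e F₀ P b = (g : Matrix (Fin n) (Fin n) F) *ᵥ e F₀ P (u₂ - (u₁ - u)) := by
      rw [e_sub, Matrix.mulVec_sub, ← hu₂, e_sub, Matrix.mulVec_sub, ← hu₁, ← hw, D.em_eich hb hbc, D.em_eich hb hbc]
      simp only [Uni.hermForm_add_left, Uni.hermForm_sub_left, Uni.hermForm_smul_left, fbb, fbc, fcb, fcc]
      rw [hlam]
      module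
    set z := u₂ - (u₁ - u) with hz
    have hza : polar Q a z = 0 := by rw [pc, hz, pdl, pdl, hu₂a, hu₁a, hua]; ring
    have hzq : Q z = 0 := by
      have h1 := hgU (e F₀ P z) (e F₀ P z)
      rw [← hlb, Uni.hermForm_smul_left, Uni.hermForm_smul_right, fbb, D.form, pself] at h1
      push_cast at h1
      rw [coe2] at h1
      have h3 : (2 : F) * ((Q z : F₀) : F) = 0 := by linear_combination -h1
      exact Subtype.ext ((mul_eq_zero.1 h3).resolve_left D.two')
    obtain ⟨_, _, mz⟩ := hE a z ha hza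
    -- the conjugate of the root element, with centre `b`
    have hmem : g * em P Q (eich Q a z ha hza) * g⁻¹ ∈ M := M.mul_mem (M.mul_mem hg mz) (M.inv_mem hg)
    have hbv : Cfsg.hermForm n F q (e F₀ P b) v = 0 := (Uni.hermForm_eq_zero_comm D.hF).1 hvb
    have hlamq : (lam ^ q) ^ q = lam := Uni.pow_q_pow_q D.hF lam
    have hact : ∀ x, ((g * em P Q (eich Q a z ha hza) * g⁻¹ : GL (Fin n) F) : Matrix (Fin n) (Fin n) F) *ᵥ x =
        x + Cfsg.hermForm n F q x (-(lam ^ q) • v) • e F₀ P b - Cfsg.hermForm n F q x (e F₀ P b) • (-(lam ^ q) • v) -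
          (0 * Cfsg.hermForm n F q x (e F₀ P b)) • e F₀ P b := by
      intro x
      have hneg : (-(lam ^ q)) ^ q = -lam := by
        rw [Uni.neg_pow_q D.hF, hlamq]
      have h0 : ((Q z : F₀) : F) = 0 := by rw [hzq]; rfl
      rw [gl_mul_mulVec, gl_mul_mulVec, D.em_eich ha hza, Matrix.mulVec_sub, Matrix.mulVec_sub, Matrix.mulVec_add,
        Matrix.mulVec_smul, Matrix.mulVec_smul, Matrix.mulVec_smul, gl_mulVec_inv, hgi, hgi, h0, ← hv, ← hlb,
        Uni.hermForm_smul_right, Uni.hermForm_smul_right, hneg]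
      module
    -- all `η` are rational
    have hη : ∀ x₁ : Fin n → F₀, polar Q b x₁ = 0 →
        (Cfsg.hermForm n F q (-(lam ^ q) • v) (e F₀ P x₁)) ^ q = Cfsg.hermForm n F q (-(lam ^ q) • v) (e F₀ P x₁) := by
      intro x₁ hx₁
      by_contra hne
      set η := Cfsg.hermForm n F q (-(lam ^ q) • v) (e F₀ P x₁) with hηd
      have hη' : Cfsg.hermForm n F q (e F₀ P x₁) (-(lam ^ q) • v) = η ^ q := (Uni.hermForm_symm D.hF _ _).symm
      have hκ : η - η ^ q ≠ 0 := sub_ne_zero.2 (Ne.symm hne)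
      refine hno b hb hb0 fun d hd => ?_
      have hηq : (η ^ q) ^ q = η := Uni.pow_q_pow_q D.hF η
      have ht : d / (η - η ^ q) ∈ F₀ := by
        apply S5660.mem_of_pow_q D.hF D.hcard
        rw [div_pow, hd, Uni.sub_pow_q D.hF, hηq, ← neg_sub η (η ^ q), neg_div_neg_eq]
      set t : F₀ := ⟨d / (η - η ^ q), ht⟩ with htd
      have hbt : polar Q b (t • x₁) = 0 := by rw [psr, hx₁, mul_zero]
      obtain ⟨_, _, mt⟩ := hE b (t • x₁) hb hbt
      have h1 := D.hasT_comm (M := M) (β := -(lam ^ q) • v) (β' := e F₀ P (t • x₁)) (t := 0)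
        (t' := ((Q (t • x₁) : F₀) : F)) fbb
        (by rw [Uni.hermForm_smul_left, hvb, mul_zero]) (by rw [D.form, pc, hbt]; rfl) hmem mt hact
        (fun x => D.em_eich hb hbt x)
      have h2 : Cfsg.hermForm n F q (-(lam ^ q) • v) (e F₀ P (t • x₁)) -
          Cfsg.hermForm n F q (e F₀ P (t • x₁)) (-(lam ^ q) • v) = d := by
        rw [e_smul, Uni.hermForm_smul_left (t : F), Uni.hermForm_smul_right (t : F), hη', D.pow_mem, ← hηd, ← mul_sub, htd]
        exact div_mul_cancel₀ _ hκ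
      rwa [h2] at h1
    -- write `-(λ^q) v = y' + ω y''`
    obtain ⟨y', y'', hy⟩ := D.exists_e (-(lam ^ q) • v)
    obtain ⟨k, hk⟩ : ∃ k : F₀, k • b = y'' := by
      by_contra hcon
      have hy'' : y'' ∉ Submodule.span F₀ {x | x ∈ [b]} := by
        rw [hs1, Submodule.mem_span_singleton]; exact hcon
      obtain ⟨x₁, hx₁, hx₁y⟩ := exists_sep D.nd [b] hy''
      have h1 := hη x₁ (by rw [pc]; exact hx₁ b (by simp))
      have h2 : Cfsg.hermForm n F q (-(lam ^ q) • v) (e F₀ P x₁) = ((polar Q y' x₁ : F₀) : F) + ω := by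
        rw [hy, Uni.hermForm_add_left, Uni.hermForm_smul_left, D.form, D.form, pc Q y'' x₁, hx₁y]
        push_cast; ring
      rw [h2, Uni.add_pow_q D.hF, D.pow_mem, D.sk] at h1
      have h6 : (2 : F) * ω = 0 := by linear_combination -h1
      exact mul_ne_zero D.two' D.ne h6
    -- comparison of coordinates
    have hl0 : -(lam ^ q) ≠ 0 := neg_ne_zero.2 (pow_ne_zero _ hlam0)
    obtain ⟨s, t, hst⟩ := S5660.exists_coord D.hcard D.notMem (-(lam ^ q))⁻¹
    obtain ⟨δ, hδ⟩ : ∃ δ : F₀, (δ : F) = ω * ω := by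
      refine ⟨⟨ω * ω, S5660.mem_of_pow_q D.hF D.hcard ?_⟩, rfl⟩
      rw [mul_pow, D.sk]; ring
    have h1 : e F₀ P a' + ω • e F₀ P a'' = e F₀ P (s • y' + (δ * t * k) • b) + ω • e F₀ P (t • y' + (s * k) • b) := by
      have h2 : v = (-(lam ^ q))⁻¹ • (e F₀ P y' + ω • e F₀ P (k • b)) := by
        rw [hk, ← hy, smul_smul, inv_mul_cancel₀ hl0, one_smul]
      rw [← haa, h2, hst]
      simp only [e_add, e_smul]
      push_cast
      rw [hδ]
      module
    obtain ⟨h2, h3⟩ := D.uniq h1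
    have h4 : s • a'' - t • a' = (k * (s * s - δ * (t * t))) • b := by rw [h2, h3]; module
    by_cases h5 : k * (s * s - δ * (t * t)) = 0
    · have h6 : s * s - δ * (t * t) ≠ 0 := by
        intro h0
        have h7 : ((s : F) + ω * t) * ((s : F) - ω * t) = 0 := by
          have := congrArg (fun c : F₀ => (c : F)) h0
          push_cast at this
          rw [hδ] at this
          linear_combination this
        have h8 : (s : F) + ω * t ≠ 0 := by rw [← hst]; exact inv_ne_zero hl0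
        have h9 := (mul_eq_zero.1 h7).resolve_left h8
        -- `s = ω t`
        have h10 : e F₀ P (s • a') + ω • e F₀ P ((-t) • a') = e F₀ P 0 + ω • e F₀ P 0 := by
          rw [e_zero, smul_zero, add_zero, e_smul, e_smul, smul_smul, ← add_smul]
          convert zero_smul F (e F₀ P a') using 2
          push_cast
          linear_combination h9
        obtain ⟨h11, h12⟩ := D.uniq h10
        have hs : s = 0 := (smul_eq_zero.1 h11).resolve_right ha'0
        have ht : t = 0 := neg_eq_zero.1 ((smul_eq_zero.1 h12).resolve_right ha'0)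
        rw [hs, ht] at h8
        simp at h8
      have h7 : k = 0 := (mul_eq_zero.1 h5).resolve_right h6
      rw [h5, zero_smul] at h4
      obtain ⟨i1, i2⟩ := indep (-t) s (by rw [← h4]; module)
      rw [i2, neg_eq_zero.1 i1] at h6
      simp at h6
    · apply hbn
      rw [hs2, Submodule.mem_span_pair]
      refine ⟨-((k * (s * s - δ * (t * t)))⁻¹ * t), (k * (s * s - δ * (t * t)))⁻¹ * s, ?_⟩
      have h6 : (k * (s * s - δ * (t * t)))⁻¹ • (s • a'' - t • a') = b := by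
        rw [h4, smul_smul, inv_mul_cancel₀ h5, one_smul]
      rw [← h6]; module

/-- all of `M` is rational -/
theorem mem_sub (hM : M ≤ Cfsg.GU n F q ⊓ specialLinear (Fin n) F)
    (hE : ∀ a b, Q a = 0 → polar Q a b = 0 → HasE (M.comap (em P Q)) a b)
    (hno : ∀ c, Q c = 0 → c ≠ 0 → ¬ UT q M (e F₀ P c)) {g : GL (Fin n) F} (hg : g ∈ M) : g ∈ subfieldSubgroup F₀ P := by
  have hfr := D.frk
  have hdim := D.dim
  have hgU := mem_GU.1 (hM hg).1
  rw [S5660.mem_sub_iff]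
  have hsing := fun a (ha : Q a = 0) => D.sing_rational hM hE hno hg ha
  have hne : ∀ x : Fin n → F₀, x ≠ 0 → ∀ (l : F) (x₁ : Fin n → F₀),
      (g : Matrix (Fin n) (Fin n) F) *ᵥ e F₀ P x = l • e F₀ P x₁ → l ≠ 0 := by
    rintro x hx l x₁ h rfl
    rw [zero_smul] at h
    apply hx
    rw [← S5660.E_eq_zero (P := P)]
    exact gl_mulVec_injective g (by simpa using h)
  obtain ⟨a, ha0, ha⟩ := exists_sing Q (by omega)
  obtain ⟨l, a₁, hla⟩ := hsing a ha
  have hl := hne a ha0 l a₁ hla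
  have kk : ∀ (x x' z z' : Fin n → F₀) (k μ : F), (g : Matrix (Fin n) (Fin n) F) *ᵥ e F₀ P x = k • e F₀ P x' →
      (g : Matrix (Fin n) (Fin n) F) *ᵥ e F₀ P z = μ • e F₀ P z' → polar Q x z ≠ 0 → k * μ ^ q ∈ F₀ := by
    intro x x' z z' k μ hk hμ hxz
    have h1 := hgU (e F₀ P x) (e F₀ P z)
    rw [hk, hμ, Uni.hermForm_smul_left, Uni.hermForm_smul_right, D.form, D.form] at h1
    have h3 : ((polar Q x' z' : F₀) : F) ≠ 0 := by
      intro h0
      rw [h0, mul_zero, mul_zero] at h1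
      exact hxz (Subtype.ext h1.symm)
    have h4 : k * μ ^ q = ((polar Q x z / polar Q x' z' : F₀) : F) := by
      push_cast; rw [eq_div_iff h3, ← h1]; ring
    rw [h4]; exact SetLike.coe_mem _
  have hsing' : ∀ y, Q y = 0 → ∃ y₁, (g : Matrix (Fin n) (Fin n) F) *ᵥ e F₀ P y = l • e F₀ P y₁ := by
    intro y hy
    by_cases hy0 : y = 0
    · exact ⟨0, by rw [hy0, e_zero, Matrix.mulVec_zero, smul_zero]⟩
    obtain ⟨l', y', hy'⟩ := hsing y hy
    obtain ⟨c, hc, hac, hyc⟩ := exists_sing_common D.nd (by omega) ha hy ha0 hy0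
    have hc0 : c ≠ 0 := by rintro rfl; exact hac (polar_zero_right Q a)
    obtain ⟨μ, c', hc'⟩ := hsing c hc
    have hμ := hne c hc0 μ c' hc'
    have k1 := kk a a₁ c c' l μ hla hc' hac
    have k2 := kk y y' c c' l' μ hy' hc' hyc
    have h3 : l' / l ∈ F₀ := by
      have := F₀.div_mem k2 k1
      rwa [mul_div_mul_right _ _ (pow_ne_zero _ hμ)] at this
    refine ⟨(⟨l' / l, h3⟩ : F₀) • y', ?_⟩
    rw [hy', e_smul, smul_smul]
    congr 1
    field_simp
  refine ⟨l, hl, fun y => ?_⟩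
  by_cases hy : Q y = 0
  · exact hsing' y hy
  have hy0 : y ∉ Submodule.span F₀ {x | x ∈ ([] : List (Fin n → F₀))} := by
    intro hmem
    have e : ({x | x ∈ ([] : List (Fin n → F₀))} : Set (Fin n → F₀)) = ∅ := by ext z; simp
    rw [e, Submodule.span_empty, Submodule.mem_bot] at hmem
    exact hy (by rw [hmem, QuadraticMap.map_zero])
  obtain ⟨w, -, hw⟩ := exists_sep D.nd [] hy0
  obtain ⟨s, hs, hsl⟩ := repV D.nd [y] (by simp; omega) (Q y • w) 0
  have hsy : polar Q s y = Q y := by rw [hsl y (by simp), psl, hw, mul_one]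
  obtain ⟨s₁, hs₁⟩ := hsing' s hs
  obtain ⟨s₂, hs₂⟩ := hsing' (y - s) (by rw [qsub, hs, pc, hsy]; ring)
  refine ⟨s₁ + s₂, ?_⟩
  have : e F₀ P y = e F₀ P s + e F₀ P (y - s) := by rw [← e_add, add_sub_cancel]
  change (g : Matrix (Fin n) (Fin n) F) *ᵥ e F₀ P y = l • e F₀ P (s₁ + s₂)
  rw [this, Matrix.mulVec_add, hs₁, hs₂, e_add, smul_add]

theorem maximal : IsMaximalIn (Cfsg.GU n F q ⊓ specialLinear (Fin n) F)
    (subfieldSubgroup F₀ P ⊓ (Cfsg.GU n F q ⊓ specialLinear (Fin n) F)) := by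
  have hfr := D.frk
  have hdim := D.dim
  constructor
  · refine lt_of_le_of_ne inf_le_right ?_
    intro heq
    obtain ⟨c, hc0, hc⟩ := exists_sing Q (by omega)
    have hcc := D.e_iso hc
    have hu0 : (ω • cv q (e F₀ P c)) ⬝ᵥ (e F₀ P c) = 0 := by rw [smul_dotProduct, cv_dotProduct, hcc, smul_zero]
    have hmem := tvec_mem D.hF hu0 D.sk
    rw [← heq] at hmem
    obtain ⟨l, hl, h⟩ := S5660.mem_sub_iff.1 hmem.1
    obtain ⟨l₁, l₂, hl12⟩ := S5660.exists_coord D.hcard D.notMem l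
    have hform : ∀ y, (tvec (e F₀ P c) (ω • cv q (e F₀ P c)) hu0 : Matrix (Fin n) (Fin n) F) *ᵥ e F₀ P y =
        e F₀ P y + ω • e F₀ P (polar Q y c • c) := by
      intro y
      rw [tvec_mulVec, smul_dotProduct, cv_dotProduct, D.form, e_smul, smul_eq_mul, mul_smul]
    have hl' : ∀ y₁ : Fin n → F₀, l • e F₀ P y₁ = e F₀ P (l₁ • y₁) + ω • e F₀ P (l₂ • y₁) := by
      intro y₁
      rw [hl12, e_smul, e_smul]; module
    obtain ⟨c₁, hc₁⟩ := h c
    have h1 : e F₀ P c + ω • e F₀ P 0 = e F₀ P (l₁ • c₁) + ω • e F₀ P (l₂ • c₁) := by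
      rw [← hl', ← hc₁]
      change _ = (tvec (e F₀ P c) (ω • cv q (e F₀ P c)) hu0 : Matrix (Fin n) (Fin n) F) *ᵥ e F₀ P c
      rw [hform, pself, hc, mul_zero, zero_smul]
    obtain ⟨h2, h3⟩ := D.uniq h1
    have hc₁0 : c₁ ≠ 0 := by rintro rfl; rw [smul_zero] at h2; exact hc0 h2
    have hl₂ : l₂ = 0 := (smul_eq_zero.1 h3.symm).resolve_right hc₁0
    obtain ⟨y, hy⟩ := exists_polar_ne D.nd hc0
    obtain ⟨y₁, hy₁⟩ := h y
    have h4 : e F₀ P y + ω • e F₀ P (polar Q y c • c) = e F₀ P (l₁ • y₁) + ω • e F₀ P (l₂ • y₁) := by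
      rw [← hl', ← hy₁]
      change _ = (tvec (e F₀ P c) (ω • cv q (e F₀ P c)) hu0 : Matrix (Fin n) (Fin n) F) *ᵥ e F₀ P y
      rw [hform]
    have h5 := (D.uniq h4).2
    rw [hl₂, zero_smul] at h5
    rcases smul_eq_zero.1 h5 with h6 | h6
    · exact hy h6
    · exact hc0 h6
  · intro M hHM hMI
    have hE : ∀ a b, Q a = 0 → polar Q a b = 0 → HasE (M.comap (em P Q)) a b := by
      intro a b ha hab
      exact ⟨ha, hab, hHM (D.em_mem (eich_mem_commutator5 D.nd (by omega) ha hab))⟩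
    by_cases hno : ∀ c, Q c = 0 → c ≠ 0 → ¬ UT q M (e F₀ P c)
    · left
      exact le_antisymm (fun g hg => Subgroup.mem_inf.2 ⟨D.mem_sub hMI hE hno hg, hMI hg⟩) hHM
    · right
      push Not at hno
      obtain ⟨c, hc, hc0, hut⟩ := hno
      exact le_antisymm hMI (D.su_le_of_UT hMI hE hc hc0 hut)

end Dat

/-- the quadratic form of a rational structure -/
theorem exists_dat (hF : Fintype.card F = q ^ 2) (hn : 6 ≤ n) (hodd : Odd q)
    (hcard : Fintype.card F = Nat.card F₀ ^ 2) (hP : IsFormRationalStructure (Cfsg.hermForm n F q) F₀ 1 P) :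
    ∃ (Q : QuadraticForm F₀ (Fin n → F₀)) (ω : F), Dat q P Q ω := by
  have h2F : (2 : F) ≠ 0 := Orth.two_ne_zero_of_odd (by rw [hF]; exact hodd.pow)
  have h2 : (2 : F₀) ≠ 0 := by
    intro h; apply h2F
    have := congrArg (fun c : F₀ => (c : F)) h
    exact this
  have hB : ∀ x y : Fin n → F₀, Cfsg.hermForm n F q (e F₀ P x) (e F₀ P y) ∈ F₀ := by
    intro x y
    have := hP (emb F₀ x) (emb F₀ y) (fun i => (x i).2) (fun i => (y i).2)
    rwa [one_mul] at this
  let B : (Fin n → F₀) → (Fin n → F₀) → F₀ := fun x y => ⟨_, hB x y⟩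
  have hBc : ∀ x y, ((B x y : F₀) : F) = Cfsg.hermForm n F q (e F₀ P x) (e F₀ P y) := fun x y => rfl
  have hBs : ∀ x y, B x y = B y x := by
    intro x y
    apply Subtype.ext
    rw [hBc, hBc, ← Uni.hermForm_symm hF (e F₀ P y)]
    exact S5660.pow_q_of_mem hF hcard (hB y x)
  have hBal : ∀ x y z, B (x + y) z = B x z + B y z := by
    intro x y z
    apply Subtype.ext
    push_cast
    rw [hBc, hBc, hBc, Dat.e_add, Uni.hermForm_add_left]
  have hBsl : ∀ (c : F₀) x z, B (c • x) z = c * B x z := by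
    intro c x z
    apply Subtype.ext
    push_cast
    rw [hBc, hBc, Dat.e_smul, Uni.hermForm_smul_left]
  have hBar : ∀ x y z, B z (x + y) = B z x + B z y := by
    intro x y z; rw [hBs, hBal, hBs x, hBs y]
  have hBsr : ∀ (c : F₀) x z, B z (c • x) = c * B z x := by
    intro c x z; rw [hBs, hBsl, hBs x]
  have hpol : ∀ x y, QuadraticMap.polar (fun x => (2 : F₀)⁻¹ * B x x) x y = B x y := by
    intro x y
    simp only [QuadraticMap.polar, hBal, hBar, hBs y x]
    field_simp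
    ring
  let Q : QuadraticForm F₀ (Fin n → F₀) := QuadraticMap.ofPolar (fun x => (2 : F₀)⁻¹ * B x x)
    (fun a x => by simp only [hBsl, hBsr, smul_eq_mul]; ring)
    (fun x x' y => by rw [hpol, hpol, hpol, hBal])
    (fun a x y => by rw [hpol, hpol, hBsl, smul_eq_mul])
  have hQp : ∀ x y, polar Q x y = B x y := hpol
  obtain ⟨θ, hθ⟩ := Uni.exists_pow_q_ne hF
  refine ⟨Q, θ - θ ^ q, ?_⟩
  have hω : θ - θ ^ q ≠ 0 := sub_ne_zero.2 (Ne.symm hθ)
  have hsk : (θ - θ ^ q) ^ q = -(θ - θ ^ q) := by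
    rw [Uni.sub_pow_q hF, Uni.pow_q_pow_q hF]; ring
  have hω' : θ - θ ^ q ∉ F₀ := by
    intro h
    have h1 := S5660.pow_q_of_mem hF hcard h
    rw [hsk] at h1
    have h3 : (2 : F) * (θ - θ ^ q) = 0 := by linear_combination -h1
    exact (mul_ne_zero h2F hω) h3
  have hnd : ∀ x, (∀ y, polar Q x y = 0) → x = 0 := by
    intro x hx
    rw [← S5660.E_eq_zero (P := P)]
    apply Uni.hermForm_nondeg hF
    intro y
    obtain ⟨a, b, rfl⟩ := S5660.exists_E (P := P) hcard hω' y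
    rw [Uni.hermForm_add_right hF, Uni.hermForm_smul_right]
    have h0 : ∀ z, Cfsg.hermForm n F q (S5660.E F₀ P x) (S5660.E F₀ P z) = 0 := by
      intro z
      have := hx z
      rw [hQp] at this
      have h3 := congrArg (fun c : F₀ => (c : F)) this
      exact h3
    rw [h0, h0]; ring
  exact ⟨hF, hcard, fun x y => by rw [hQp], ⟨fun x hx => hnd x hx, fun x hx => hnd x fun y => by rw [pc]; exact hx y⟩,
    h2, hsk, hω, hn⟩

end Cfsg.Agent.H94.USO6
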